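import Mathlib

/-! Burnside's theorem on groups of prime degree, after P. Müller. -/

namespace Cfsg.Lib.PermGroup.BurnsidePrime

open Polynomial Finset

variable {p : ℕ} [hp : Fact p.Prime]

/-- Power sum. -/
def psum (U : Finset (ZMod p)) (i : ℕ) : ZMod p := ∑ u ∈ U, u ^ i

theorem psum_ne_zero_exists {U : Finset (ZMod p)} (h0 : (0 : ZMod p) ∉ U) (hne : U.Nonempty) :
    ∃ i, 1 ≤ i ∧ i ≤ U.card ∧ psum U i ≠ 0 := by
  by_contra h
  push Not at h
  set P : (ZMod p)[X] := ∏ u ∈ U, (X - C u) with hP
  have hdeg : P.natDegree = U.card := by rw [hP, natDegree_finset_prod_X_sub_C_eq_card]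
  have h1 : ∑ u ∈ U, P.eval u = 0 := sum_eq_zero fun u hu => by
    rw [hP, eval_prod]; exact prod_eq_zero hu (by simp)
  have h2 : ∑ u ∈ U, P.eval u = P.coeff 0 * (U.card : ZMod p) := by
    simp only [eval_eq_sum_range, hdeg]
    rw [sum_comm, sum_eq_single 0]
    · rw [← mul_sum]; simp
    · intro i hi hi0
      rw [← mul_sum, h i (Nat.one_le_iff_ne_zero.2 hi0) (Nat.lt_succ_iff.1 (mem_range.1 hi))
        |> (fun e : psum U i = 0 => show ∑ u ∈ U, u ^ i = 0 from e), mul_zero]
    · simp
  have h3 : P.coeff 0 ≠ 0 := by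
    rw [coeff_zero_eq_eval_zero, hP, eval_prod]
    exact prod_ne_zero_iff.2 fun u hu => by simpa using fun e : u = 0 => h0 (e ▸ hu)
  have hlt : U.card < p := by
    have := card_lt_card (Finset.ssubset_univ_iff.2 fun e => h0 (e ▸ mem_univ 0) : U ⊂ univ)
    rwa [card_univ, ZMod.card] at this
  have h4 : (U.card : ZMod p) ≠ 0 := by
    rw [Ne, ZMod.natCast_eq_zero_iff]
    exact fun e => absurd (Nat.le_of_dvd hne.card_pos e) (not_le.2 hlt)
  exact mul_ne_zero h3 h4 (h2.symm.trans h1)

/-- The least nonvanishing power sum sits below half. -/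
theorem exists_m {U : Finset (ZMod p)} (h0 : (0 : ZMod p) ∉ U) (hne : U.Nonempty)
    (hprop : ∃ v, v ≠ 0 ∧ v ∉ U) :
    ∃ m, 1 ≤ m ∧ 2 * m < p ∧ psum U m ≠ 0 ∧ ∀ i, 1 ≤ i → i < m → psum U i = 0 := by
  classical
  obtain ⟨v, hv0, hvU⟩ := hprop
  set U' : Finset (ZMod p) := (univ.erase 0) \ U with hU'
  have hne' : U'.Nonempty := ⟨v, by simp [hU', hv0, hvU]⟩
  have hsub : U ⊆ univ.erase 0 := fun u hu => mem_erase.2 ⟨fun e => h0 (e ▸ hu), mem_univ u⟩
  have hcard : U'.card + U.card = p - 1 := by
    rw [hU', card_sdiff_add_card_eq_card hsub, card_erase_of_mem (mem_univ _), card_univ, ZMod.card]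
  have hex := psum_ne_zero_exists h0 hne
  have hm := Nat.find_spec hex
  have hmin : ∀ i, 1 ≤ i → i < Nat.find hex → psum U i = 0 := fun i hi hlt => by
    by_contra h
    exact Nat.find_min hex hlt ⟨hi, by omega, h⟩
  refine ⟨Nat.find hex, hm.1, ?_, hm.2.2, hmin⟩
  obtain ⟨i, hi1, hi2, hi3⟩ := psum_ne_zero_exists (U := U') (by simp [hU']) hne'
  have := hne.card_pos
  have hneg : psum U' i = - psum U i := by
    have h1 := FiniteField.sum_pow_lt_card_sub_one (K := ZMod p) i (by rw [ZMod.card]; omega)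
    rw [← sum_erase_add univ _ (mem_univ (0 : ZMod p)), zero_pow (by omega), add_zero,
      ← sum_sdiff hsub] at h1
    exact eq_neg_of_add_eq_zero_left h1
  by_contra hlt
  rw [hneg, neg_ne_zero] at hi3
  exact hi3 (hmin i hi1 (by omega))

/-- `Σ_u h(x+u) - |U| h`. -/
noncomputable def delta (U : Finset (ZMod p)) (h : (ZMod p)[X]) : (ZMod p)[X] :=
  ∑ u ∈ U, (taylor u h - h)

theorem eval_delta (U : Finset (ZMod p)) (h : (ZMod p)[X]) (x : ZMod p) :
    (delta U h).eval x = ∑ u ∈ U, (h.eval (x + u) - h.eval x) := by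
  simp [delta, eval_finset_sum, taylor_eval]

theorem natDegree_delta_le (U : Finset (ZMod p)) (h : (ZMod p)[X]) :
    (delta U h).natDegree ≤ h.natDegree :=
  natDegree_sum_le_of_forall_le _ _ fun u _ =>
    (natDegree_sub_le _ _).trans (max_le (natDegree_taylor h u).le le_rfl)

theorem coeff_delta (U : Finset (ZMod p)) (h : (ZMod p)[X]) (d : ℕ) :
    (delta U h).coeff d =
      ∑ k ∈ range (h.natDegree + 1), (if d < k then (k.choose d : ZMod p) * h.coeff k * psum U (k - d) else 0) := by
  rw [delta, finset_sum_coeff]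
  have hstep : ∀ u ∈ U, (taylor u h - h).coeff d =
      ∑ k ∈ range (h.natDegree + 1), (if d < k then (k.choose d : ZMod p) * h.coeff k * u ^ (k - d) else 0) := by
    intro u _
    rw [coeff_sub, taylor_coeff, hasseDeriv_apply, sum_over_range]
    · simp only [eval_finset_sum, eval_monomial]
      have : h.coeff d = ∑ k ∈ range (h.natDegree + 1), if k = d then h.coeff k else 0 := by
        rw [sum_ite_eq']
        split_ifs with hd
        · rfl
        · exact coeff_eq_zero_of_natDegree_lt (by rw [mem_range] at hd; omega)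
      rw [this, ← sum_sub_distrib]
      refine sum_congr rfl fun k _ => ?_
      rcases lt_trichotomy d k with hdk | rfl | hdk
      · rw [if_pos hdk, if_neg (ne_of_gt hdk), sub_zero]
      · simp
      · rw [if_neg hdk.not_gt, if_neg (ne_of_lt hdk), Nat.choose_eq_zero_of_lt hdk]; simp
    · intro k; simp
  rw [sum_congr rfl hstep, sum_comm]
  refine sum_congr rfl fun k _ => ?_
  split_ifs
  · rw [psum, mul_sum]
  · simp

theorem delta_eq_zero {U : Finset (ZMod p)} {h : (ZMod p)[X]} {m : ℕ}
    (hmin : ∀ i, 1 ≤ i → i < m → psum U i = 0) (hd : h.natDegree < m) : delta U h = 0 := by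
  ext d
  rw [coeff_delta, coeff_zero]
  refine sum_eq_zero fun k hk => ?_
  rw [mem_range] at hk
  split_ifs with hdk
  · rw [hmin _ (by omega) (by omega), mul_zero]
  · rfl

theorem coeff_delta_top {U : Finset (ZMod p)} {h : (ZMod p)[X]} {m : ℕ} (hm : psum U m ≠ 0) (hm1 : 1 ≤ m)
    (hmin : ∀ i, 1 ≤ i → i < m → psum U i = 0) (hd : m ≤ h.natDegree) (hdp : h.natDegree < p) :
    (delta U h).coeff (h.natDegree - m) ≠ 0 := by
  rw [coeff_delta, sum_eq_single h.natDegree]
  · rw [if_pos (by omega), show h.natDegree - (h.natDegree - m) = m from by omega, Nat.choose_symm hd]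
    refine mul_ne_zero (mul_ne_zero ?_ ?_) hm
    · rw [Ne, ZMod.natCast_eq_zero_iff]
      exact fun e => (Nat.Prime.coprime_iff_not_dvd hp.out).1
        ((hp.out.coprime_choose_of_lt hdp hd)) e
    · exact leadingCoeff_ne_zero.2 fun e => by simp [e] at hd; omega
  · intro k hk hne
    rw [mem_range] at hk
    split_ifs with hdk
    · rw [hmin _ (by omega) (by omega), mul_zero]
    · rfl
  · simp

theorem eq_of_eval {P Q : (ZMod p)[X]} (hP : P.natDegree < p) (hQ : Q.natDegree < p)
    (h : ∀ x, P.eval x = Q.eval x) : P = Q := by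
  refine eq_of_natDegree_lt_card_of_eval_eq P Q Function.injective_id h ?_
  rw [ZMod.card]; exact max_lt hP hQ

/-- A map permuting a proper nonempty difference set is affine. -/
theorem affine_of_diff {U : Finset (ZMod p)} (h0 : (0 : ZMod p) ∉ U) (hne : U.Nonempty)
    (hprop : ∃ v, v ≠ 0 ∧ v ∉ U) (g : Equiv.Perm (ZMod p))
    (hU : ∀ i u, g (i + u) - g i ∈ U ↔ u ∈ U) :
    ∃ a b : ZMod p, a ≠ 0 ∧ ∀ x, g x = a * x + b := by
  classical
  obtain ⟨m, hm1, hm2, hms, hmin⟩ := exists_m h0 hne hprop
  set f : (ZMod p)[X] := Lagrange.interpolate univ id g with hf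
  have heval : ∀ x, f.eval x = g x := fun x => by
    simpa [hf] using Lagrange.eval_interpolate_at_node (s := univ) (v := id) g
      Function.injective_id.injOn (mem_univ x)
  have hfp : f.natDegree < p := by
    have h1 : f.degree < ((univ : Finset (ZMod p)).card : ℕ) :=
      Lagrange.degree_interpolate_lt g Function.injective_id.injOn
    rw [card_univ, ZMod.card] at h1
    by_cases hz : f = 0
    · simp [hz, hp.out.pos]
    · exact (natDegree_lt_iff_degree_lt hz).2 h1
  have hreindex : ∀ (i : ZMod p) (φ : ZMod p → ZMod p),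
      ∑ u ∈ U, φ (f.eval (i + u)) = ∑ u ∈ U, φ (f.eval i + u) := by
    intro i φ
    refine sum_bij (fun u _ => g (i + u) - g i) (fun u hu => (hU i u).2 hu)
      (fun u _ w _ e => ?_) (fun v hv => ⟨g.symm (g i + v) - i, ?_, ?_⟩) fun u _ => ?_
    · exact add_left_cancel (g.injective (sub_left_injective e))
    · rw [← hU i]; simpa using hv
    · simp
    · rw [heval, heval, add_sub_cancel]
  have hdeg : f.natDegree = 1 := by
    have hpos : f.natDegree ≠ 0 := by
      intro e
      obtain ⟨c, hc⟩ := natDegree_eq_zero.1 e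
      have : g 0 = g 1 := by rw [← heval, ← heval, ← hc]; simp
      exact zero_ne_one (g.injective this)
    by_contra hn1
    set n := f.natDegree with hn
    have hn2 : 2 ≤ n := by omega
    rcases eq_or_lt_of_le hm1 with rfl | hm
    · have hq : delta U f = C (psum U 1) := by
        refine eq_of_eval (lt_of_le_of_lt (natDegree_delta_le U f) hfp) (by rw [natDegree_C]; exact hp.out.pos)
          fun x => ?_
        rw [eval_delta, eval_C, sum_sub_distrib,
          show ∑ u ∈ U, f.eval (x + u) = ∑ u ∈ U, (f.eval x + u) from hreindex x id, ← sum_sub_distrib]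
        simp [psum]
      have := coeff_delta_top hms le_rfl hmin (show 1 ≤ f.natDegree by omega) hfp
      rw [hq, coeff_C, if_neg (by omega)] at this
      exact this rfl
    · -- the least `j` with `m ≤ j * n`
      have hex : ∃ j, m ≤ j * n := ⟨m, Nat.le_mul_of_pos_right _ (by omega)⟩
      set j := Nat.find hex with hj
      have hj1 : 1 ≤ j := Nat.one_le_iff_ne_zero.2 fun e => by
        have := Nat.find_spec hex
        rw [← hj, e, zero_mul] at this
        omega
      have hjn : j * n < m + n := by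
        have := Nat.find_min hex (show j - 1 < j by omega)
        rw [Nat.sub_one_mul] at this
        omega
      have hjm : j < m := by
        by_contra hle
        have := Nat.find_min hex (show m - 1 < j by omega)
        have : 2 * (m - 1) ≤ (m - 1) * n := by rw [mul_comm]; exact Nat.mul_le_mul_left _ hn2
        omega
      have key : ∀ i, i < m → ∀ x, ∑ u ∈ U, ((f ^ i).eval (x + u) - (f ^ i).eval x) = 0 := by
        intro i hi x
        have h1 : delta U (X ^ i : (ZMod p)[X]) = 0 := delta_eq_zero hmin (by rwa [natDegree_X_pow])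
        have h2 := congrArg (Polynomial.eval (f.eval x)) h1
        rw [eval_delta, eval_zero] at h2
        simp only [eval_pow, eval_X, sum_sub_distrib] at h2 ⊢
        rwa [hreindex x (fun y => y ^ i)]
      have hnm : n < m := by
        by_contra hle
        rw [not_lt] at hle
        have h1 : delta U f = 0 := eq_of_eval (lt_of_le_of_lt (natDegree_delta_le U f) hfp)
          (by rw [natDegree_zero]; exact hp.out.pos) fun x => by
            rw [eval_delta, eval_zero]; simpa using key 1 hm x
        exact coeff_delta_top hms hm1 hmin hle hfp (by rw [h1, coeff_zero])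
      have hd : (f ^ j).natDegree = j * n := natDegree_pow f j
      have hlt : j * n < p := by omega
      have h1 : delta U (f ^ j) = 0 := eq_of_eval
        (lt_of_le_of_lt (natDegree_delta_le U _) (hd ▸ hlt))
        (by rw [natDegree_zero]; exact hp.out.pos) fun x => by rw [eval_delta, eval_zero]; exact key j hjm x
      exact coeff_delta_top hms hm1 hmin (h := f ^ j) (hd ▸ Nat.find_spec hex) (hd ▸ hlt)
        (by rw [h1, coeff_zero])
  refine ⟨f.coeff 1, f.coeff 0, ?_, fun x => ?_⟩
  · rw [show (1 : ℕ) = f.natDegree from hdeg.symm]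
    exact leadingCoeff_ne_zero.2 fun e => by simp [e] at hdeg
  · rw [← heval, eval_eq_sum_range, hdeg, sum_range_succ, sum_range_one]; ring

/-- A transitive group of prime degree which is not doubly transitive is solvable. -/
theorem isSolvable {α : Type*} [Fintype α] [DecidableEq α] (hα : (Fintype.card α).Prime)
    (G : Subgroup (Equiv.Perm α)) [MulAction.IsPretransitive G α]
    (h2 : ¬ MulAction.IsMultiplyPretransitive G α 2) : Group.IsSolvable G := by
  classical
  haveI : Fact (Fintype.card α).Prime := ⟨hα⟩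
  set q := Fintype.card α with hq
  obtain ⟨a₀⟩ : Nonempty α := Fintype.card_pos_iff.1 hα.pos
  -- a cycle of length `q` in `G`
  have hdvd : q ∣ Nat.card G := by
    have h := MulAction.card_orbit_mul_card_stabilizer_eq_card_group G a₀
    simp only [← Nat.card_eq_fintype_card] at h
    refine ⟨Nat.card (MulAction.stabilizer G a₀), ?_⟩
    rw [← h, MulAction.orbit_eq_univ]
    simp [hq, Nat.card_eq_fintype_card]
  obtain ⟨c, hc⟩ := exists_prime_orderOf_dvd_card' q hdvd
  have hco : orderOf (c : Equiv.Perm α) = q := by rw [Subgroup.orderOf_coe, hc]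
  have hcyc : (c : Equiv.Perm α).IsCycle := Equiv.Perm.isCycle_of_prime_order'' hα hco
  have hsupp : (c : Equiv.Perm α).support = univ := by
    rw [← card_eq_iff_eq_univ, ← hcyc.orderOf, hco]
  -- the identification with `ZMod q`
  let e : ZMod q → α := fun i => ((c : Equiv.Perm α) ^ i.val) a₀
  have hpow : ∀ k : ℕ, ((c : Equiv.Perm α) ^ k) a₀ = e (k : ZMod q) := fun k => by
    simp only [e, ZMod.val_natCast, ← hco, pow_mod_orderOf]
  have hsurj : Function.Surjective e := by
    intro x
    obtain ⟨k, hk⟩ := hcyc.exists_pow_eq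
      (Equiv.Perm.mem_support.1 (show a₀ ∈ (c : Equiv.Perm α).support by simp [hsupp]))
      (Equiv.Perm.mem_support.1 (show x ∈ (c : Equiv.Perm α).support by simp [hsupp]))
    exact ⟨k, by rw [← hpow, hk]⟩
  have hbij : Function.Bijective e := (Fintype.bijective_iff_surjective_and_card e).2 ⟨hsurj, ZMod.card q⟩
  let E := Equiv.ofBijective e hbij
  have hshift : ∀ i j : ZMod q, ((c : Equiv.Perm α) ^ i.val) (e j) = e (i + j) := by
    intro i j
    change ((c : Equiv.Perm α) ^ i.val) (((c : Equiv.Perm α) ^ j.val) a₀) = _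
    rw [← Equiv.Perm.mul_apply, ← pow_add, hpow]
    simp [ZMod.natCast_zmod_val]
  let conjG : G →* Equiv.Perm (ZMod q) := E.symm.permCongrHom.toMonoidHom.comp G.subtype
  have hconj : ∀ (g : G) i, e (conjG g i) = (g : Equiv.Perm α) (e i) := fun g i => by
    change E (E.symm ((g : Equiv.Perm α) (E i))) = _
    rw [Equiv.apply_symm_apply]; rfl
  -- a suborbit
  have hx : ∃ x y : α, x ≠ y ∧ ∃ x' y', x' ≠ y' ∧ ¬ ∃ g : G, g • x = x' ∧ g • y = y' := by
    by_contra h
    push Not at h
    refine h2 (MulAction.is_two_pretransitive_iff.2 fun {a b u v} hab huv => ?_)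
    obtain ⟨g, hg⟩ := h a b hab u v huv
    exact ⟨g, hg⟩
  obtain ⟨x, y, hxy, x', y', hx'y', hno⟩ := hx
  let O : α → α → Prop := fun s t => ∃ g : G, g • x = s ∧ g • y = t
  have hO : ∀ (g : G) s t, O ((g : Equiv.Perm α) s) ((g : Equiv.Perm α) t) ↔ O s t := by
    intro g s t
    constructor
    · rintro ⟨k, h1, h2'⟩
      exact ⟨g⁻¹ * k, by rw [mul_smul, h1]; exact inv_smul_smul g s,
        by rw [mul_smul, h2']; exact inv_smul_smul g t⟩
    · rintro ⟨k, rfl, rfl⟩
      exact ⟨g * k, mul_smul .., mul_smul ..⟩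
  have hOs : ∀ i u : ZMod q, O (e i) (e (i + u)) ↔ O (e 0) (e u) := by
    intro i u
    have h1 : e i = ((c ^ i.val : G) : Equiv.Perm α) (e 0) := by
      rw [SubgroupClass.coe_pow, hshift, add_zero]
    have h2' : e (i + u) = ((c ^ i.val : G) : Equiv.Perm α) (e u) := by rw [SubgroupClass.coe_pow, hshift]
    rw [h1, h2', hO]
  let U : Finset (ZMod q) := univ.filter fun u => O (e 0) (e u)
  have hmemU : ∀ u, u ∈ U ↔ O (e 0) (e u) := fun u => by simp [U]
  have hU0 : (0 : ZMod q) ∉ U := fun h => by
    obtain ⟨g, h1, h2'⟩ := (hmemU 0).1 h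
    exact hxy (MulAction.injective g (h1.trans h2'.symm))
  have hUne : U.Nonempty := by
    obtain ⟨i, hi⟩ := hsurj x
    obtain ⟨j, hj⟩ := hsurj y
    refine ⟨j - i, (hmemU _).2 ((hOs i (j - i)).1 ?_)⟩
    rw [add_sub_cancel, hi, hj]
    exact ⟨1, one_smul _ _, one_smul _ _⟩
  have hUp : ∃ v, v ≠ 0 ∧ v ∉ U := by
    obtain ⟨i, hi⟩ := hsurj x'
    obtain ⟨j, hj⟩ := hsurj y'
    refine ⟨j - i, fun h => hx'y' (by rw [← hi, ← hj, sub_eq_zero.1 h]), fun h => hno ?_⟩
    have := (hOs i (j - i)).2 ((hmemU _).1 h)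
    rwa [add_sub_cancel, hi, hj] at this
  have haff : ∀ g : G, ∃ a b : ZMod q, a ≠ 0 ∧ ∀ i, conjG g i = a * i + b := fun g =>
    affine_of_diff hU0 hUne hUp (conjG g) fun i u => by
      rw [hmemU, hmemU, ← hOs (conjG g i), add_sub_cancel, hconj, hconj, hO, hOs]
  choose A Bc hA hAB using haff
  have hAsub : ∀ g : G, A g = conjG g 1 - conjG g 0 := fun g => by rw [hAB, hAB]; ring
  have hmulA : ∀ g h, A (g * h) = A g * A h := fun g h => by
    rw [hAsub (g * h), map_mul, Equiv.Perm.mul_apply, Equiv.Perm.mul_apply, hAB g, hAB g, hAB h, hAB h]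
    ring
  let slope : G →* (ZMod q)ˣ := MonoidHom.mk' (fun g => Units.mk0 (A g) (hA g))
    fun g h => Units.ext (hmulA g h)
  haveI hker : IsMulCommutative slope.ker := by
    refine ⟨⟨fun g h => Subtype.ext ?_⟩⟩
    have hk : ∀ k : slope.ker, ∀ i, conjG k.1 i = i + Bc k.1 := fun k i => by
      have : A k.1 = 1 := congrArg Units.val k.2
      rw [hAB, this, one_mul]
    have hinj : Function.Injective conjG :=
      E.symm.permCongrHom.injective.comp Subtype.val_injective
    refine hinj (Equiv.ext fun i => ?_)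
    change conjG (g.1 * h.1) i = conjG (h.1 * g.1) i
    rw [map_mul, map_mul, Equiv.Perm.mul_apply, Equiv.Perm.mul_apply, hk, hk, hk, hk]
    ring
  haveI : Group.IsSolvable slope.ker := Group.isSolvable_of_comm fun a b => hker.is_comm.comm a b
  exact Group.isSolvable_of_ker_le_range slope.ker.subtype slope (by rw [Subgroup.range_subtype])

end Cfsg.Lib.PermGroup.BurnsidePrime
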