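import Mathlib
import Cfsg.Prelude.Def_Perm

set_option linter.unusedSectionVars false

namespace Cfsg.Agent.PairHeart

open MulAction Pointwise

variable {G : Type*} [Group G] {Ω : Type*} [Fintype Ω] [DecidableEq Ω] [MulAction G Ω]

/-- Without nonzero maps from the heart to the module on pairs, the setwise stabiliser of a pair is
transitive on the remaining points. -/
theorem setwise_transitive {K : Type*} [Field K] {p : ℕ} [Fact p.Prime] [CharP K p]
    (h2 : MulAction.IsMultiplyPretransitive G Ω 2) (hp : p ∣ Fintype.card Ω)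
    (h : ∀ f : Representation.IntertwiningMap (Cfsg.permSumZero K G Ω).toRepresentation
        (Cfsg.permRep K G (Set.powersetCard Ω 2)),
      (∀ v : (Cfsg.permSumZero K G Ω).toSubmodule,
        (v : Ω → K) ∈ (Cfsg.permConstants K G Ω).toSubmodule → f v = 0) → f = 0)
    {a b c d : Ω} (hab : a ≠ b) (hca : c ≠ a) (hcb : c ≠ b) (hda : d ≠ a) (hdb : d ≠ b) :
    ∃ g : G, ((g • a = a ∧ g • b = b) ∨ (g • a = b ∧ g • b = a)) ∧ g • c = d := by
  classical
  by_contra hno
  rw [is_two_pretransitive_iff] at h2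
  let P0 : Set.powersetCard Ω 2 := ⟨{a, b}, Finset.card_pair hab⟩
  have hstab : ∀ g : G, g • P0 = P0 ↔
      ((g • a = a ∧ g • b = b) ∨ (g • a = b ∧ g • b = a)) := by
    intro g
    rw [← Subtype.coe_inj, show ((g • P0 : Set.powersetCard Ω 2) : Finset Ω) = g • ({a, b} : Finset Ω)
      from rfl, Finset.smul_finset_insert, Finset.smul_finset_singleton]
    show ({g • a, g • b} : Finset Ω) = {a, b} ↔ _
    constructor
    · intro e
      have e1 : g • a ∈ ({a, b} : Finset Ω) := e ▸ Finset.mem_insert_self _ _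
      have e2 : g • b ∈ ({a, b} : Finset Ω) :=
        e ▸ Finset.mem_insert_of_mem (Finset.mem_singleton_self _)
      simp only [Finset.mem_insert, Finset.mem_singleton] at e1 e2
      have hne : g • a ≠ g • b := fun e' => hab (MulAction.injective g e')
      rcases e1 with e1 | e1 <;> rcases e2 with e2 | e2
      · exact absurd (e1.trans e2.symm) hne
      · exact Or.inl ⟨e1, e2⟩
      · exact Or.inr ⟨e1, e2⟩
      · exact absurd (e1.trans e2.symm) hne
    · rintro (⟨e1, e2⟩ | ⟨e1, e2⟩)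
      · rw [e1, e2]
      · rw [e1, e2]
        exact Finset.pair_comm b a
  have hpair : ∀ P : Set.powersetCard Ω 2, ∃ g : G, g • P0 = P := by
    intro P
    obtain ⟨x, y, hxy, hP⟩ := Finset.card_eq_two.mp P.2
    obtain ⟨g, hgx, hgy⟩ := h2 hab hxy
    refine ⟨g, Subtype.ext ?_⟩
    rw [hP, show ((g • P0 : Set.powersetCard Ω 2) : Finset Ω) = g • ({a, b} : Finset Ω) from rfl,
      Finset.smul_finset_insert, Finset.smul_finset_singleton, hgx, hgy]
  choose gP hgP using hpair
  let O : Finset Ω := Finset.univ.filter fun x => ∃ g : G, g • P0 = P0 ∧ g • c = x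
  let X : Finset Ω := {a, b}
  -- coefficients
  obtain ⟨u, w, hsum, hne⟩ : ∃ u w : K, u * 2 + w * (O.card : K) = 0 ∧ ¬ (u = 0 ∧ w = 0) := by
    by_cases h20 : (2 : K) = 0
    · by_cases hO : (O.card : K) = 0
      · exact ⟨1, 0, by rw [h20]; simp, by simp⟩
      · exact ⟨(O.card : K), -2, by ring, fun e => hO e.1⟩
    · exact ⟨(O.card : K), -2, by ring, fun e => h20 (neg_eq_zero.mp e.2)⟩
  have hXO : Disjoint X O := by
    rw [Finset.disjoint_left]
    intro x hx hx'
    obtain ⟨g, hg, hgc⟩ := (Finset.mem_filter.mp hx').2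
    simp only [X, Finset.mem_insert, Finset.mem_singleton] at hx
    rcases (hstab g).mp hg with ⟨e1, e2⟩ | ⟨e1, e2⟩ <;> rcases hx with rfl | rfl
    · exact hca (MulAction.injective g (hgc.trans e1.symm))
    · exact hcb (MulAction.injective g (hgc.trans e2.symm))
    · exact hcb (MulAction.injective g (hgc.trans e2.symm))
    · exact hca (MulAction.injective g (hgc.trans e1.symm))
  let φ0 : Ω → K := fun x => if x ∈ X then u else if x ∈ O then w else 0
  have hφinv : ∀ g : G, g • P0 = P0 → ∀ x, φ0 (g • x) = φ0 x := by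
    intro g hg x
    have hX : g • x ∈ X ↔ x ∈ X := by
      simp only [X, Finset.mem_insert, Finset.mem_singleton]
      rcases (hstab g).mp hg with ⟨e1, e2⟩ | ⟨e1, e2⟩
      · conv_lhs => rw [← e1, ← e2]
        simp [smul_left_cancel_iff]
      · constructor
        · rintro (h | h)
          · exact Or.inr (MulAction.injective g (h.trans e2.symm))
          · exact Or.inl (MulAction.injective g (h.trans e1.symm))
        · rintro (rfl | rfl)
          · exact Or.inr e1
          · exact Or.inl e2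
    have hO : g • x ∈ O ↔ x ∈ O := by
      simp only [O, Finset.mem_filter, Finset.mem_univ, true_and]
      constructor
      · rintro ⟨k, hk, hkc⟩
        refine ⟨g⁻¹ * k, ?_, ?_⟩
        · rw [mul_smul, hk, inv_smul_eq_iff, hg]
        · rw [mul_smul, hkc, inv_smul_smul]
      · rintro ⟨k, hk, hkc⟩
        exact ⟨g * k, by rw [mul_smul, hk, hg], by rw [mul_smul, hkc]⟩
    simp only [φ0, hX, hO]
  have hφsum : ∑ x, φ0 x = 0 := by
    have : ∀ x, φ0 x = (if x ∈ X then u else 0) + (if x ∈ O then w else 0) := fun x => by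
      simp only [φ0]
      by_cases hx : x ∈ X
      · simp [hx, Finset.disjoint_left.mp hXO hx]
      · simp [hx]
    rw [Finset.sum_congr rfl (fun x _ => this x), Finset.sum_add_distrib, Finset.sum_ite_mem,
      Finset.sum_ite_mem, Finset.univ_inter, Finset.univ_inter, Finset.sum_const, Finset.sum_const,
      nsmul_eq_mul, nsmul_eq_mul, show X.card = 2 from Finset.card_pair hab, ← hsum]
    push_cast
    ring
  let F : (Ω → K) →ₗ[K] (Set.powersetCard Ω 2 → K) :=
    { toFun := fun v P => ∑ x, v x * φ0 ((gP P)⁻¹ • x)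
      map_add' := fun v v' => by
        funext P
        simp only [Pi.add_apply, add_mul, Finset.sum_add_distrib]
      map_smul' := fun r v => by
        funext P
        simp [Finset.mul_sum, mul_assoc] }
  have hF : ∀ g : G, ∀ v, F (Cfsg.permRep K G Ω g v) = Cfsg.permRep K G _ g (F v) := by
    intro g v
    funext P
    show ∑ x, v (g⁻¹ • x) * φ0 ((gP P)⁻¹ • x) = ∑ x, v x * φ0 ((gP (g⁻¹ • P))⁻¹ • x)
    rw [← Equiv.sum_comp (MulAction.toPerm g)]
    refine Finset.sum_congr rfl fun x _ => ?_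
    simp only [MulAction.toPerm_apply, inv_smul_smul]
    congr 1
    have hk : ((gP P)⁻¹ * g * gP (g⁻¹ • P)) • P0 = P0 := by
      rw [mul_smul, hgP, mul_smul, smul_inv_smul, inv_smul_eq_iff, hgP]
    rw [← hφinv _ hk ((gP (g⁻¹ • P))⁻¹ • x), mul_smul, mul_smul, smul_inv_smul]
  let f : Representation.IntertwiningMap (Cfsg.permSumZero K G Ω).toRepresentation
      (Cfsg.permRep K G (Set.powersetCard Ω 2)) :=
    { toLinearMap := F ∘ₗ (Cfsg.permSumZero K G Ω).toSubmodule.subtype
      isIntertwining' := fun g => LinearMap.ext fun v => hF g (v : Ω → K) }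
  have hf0 : f = 0 := h f (fun v hv => by
    obtain ⟨r, hr⟩ := Submodule.mem_span_singleton.mp hv
    funext P
    show ∑ x, (v : Ω → K) x * φ0 ((gP P)⁻¹ • x) = 0
    rw [← hr]
    simp only [Pi.smul_apply, smul_eq_mul, mul_one, ← Finset.mul_sum]
    rw [show ∑ x, φ0 ((gP P)⁻¹ • x) = ∑ x, φ0 x from
      Equiv.sum_comp (MulAction.toPerm ((gP P)⁻¹)) φ0, hφsum, mul_zero])
  have key : ∀ x y : Ω, φ0 x = φ0 y := by
    intro x y
    have hk : (gP P0)⁻¹ • P0 = P0 := by rw [inv_smul_eq_iff, hgP]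
    let v : (Cfsg.permSumZero K G Ω).toSubmodule :=
      ⟨Pi.single x 1 - Pi.single y 1, by
        show ∑ z, (Pi.single x (1 : K) - Pi.single y 1 : Ω → K) z = 0
        simp⟩
    have h0 : ∑ z, (Pi.single x (1 : K) - Pi.single y 1 : Ω → K) z * φ0 ((gP P0)⁻¹ • z) = 0 :=
      congrFun (congrArg (fun k : Representation.IntertwiningMap _ _ => k v) hf0) P0
    simp only [hφinv _ hk, Pi.sub_apply, sub_mul, Finset.sum_sub_distrib, Pi.single_apply, ite_mul,
      one_mul, zero_mul, Finset.sum_ite_eq', Finset.mem_univ, if_true] at h0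
    exact sub_eq_zero.mp h0
  have hdX : d ∉ X := by simp [X, hda, hdb]
  have hdO : d ∉ O := by
    simp only [O, Finset.mem_filter, Finset.mem_univ, true_and]
    rintro ⟨g, hg, hgc⟩
    exact hno ⟨g, (hstab g).mp hg, hgc⟩
  have hcO : c ∈ O := by
    simp only [O, Finset.mem_filter, Finset.mem_univ, true_and]
    exact ⟨1, one_smul _ _, one_smul _ _⟩
  have hd0 : φ0 d = 0 := by simp [φ0, hdX, hdO]
  have hu : φ0 a = u := by simp [φ0, X]
  have hw : φ0 c = w := by
    have : c ∉ X := by simp [X, hca, hcb]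
    simp [φ0, this, hcO]
  exact hne ⟨hu ▸ (key a d).trans hd0, hw ▸ (key c d).trans hd0⟩

theorem three_transitive [Finite G] [FaithfulSMul G Ω]
    (h2 : MulAction.IsMultiplyPretransitive G Ω 2)
    (heven : ∀ a : Ω, Even (Nat.card (MulAction.stabilizer G a)))
    (hset : ∀ a b c d : Ω, a ≠ b → c ≠ a → c ≠ b → d ≠ a → d ≠ b →
      ∃ g : G, ((g • a = a ∧ g • b = b) ∨ (g • a = b ∧ g • b = a)) ∧ g • c = d) :
    MulAction.IsMultiplyPretransitive G Ω 3 := by
  rw [is_two_pretransitive_iff] at h2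
  let D : Ω × Ω × Ω → Prop := fun t => t.1 ≠ t.2.1 ∧ t.1 ≠ t.2.2 ∧ t.2.1 ≠ t.2.2
  let τ : Ω × Ω × Ω → Ω × Ω × Ω := fun t => (t.2.1, t.1, t.2.2)
  let σ : Ω × Ω × Ω → Ω × Ω × Ω := fun t => (t.1, t.2.2, t.2.1)
  let R : Ω × Ω × Ω → Ω × Ω × Ω → Prop := fun t u => ∃ g : G, g • t = u
  have Rs : ∀ {t u}, R t u → R u t := by
    rintro t u ⟨g, rfl⟩
    exact ⟨g⁻¹, inv_smul_smul g t⟩
  have Rt : ∀ {t u v}, R t u → R u v → R t v := by
    rintro t u v ⟨g, rfl⟩ ⟨g', rfl⟩
    exact ⟨g' * g, mul_smul g' g t⟩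
  have Rτ : ∀ {t u}, R t u → R (τ t) (τ u) := by
    rintro t u ⟨g, rfl⟩
    exact ⟨g, rfl⟩
  have Rσ : ∀ {t u}, R t u → R (σ t) (σ u) := by
    rintro t u ⟨g, rfl⟩
    exact ⟨g, rfl⟩
  have Dτ : ∀ {t}, D t → D (τ t) := fun ht => ⟨ht.1.symm, ht.2.2, ht.2.1⟩
  have Dσ : ∀ {t}, D t → D (σ t) := fun ht => ⟨ht.2.1, ht.1, ht.2.2.symm⟩
  have two : ∀ {t u}, D t → D u → R t u ∨ R t (τ u) := by
    rintro ⟨x, y, z⟩ ⟨a, b, c⟩ ⟨hxy, hxz, hyz⟩ ⟨hab, hac, hbc⟩
    obtain ⟨g, hga, hgb⟩ := h2 hxy hab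
    have h1 : g • z ≠ a := fun e => hxz (MulAction.injective g (hga.trans e.symm))
    have h1' : g • z ≠ b := fun e => hyz (MulAction.injective g (hgb.trans e.symm))
    obtain ⟨k, hk, hkz⟩ := hset a b (g • z) c hab h1 h1' hac.symm hbc.symm
    rcases hk with ⟨e1, e2⟩ | ⟨e1, e2⟩
    · refine Or.inl ⟨k * g, ?_⟩
      simp only [Prod.smul_mk, mul_smul, hga, hgb, e1, e2, hkz]
    · refine Or.inr ⟨k * g, ?_⟩
      simp only [τ, Prod.smul_mk, mul_smul, hga, hgb, e1, e2, hkz]
  suffices hall : ∀ {t u}, D t → D u → R t u by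
    rw [MulAction.isMultiplyPretransitive_iff]
    intro x y
    have hD : ∀ z : Fin 3 ↪ Ω, D (z 0, z 1, z 2) := fun z =>
      ⟨fun e => absurd (z.injective e) (by decide), fun e => absurd (z.injective e) (by decide),
        fun e => absurd (z.injective e) (by decide)⟩
    obtain ⟨g, hg⟩ := hall (hD x) (hD y)
    simp only [Prod.smul_mk, Prod.mk.injEq] at hg
    refine ⟨g, ?_⟩
    ext i
    fin_cases i
    · exact hg.1
    · exact hg.2.1
    · exact hg.2.2
  by_contra hcon
  simp only [not_forall] at hcon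
  obtain ⟨t1, u1, ht1, hu1, hn1⟩ := hcon
  have flip : ∀ {t}, D t → ¬ R t (τ t) := by
    intro t ht hR
    apply hn1
    have hany : ∀ {v}, D v → R v t := fun hv => (two hv ht).elim id (fun e => Rt e (Rs hR))
    exact Rt (hany ht1) (Rs (hany hu1))
  obtain ⟨t0, ht0, h0⟩ : ∃ t0, D t0 ∧ R t0 (σ t0) := by
    obtain ⟨a, -, -⟩ := t1
    obtain ⟨g, hg⟩ := exists_prime_orderOf_dvd_card' (G := MulAction.stabilizer G a) 2
      (heven a).two_dvd
    have hg1 : (g : G) ≠ 1 := by
      intro e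
      rw [Subtype.ext (e.trans (Subgroup.coe_one _).symm) ] at hg
      simp at hg
    have hg2 : (g : G) ^ 2 = 1 := by
      rw [← Subgroup.coe_pow, ← hg, pow_orderOf_eq_one, Subgroup.coe_one]
    obtain ⟨b, hb⟩ : ∃ b, (g : G) • b ≠ b := by
      by_contra hall
      push Not at hall
      exact hg1 (FaithfulSMul.eq_of_smul_eq_smul fun b : Ω => by rw [hall b, one_smul])
    have hga : (g : G) • a = a := g.2
    refine ⟨(a, b, (g : G) • b), ⟨fun e => hb ?_, fun e => hb ?_, hb.symm⟩, g, ?_⟩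
    · rw [← show a = b from e, hga]
    · have e' : a = (g : G) • b := e
      rw [← e', MulAction.injective (g : G) (hga.trans e')]
    · simp only [σ, Prod.smul_mk, hga, ← mul_smul, ← sq, hg2, one_smul]
  have hσ : ∀ {t}, D t → R t (σ t) := by
    intro t ht
    rcases two ht ht0 with h | h
    · exact Rt h (Rt h0 (Rs (Rσ h)))
    · rcases two (Dσ (Dτ ht0)) ht0 with h' | h'
      · exfalso
        exact flip ht0 (Rs (Rt (Rσ (t := σ (τ t0)) (Rt h' h0)) (⟨1, one_smul _ _⟩)))
      · exact Rt h (Rt (Rs h') (Rs (Rσ h)))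
  have h1 : R (τ (σ (τ t0))) t0 := by
    have := Rτ (Rs (hσ (Dτ ht0)))
    exact this
  have h2' : R (σ (τ (σ t0))) (τ t0) := Rt (Rs (hσ (Dτ (Dσ ht0)))) (Rτ (Rs h0))
  exact flip ht0 (Rt (Rs h1) h2')

end Cfsg.Agent.PairHeart
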