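import Mathlib
import Cfsg.Agent.Lib.PermGroup.BurnsidePrime

/-! Translation invariant spaces of functions on `ZMod p` in characteristic `p`. -/

namespace Cfsg.Lib.PermGroup.PolyModule

open Polynomial Module

variable {p : ℕ} [hp : Fact p.Prime] {K : Type*} [Field K] [CharP K p]

/-- The point of `K` belonging to `j`. -/
def node (j : ZMod p) : K := ZMod.castHom dvd_rfl K j

theorem node_injective : Function.Injective (node : ZMod p → K) := RingHom.injective _

/-- The function of a polynomial. -/
noncomputable def pf (p : ℕ) [Fact p.Prime] (K : Type*) [Field K] [CharP K p] : K[X] →ₗ[K] (ZMod p → K) :=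
  LinearMap.pi fun j => Polynomial.leval (node j)

theorem pf_apply (P : K[X]) (j : ZMod p) : pf p K P j = P.eval (node j) := rfl

theorem pf_injOn {P Q : K[X]} (hP : P.degree < p) (hQ : Q.degree < p) (h : pf p K P = pf p K Q) : P = Q := by
  classical
  refine Polynomial.eq_of_degrees_lt_of_eval_finset_eq (Finset.univ.image (node : ZMod p → K))
    ?_ ?_ ?_
  · rwa [Finset.card_image_of_injective _ node_injective, Finset.card_univ, ZMod.card]
  · rwa [Finset.card_image_of_injective _ node_injective, Finset.card_univ, ZMod.card]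
  · intro x hx
    obtain ⟨j, -, rfl⟩ := Finset.mem_image.1 hx
    exact congrFun h j

theorem exists_poly (f : ZMod p → K) : ∃ P : K[X], P.degree < p ∧ pf p K P = f := by
  classical
  refine ⟨Lagrange.interpolate Finset.univ (node : ZMod p → K) f, ?_, funext fun j => ?_⟩
  · have h := Lagrange.degree_interpolate_lt (s := Finset.univ) f (node_injective (K := K) (p := p)).injOn
    rwa [Finset.card_univ, ZMod.card] at h
  · exact Lagrange.eval_interpolate_at_node f node_injective.injOn (Finset.mem_univ j)

theorem pf_shift (P : K[X]) : (fun j => pf p K P (j - 1)) = pf p K (taylor (-1) P) := by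
  funext j
  simp [pf_apply, node, map_sub, sub_eq_add_neg, taylor_eval]

/-- The functions given by polynomials of degree less than `r`. -/
noncomputable def Pr (p : ℕ) [Fact p.Prime] (K : Type*) [Field K] [CharP K p] (r : ℕ) :
    Submodule K (ZMod p → K) :=
  (Polynomial.degreeLT K r).map (pf p K)

theorem mem_Pr {r : ℕ} {f : ZMod p → K} : f ∈ Pr p K r ↔ ∃ P : K[X], P.degree < r ∧ pf p K P = f := by
  simp [Pr, Submodule.mem_map, Polynomial.mem_degreeLT]

theorem finrank_Pr {r : ℕ} (hr : r ≤ p) : finrank K (Pr p K r) = r := by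
  let L : Polynomial.degreeLT K r →ₗ[K] (ZMod p → K) := (pf p K).domRestrict _
  have hinj : Function.Injective L := by
    rintro ⟨P, hP⟩ ⟨Q, hQ⟩ h
    rw [Polynomial.mem_degreeLT] at hP hQ
    exact Subtype.ext (pf_injOn (hP.trans_le (WithBot.coe_le_coe.2 hr)) (hQ.trans_le (WithBot.coe_le_coe.2 hr)) h)
  have hrange : LinearMap.range L = Pr p K r := by
    rw [Pr, LinearMap.range_domRestrict]
  rw [← hrange, LinearMap.finrank_range_of_inj hinj, (Polynomial.degreeLTEquiv K r).finrank_eq,
    Module.finrank_fin_fun]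

theorem classify (W : Submodule K (ZMod p → K)) (hW : ∀ f ∈ W, (fun j => f (j - 1)) ∈ W) :
    ∃ r, r ≤ p ∧ finrank K W = r ∧ W = Pr p K r := by
  classical
  -- with a polynomial of degree `d`, all of degree at most `d` lie in `W`
  have key : ∀ d, d < p → ∀ P : K[X], pf p K P ∈ W → P.degree = d → Pr p K (d + 1) ≤ W := by
    intro d
    induction d with
    | zero =>
      intro _ P hP hd f hf
      obtain ⟨Q, hQ, rfl⟩ := mem_Pr.1 hf
      have hQ' : Q = C (Q.coeff 0) := eq_C_of_degree_le_zero (Nat.WithBot.lt_one_iff_le_zero.1 (by simpa using hQ))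
      have hP' : P = C (P.coeff 0) := eq_C_of_degree_le_zero (by rw [hd]; rfl)
      have hc : P.coeff 0 ≠ 0 := fun e => by rw [hP', e, C_0, degree_zero] at hd; exact absurd hd (by simp)
      have : Q = (Q.coeff 0 / P.coeff 0) • P := by
        conv_lhs => rw [hQ']
        conv_rhs => rw [hP', coeff_C_zero, smul_C, smul_eq_mul, div_mul_cancel₀ _ hc]
      rw [this, map_smul]; exact W.smul_mem _ hP
    | succ d ih =>
      intro hd P hP hdeg
      have hne : P ≠ 0 := fun e => by rw [e, degree_zero] at hdeg; exact absurd hdeg.symm (WithBot.coe_ne_bot)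
      have hnat : P.natDegree = d + 1 := natDegree_eq_of_degree_eq_some hdeg
      set Δ := taylor (-1) P - P with hΔ
      have hΔW : pf p K Δ ∈ W := by
        rw [hΔ, map_sub, ← pf_shift]
        exact W.sub_mem (hW _ hP) hP
      have hcoef : Δ.coeff d = -((d + 1 : ℕ) : K) * P.leadingCoeff := by
        rw [hΔ, coeff_sub, taylor_coeff, hasseDeriv_apply, sum_over_range _ (fun n => by simp)]
        simp only [eval_finsetSum, eval_monomial]
        rw [Finset.sum_eq_add (d + 1) d (by omega)]
        · rw [Nat.choose_succ_self_right, show d + 1 - d = 1 by omega, Nat.choose_self, Nat.sub_self,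
            leadingCoeff, hnat]
          push_cast; ring
        · intro c hc hcne
          rw [Finset.mem_range, hnat] at hc
          rw [Nat.choose_eq_zero_of_lt (by omega)]; simp
        · intro h; simp [hnat] at h
        · intro h; simp [hnat] at h
      have hΔd : Δ.degree = d := by
        refine le_antisymm ?_ (le_degree_of_ne_zero ?_)
        · rw [degree_le_iff_coeff_zero]
          intro m hm
          have hm' : d < m := WithBot.coe_lt_coe.1 hm
          rcases Nat.lt_or_ge (d + 1) m with h | h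
          · rw [hΔ, coeff_sub, coeff_eq_zero_of_natDegree_lt, coeff_eq_zero_of_natDegree_lt (hnat ▸ h), sub_zero]
            rw [natDegree_taylor, hnat]; exact h
          · obtain rfl : m = d + 1 := by omega
            rw [hΔ, coeff_sub, ← hnat]
            conv_lhs => arg 1; rw [← natDegree_taylor P (-1)]
            rw [coeff_natDegree, coeff_natDegree, leadingCoeff_taylor, sub_self]
        · rw [hcoef]
          refine mul_ne_zero (neg_ne_zero.2 ?_) (leadingCoeff_ne_zero.2 hne)
          rw [Ne, CharP.cast_eq_zero_iff K p]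
          exact fun h => absurd (Nat.le_of_dvd (by omega) h) (by omega)
      have hlow := ih (by omega) Δ hΔW hΔd
      intro f hf
      obtain ⟨Q, hQ, rfl⟩ := mem_Pr.1 hf
      have hc : P.coeff (d + 1) ≠ 0 := by rw [← hnat]; exact leadingCoeff_ne_zero.2 hne
      set R := Q - (Q.coeff (d + 1) / P.coeff (d + 1)) • P with hR
      have hRdeg : R.degree < ((d + 1 : ℕ) : WithBot ℕ) := by
        rw [degree_lt_iff_coeff_zero]
        intro m hm
        rw [hR, coeff_sub, coeff_smul, smul_eq_mul]
        rcases Nat.eq_or_lt_of_le hm with rfl | h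
        · rw [div_mul_cancel₀ _ hc, sub_self]
        · rw [coeff_eq_zero_of_degree_lt (hQ.trans_le (WithBot.coe_le_coe.2 (show d + 1 + 1 ≤ m by omega))),
            coeff_eq_zero_of_natDegree_lt (show P.natDegree < m by omega), mul_zero, sub_zero]
      have : Q = R + (Q.coeff (d + 1) / P.coeff (d + 1)) • P := by rw [hR, sub_add_cancel]
      rw [this, map_add, map_smul]
      exact W.add_mem (hlow (mem_Pr.2 ⟨R, hRdeg, rfl⟩)) (W.smul_mem _ hP)
  let S := (Finset.range p).filter fun d => ∃ P : K[X], pf p K P ∈ W ∧ P.degree = (d : ℕ)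
  let r := S.sup fun d => d + 1
  have hr : r ≤ p := Finset.sup_le fun d hd => by
    simp only [S, Finset.mem_filter, Finset.mem_range] at hd; omega
  have hWr : W = Pr p K r := by
    refine le_antisymm (fun f hf => ?_) ?_
    · obtain ⟨P, hP, rfl⟩ := exists_poly f
      refine mem_Pr.2 ⟨P, ?_, rfl⟩
      by_cases h0 : P = 0
      · rw [h0, degree_zero]; exact WithBot.bot_lt_coe r
      rw [degree_eq_natDegree h0] at hP ⊢
      have hmem : P.natDegree ∈ S := by
        simp only [S, Finset.mem_filter, Finset.mem_range]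
        exact ⟨WithBot.coe_lt_coe.1 hP, P, hf, degree_eq_natDegree h0⟩
      exact WithBot.coe_lt_coe.2 (Nat.lt_of_succ_le (Finset.le_sup (f := fun d => d + 1) hmem))
    · by_cases hS : S.Nonempty
      · obtain ⟨d, hd, he⟩ := Finset.exists_mem_eq_sup S hS fun d => d + 1
        simp only [S, Finset.mem_filter, Finset.mem_range] at hd
        obtain ⟨hdp, P, hP, hPd⟩ := hd
        change Pr p K r ≤ W
        rw [show r = d + 1 from he]
        exact key d hdp P hP hPd
      · have : r = 0 := by simp [r, Finset.not_nonempty_iff_eq_empty.1 hS]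
        intro f hf
        obtain ⟨P, hP, rfl⟩ := mem_Pr.1 hf
        rw [this, Nat.cast_zero, Nat.WithBot.lt_zero_iff, degree_eq_bot] at hP
        simp [hP]
  exact ⟨r, hr, by rw [hWr, finrank_Pr hr], hWr⟩

theorem sum_node_pow (i : ℕ) : ∑ j : ZMod p, (node j : K) ^ i = ZMod.castHom dvd_rfl K (∑ j : ZMod p, j ^ i) := by
  simp [node, map_sum]

/-- The pairing of the functions of two polynomials with small degree sum. -/
theorem sum_mul_eq_zero {P Q : K[X]} (h : P.natDegree + Q.natDegree < p - 1) :
    ∑ j : ZMod p, pf p K P j * pf p K Q j = 0 := by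
  have : ∀ j, pf p K P j * pf p K Q j = (P * Q).eval (node j) := fun j => by rw [eval_mul]; rfl
  simp only [this, eval_eq_sum_range]
  rw [Finset.sum_comm]
  refine Finset.sum_eq_zero fun i hi => ?_
  rw [← Finset.mul_sum, sum_node_pow,
    FiniteField.sum_pow_lt_card_sub_one (K := ZMod p) i (by
      rw [ZMod.card]; rw [Finset.mem_range] at hi
      have := natDegree_mul_le (p := P) (q := Q); omega), map_zero, mul_zero]

/-- If `Pr r` is invariant, so is `Pr (p - r)`. -/
theorem invariant_compl {r : ℕ} (hr1 : 1 ≤ r) (hr : r < p) (g : Equiv.Perm (ZMod p))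
    (hg : ∀ f ∈ Pr p K r, (fun j => f (g.symm j)) ∈ Pr p K r) :
    ∀ f ∈ Pr p K (p - r), (fun j => f (g j)) ∈ Pr p K (p - r) := by
  intro f hf
  obtain ⟨P, hP, rfl⟩ := mem_Pr.1 hf
  obtain ⟨Q, hQ, hQf⟩ := exists_poly (K := K) fun j => pf p K P (g j)
  refine mem_Pr.2 ⟨Q, ?_, hQf⟩
  by_contra hlt
  rw [not_lt] at hlt
  have hQ0 : Q ≠ 0 := fun e => by rw [e, degree_zero, le_bot_iff] at hlt; exact WithBot.coe_ne_bot hlt
  rw [degree_eq_natDegree hQ0] at hlt hQ
  have hn1 : p - r ≤ Q.natDegree := WithBot.coe_le_coe.1 hlt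
  have hn2 : Q.natDegree < p := WithBot.coe_lt_coe.1 hQ
  set i := p - 1 - Q.natDegree with hi
  have hzero : ∑ j : ZMod p, pf p K Q j * pf p K (X ^ i : K[X]) j = 0 := by
    obtain ⟨R, hR, hRg⟩ := mem_Pr.1 (hg (pf p K (X ^ i : K[X]))
      (mem_Pr.2 ⟨X ^ i, by rw [degree_X_pow]; exact Nat.cast_lt.2 (by omega), rfl⟩))
    rw [← Equiv.sum_comp g.symm, hQf]
    simp only [Equiv.apply_symm_apply]
    rw [show (∑ x, pf p K P x * pf p K (X ^ i : K[X]) (g.symm x)) = ∑ x, pf p K P x * pf p K R x from
      Finset.sum_congr rfl fun x _ => by rw [hRg]]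
    refine sum_mul_eq_zero ?_
    by_cases hR0 : R = 0
    · rw [hR0, natDegree_zero]
      by_cases hP0 : P = 0
      · rw [hP0, natDegree_zero]; omega
      · have := (natDegree_lt_iff_degree_lt hP0).2 hP; omega
    · have h2 := (natDegree_lt_iff_degree_lt hR0).2 hR
      by_cases hP0 : P = 0
      · rw [hP0, natDegree_zero]; omega
      · have := (natDegree_lt_iff_degree_lt hP0).2 hP; omega
  have hval : ∀ j, pf p K Q j * pf p K (X ^ i : K[X]) j = ∑ k ∈ Finset.range (Q.natDegree + 1),
      Q.coeff k * node j ^ (k + i) := fun j => by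
    rw [pf_apply, pf_apply, eval_pow, eval_X, eval_eq_sum_range, Finset.sum_mul]
    simp [pow_add, mul_assoc]
  simp only [hval] at hzero
  rw [Finset.sum_comm, Finset.sum_eq_single Q.natDegree] at hzero
  · have h1 : ∑ j : ZMod p, j ^ (p - 1) = -1 := by
      have h0 : (0 : ZMod p) ^ (p - 1) = 0 := zero_pow (by have := hp.out.two_le; omega)
      rw [← Finset.sum_erase_add Finset.univ _ (Finset.mem_univ 0), h0, add_zero,
        Finset.sum_congr rfl fun j hj => ZMod.pow_card_sub_one_eq_one (Finset.mem_erase.1 hj).1]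
      simp [Finset.card_erase_of_mem, ZMod.card]
      rw [Nat.cast_sub hp.out.one_le]; simp
    rw [← Finset.mul_sum, sum_node_pow, show Q.natDegree + i = p - 1 by omega, h1, map_neg, map_one,
      mul_neg, mul_one, neg_eq_zero] at hzero
    exact leadingCoeff_ne_zero.2 hQ0 hzero
  · intro k hk hne
    rw [Finset.mem_range] at hk
    rw [← Finset.mul_sum, sum_node_pow,
      FiniteField.sum_pow_lt_card_sub_one (K := ZMod p) (k + i) (by rw [ZMod.card]; omega), map_zero, mul_zero]
  · simp

/-- A permutation whose action preserves some `Pr s` (`2 ≤ s`, `2 * s < p`) is affine. -/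
theorem affine_of_invariant {s : ℕ} (hs : 2 ≤ s) (hsp : 2 * s < p) (g : Equiv.Perm (ZMod p))
    (hg : ∀ f ∈ Pr p K s, (fun j => f (g j)) ∈ Pr p K s) :
    ∃ a b : ZMod p, a ≠ 0 ∧ ∀ x, g x = a * x + b := by
  obtain ⟨F, hF, hFg⟩ := mem_Pr.1 (hg (pf p K X)
    (mem_Pr.2 ⟨X, by rw [degree_X]; exact_mod_cast (by omega : 1 < s), rfl⟩))
  have hval : ∀ j, F.eval (node j) = node (g j) := fun j => by
    have := congrFun hFg j
    simpa [pf_apply] using this
  have hn : F.natDegree < s := by
    by_cases h0 : F = 0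
    · rw [h0, natDegree_zero]; omega
    · exact (natDegree_lt_iff_degree_lt h0).2 hF
  have hn1 : F.natDegree ≤ 1 := by
    by_contra hlt
    rw [not_le] at hlt
    have hex : ∃ j, s ≤ j * F.natDegree := ⟨s, Nat.le_mul_of_pos_right _ (by omega)⟩
    set j := Nat.find hex with hj
    have hspec := Nat.find_spec hex
    rw [← hj] at hspec
    have hj0 : j ≠ 0 := by intro e; rw [e, zero_mul] at hspec; omega
    have hm := Nat.find_min hex (show j - 1 < j by omega)
    rw [Nat.sub_one_mul] at hm
    have hjs : j < s := by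
      by_contra hle
      have h1 := Nat.find_min hex (show s - 1 < j by omega)
      have : 2 * (s - 1) ≤ (s - 1) * F.natDegree := by rw [mul_comm]; exact Nat.mul_le_mul_left _ hlt
      omega
    obtain ⟨R, hR, hRg⟩ := mem_Pr.1 (hg (pf p K (X ^ j : K[X]))
      (mem_Pr.2 ⟨X ^ j, by rw [degree_X_pow]; exact Nat.cast_lt.2 hjs, rfl⟩))
    have hne : F ≠ 0 := fun e => by rw [e, natDegree_zero] at hlt; omega
    have hd : (F ^ j).natDegree = j * F.natDegree := natDegree_pow F j
    have hFj : (F ^ j).degree < (p : ℕ) := by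
      rw [degree_eq_natDegree (pow_ne_zero _ hne), hd]; exact Nat.cast_lt.2 (by omega)
    have heq : R = F ^ j := by
      refine pf_injOn (hR.trans (Nat.cast_lt.2 (show s < p by omega))) hFj ?_
      rw [hRg]; funext x; simp [pf_apply, hval]
    rw [heq, degree_eq_natDegree (pow_ne_zero _ hne), hd] at hR
    have := Nat.cast_lt.1 hR
    omega
  refine ⟨g 1 - g 0, g 0, sub_ne_zero.2 fun e => one_ne_zero (g.injective e), fun x => node_injective (K := K) ?_⟩
  have hl : ∀ j, (node (g j) : K) = F.coeff 1 * node j + F.coeff 0 := fun j => by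
    rw [← hval]
    conv_lhs => rw [eq_X_add_C_of_natDegree_le_one hn1]
    simp
  have h0 := hl 0; have h1 := hl 1; have hx := hl x
  simp only [node, map_zero, map_one, map_add, map_mul, map_sub] at h0 h1 hx ⊢
  rw [hx, h0, h1]; ring

/-- Coordinates on a transitive group of prime degree in which a `p`-element is a translation. -/
theorem exists_coords {α : Type*} [Fintype α] [DecidableEq α] (hα : Fintype.card α = p)
    (G : Subgroup (Equiv.Perm α)) [MulAction.IsPretransitive G α] :
    ∃ (e : ZMod p ≃ α) (c : G), ∀ j, (c : Equiv.Perm α) (e j) = e (j + 1) := by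
  classical
  obtain ⟨a₀⟩ : Nonempty α := Fintype.card_pos_iff.1 (hα ▸ hp.out.pos)
  have hdvd : p ∣ Nat.card G := by
    have h := MulAction.card_orbit_mul_card_stabilizer_eq_card_group G a₀
    simp only [← Nat.card_eq_fintype_card] at h
    refine ⟨Nat.card (MulAction.stabilizer G a₀), ?_⟩
    rw [← h, MulAction.orbit_eq_univ]
    simp [← hα, Nat.card_eq_fintype_card]
  obtain ⟨c, hc⟩ := exists_prime_orderOf_dvd_card' p hdvd
  have hco : orderOf (c : Equiv.Perm α) = p := by rw [Subgroup.orderOf_coe, hc]
  have hcyc : (c : Equiv.Perm α).IsCycle := Equiv.Perm.isCycle_of_prime_order'' (hα ▸ hp.out) (hco.trans hα.symm)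
  have hsupp : (c : Equiv.Perm α).support = Finset.univ := by
    rw [← Finset.card_eq_iff_eq_univ, ← hcyc.orderOf, hco, hα]
  let e : ZMod p → α := fun i => ((c : Equiv.Perm α) ^ i.val) a₀
  have hpow : ∀ k : ℕ, ((c : Equiv.Perm α) ^ k) a₀ = e (k : ZMod p) := fun k => by
    simp only [e, ZMod.val_natCast, ← hco, pow_mod_orderOf]
  have hsurj : Function.Surjective e := by
    intro x
    obtain ⟨k, hk⟩ := hcyc.exists_pow_eq
      (Equiv.Perm.mem_support.1 (show a₀ ∈ (c : Equiv.Perm α).support by simp [hsupp]))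
      (Equiv.Perm.mem_support.1 (show x ∈ (c : Equiv.Perm α).support by simp [hsupp]))
    exact ⟨k, by rw [← hpow, hk]⟩
  have hbij : Function.Bijective e :=
    (Fintype.bijective_iff_surjective_and_card e).2 ⟨hsurj, by rw [ZMod.card, hα]⟩
  refine ⟨Equiv.ofBijective e hbij, c, fun j => ?_⟩
  change (c : Equiv.Perm α) (((c : Equiv.Perm α) ^ j.val) a₀) = e (j + 1)
  rw [← Equiv.Perm.mul_apply, ← pow_succ', hpow]
  simp

theorem isSolvable_of_affine {α : Type*} (e : ZMod p ≃ α) (G : Subgroup (Equiv.Perm α))
    (h : ∀ g : G, ∃ a b : ZMod p, a ≠ 0 ∧ ∀ i, e.symm ((g : Equiv.Perm α) (e i)) = a * i + b) :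
    Group.IsSolvable G := by
  let conjG : G →* Equiv.Perm (ZMod p) := e.symm.permCongrHom.toMonoidHom.comp G.subtype
  have hinj : Function.Injective conjG := e.symm.permCongrHom.injective.comp Subtype.val_injective
  choose A B hA hAB using h
  have hAB' : ∀ g i, conjG g i = A g * i + B g := hAB
  have hsub : ∀ g : G, A g = conjG g 1 - conjG g 0 := fun g => by rw [hAB', hAB']; ring
  let slope : G →* (ZMod p)ˣ := MonoidHom.mk' (fun g => Units.mk0 (A g) (hA g)) fun g h => Units.ext (by
    rw [Units.val_mk0, Units.val_mul, Units.val_mk0, Units.val_mk0, hsub (g * h), map_mul,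
      Equiv.Perm.mul_apply, Equiv.Perm.mul_apply, hAB' g, hAB' g, hAB' h, hAB' h]
    ring)
  have hk : ∀ k : slope.ker, ∀ i, conjG k.1 i = i + B k.1 := fun k i => by
    have : A k.1 = 1 := congrArg Units.val k.2
    rw [hAB', this, one_mul]
  haveI : Group.IsSolvable slope.ker := Group.isSolvable_of_comm fun g h =>
    Subtype.ext (hinj (Equiv.ext fun i => by
      change conjG (g.1 * h.1) i = conjG (h.1 * g.1) i
      rw [map_mul, map_mul, Equiv.Perm.mul_apply, Equiv.Perm.mul_apply, hk, hk, hk, hk]
      ring))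
  exact Group.isSolvable_of_ker_le_range slope.ker.subtype slope (by rw [Subgroup.range_subtype])

end Cfsg.Lib.PermGroup.PolyModule
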