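import Mathlib
import Cfsg.Prelude.Def_Perm
import Cfsg.Agent.S0674
import Cfsg.Agent.Lib.PermGroup.PolyModule
import Cfsg.Agent.Lib.PermGroup.BurnsidePrime
import Cfsg.Agent.Lib.PermGroup.PairHeart
import Cfsg.Agent.Lib.Solv.SchurZassenhaus

/-! Prime degree with Sylow normaliser of even order: triple transitivity, subgroups of index `p`. -/

set_option linter.unusedSectionVars false
set_option linter.style.haveILetI false

namespace Cfsg.Agent.PrimeDegreeThree

open MulAction Polynomial Pointwise
open Cfsg.Lib.PermGroup.PolyModule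

variable {α : Type*} [Fintype α] [DecidableEq α] {p : ℕ} [hp : Fact p.Prime]
  (G : Subgroup (Equiv.Perm α))

/-- A function with zero sum and a symmetry `j ↦ b - j` has degree at most `p - 3`. -/
theorem symm_mem_Pr {K : Type*} [Field K] [CharP K p] (hodd : p ≠ 2) {f : ZMod p → K} {b : ZMod p}
    (hsum : ∑ j, f j = 0) (hsymm : ∀ j, f (b - j) = f j) : f ∈ Pr p K (p - 2) := by
  obtain ⟨Q, hQ, hQf⟩ := exists_poly (K := K) f
  refine mem_Pr.2 ⟨Q, ?_, hQf⟩
  by_contra hlt
  rw [not_lt] at hlt
  have hQ0 : Q ≠ 0 := fun e => by rw [e, degree_zero, le_bot_iff] at hlt; exact WithBot.coe_ne_bot hlt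
  rw [degree_eq_natDegree hQ0] at hlt hQ
  have hn1 : p - 2 ≤ Q.natDegree := WithBot.coe_le_coe.1 hlt
  have hn2 : Q.natDegree < p := WithBot.coe_lt_coe.1 hQ
  have hp3 : 3 ≤ p := by have := hp.out.two_le; omega
  by_cases htop : Q.natDegree = p - 1
  · have h1 : ∑ j : ZMod p, j ^ (p - 1) = -1 := by
      have h0 : (0 : ZMod p) ^ (p - 1) = 0 := zero_pow (by omega)
      rw [← Finset.sum_erase_add Finset.univ _ (Finset.mem_univ 0), h0, add_zero,
        Finset.sum_congr rfl fun j hj => ZMod.pow_card_sub_one_eq_one (Finset.mem_erase.1 hj).1]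
      simp [Finset.card_erase_of_mem, ZMod.card]
      rw [Nat.cast_sub hp.out.one_le]; simp
    have hval : ∀ j, f j = ∑ i ∈ Finset.range (Q.natDegree + 1), Q.coeff i * node j ^ i := fun j => by
      rw [← hQf, pf_apply, eval_eq_sum_range]
    rw [Finset.sum_congr rfl (fun j _ => hval j), Finset.sum_comm,
      Finset.sum_eq_single Q.natDegree] at hsum
    · rw [← Finset.mul_sum, sum_node_pow, htop, h1, map_neg, map_one, mul_neg, mul_one, neg_eq_zero] at hsum
      exact leadingCoeff_ne_zero.2 hQ0 (show Q.coeff Q.natDegree = 0 by rw [htop]; exact hsum)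
    · intro i hi hne
      rw [Finset.mem_range] at hi
      rw [← Finset.mul_sum, sum_node_pow,
        FiniteField.sum_pow_lt_card_sub_one (K := ZMod p) i (by rw [ZMod.card]; omega), map_zero, mul_zero]
    · simp
  -- degree `p - 2`, which is odd
  have hd : Q.natDegree = p - 2 := by omega
  set L : K[X] := C (node b) - X with hL
  have hLd : L.natDegree = 1 := by
    rw [hL, show C (node b : K) - X = -(X - C (node b)) by ring, natDegree_neg, natDegree_X_sub_C]
  have hLl : L.leadingCoeff = -1 := by
    rw [hL, show C (node b : K) - X = -(X - C (node b)) by ring, leadingCoeff_neg, leadingCoeff_X_sub_C]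
  have hcd : (Q.comp L).natDegree = Q.natDegree := by rw [natDegree_comp, hLd, mul_one]
  have heq : Q.comp L = Q := by
    refine pf_injOn ?_ (by rw [degree_eq_natDegree hQ0]; exact Nat.cast_lt.2 hn2) ?_
    · exact lt_of_le_of_lt degree_le_natDegree (Nat.cast_lt.2 (hcd ▸ hn2))
    · rw [hQf]
      funext j
      rw [pf_apply, eval_comp, ← hsymm j, ← hQf, pf_apply]
      simp [L, node, map_sub]
  have hlc := congrArg leadingCoeff heq
  rw [leadingCoeff_comp (by rw [hLd]; omega), hLl, hd,
    (Nat.Odd.sub_even (by omega) (hp.out.odd_of_ne_two hodd) even_two : Odd (p - 2)).neg_one_pow] at hlc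
  have h2 : (2 : K) * Q.leadingCoeff = 0 := by linear_combination -hlc
  have h2' : (2 : K) ≠ 0 := by
    intro e
    have : ((2 : ℕ) : K) = 0 := by exact_mod_cast e
    rw [CharP.cast_eq_zero_iff K p] at this
    have := Nat.le_of_dvd two_pos this
    omega
  exact leadingCoeff_ne_zero.2 hQ0 ((mul_eq_zero.1 h2).resolve_left h2')

variable [IsPretransitive G α]

theorem odd_prime (hα : Fintype.card α = p) (hG : ¬ Group.IsSolvable G) : p ≠ 2 := by
  rintro rfl
  apply hG
  have : ∀ g h : Equiv.Perm α, g * h = h * g := by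
    obtain ⟨e⟩ : Nonempty (α ≃ Fin 2) := ⟨Fintype.equivFinOfCardEq hα⟩
    have hc : ∀ g h : Equiv.Perm (Fin 2), g * h = h * g := by decide
    intro g h
    apply e.permCongrHom.injective
    rw [map_mul, map_mul, hc]
  exact Group.isSolvable_of_comm fun g h => Subtype.ext (this g h)

theorem not_sq_dvd (hα : Fintype.card α = p) : ¬ p ^ 2 ∣ Nat.card G := by
  intro h
  have h1 : p ^ 2 ∣ Nat.card (Equiv.Perm α) := h.trans (Subgroup.card_subgroup_dvd_card G)
  rw [Nat.card_perm, Nat.card_eq_fintype_card, hα, ← Nat.mul_factorial_pred hp.out.ne_zero, sq] at h1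
  have h2 := Nat.dvd_of_mul_dvd_mul_left hp.out.pos h1
  rw [hp.out.dvd_factorial] at h2
  have := hp.out.pos
  omega

theorem dvd_card (hα : Fintype.card α = p) (a : α) :
    Nat.card G = p * Nat.card (stabilizer G a) := by
  rw [← hα, ← Nat.card_eq_fintype_card, ← MulAction.index_stabilizer_of_transitive G a,
    Subgroup.index_mul_card]

/-- A reflection in the coordinates of a `p`-cycle. -/
theorem exists_reflection (hα : Fintype.card α = p) (hodd : p ≠ 2) (P : Sylow p G)
    (heven : Even (Nat.card (Subgroup.normalizer ((P : Subgroup G) : Set G)))) :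
    ∃ (e : ZMod p ≃ α), ∀ b : ZMod p, ∃ g : G, ∀ j, g • e j = e (b - j) := by
  classical
  obtain ⟨e, c, hc⟩ := exists_coords hα G
  obtain ⟨a₀⟩ : Nonempty α := Fintype.card_pos_iff.1 (by rw [hα]; exact hp.out.pos)
  have hci : ∀ (n : ℕ) j, (c ^ n) • e j = e (j + n) := by
    intro n
    induction n with
    | zero => simp
    | succ n ih =>
      intro j
      rw [pow_succ, mul_smul, show c • e j = e (j + 1) from hc j, ih]
      push_cast
      ring_nf
  have hord : orderOf c = p := by
    apply orderOf_eq_prime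
    · apply FaithfulSMul.eq_of_smul_eq_smul (α := α)
      intro x
      obtain ⟨j, rfl⟩ := e.surjective x
      rw [hci, one_smul]
      simp
    · intro h
      have := hc 0
      rw [h] at this
      simp at this
  have hfac : (Nat.card G).factorization p = 1 := by
    apply le_antisymm
    · by_contra hlt
      exact not_sq_dvd G hα ((hp.out.pow_dvd_iff_le_factorization Nat.card_pos.ne').2 (by omega))
    · exact hp.out.factorization_pos_of_dvd Nat.card_pos.ne' ⟨_, dvd_card G hα a₀⟩
  let Q : Sylow p G := Sylow.ofCard (Subgroup.zpowers c) (by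
    rw [Nat.card_zpowers, hord, hfac, pow_one])
  have hNQ : Even (Nat.card (Subgroup.normalizer ((Q : Subgroup G) : Set G))) := by
    have h1 := Subgroup.index_mul_card (Subgroup.normalizer ((Q : Subgroup G) : Set G))
    have h2 := Subgroup.index_mul_card (Subgroup.normalizer ((P : Subgroup G) : Set G))
    rw [show (Subgroup.normalizer ((Q : Subgroup G) : Set G)).index = Nat.card (Sylow p G) from
      (Sylow.card_eq_index_normalizer Q).symm] at h1
    rw [show (Subgroup.normalizer ((P : Subgroup G) : Set G)).index = Nat.card (Sylow p G) from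
      (Sylow.card_eq_index_normalizer P).symm] at h2
    rwa [Nat.eq_of_mul_eq_mul_left Nat.card_pos (h1.trans h2.symm)]
  obtain ⟨t, ht⟩ := exists_prime_orderOf_dvd_card'
    (G := Subgroup.normalizer ((Q : Subgroup G) : Set G)) 2 hNQ.two_dvd
  have ht2 : (t : G) * (t : G) = 1 := by
    rw [← Subgroup.coe_mul, ← sq, ← ht, pow_orderOf_eq_one, Subgroup.coe_one]
  have htne : (t : G) ≠ 1 := fun e => by
    rw [Subtype.ext (e.trans (Subgroup.coe_one _).symm)] at ht
    simp at ht
  have hmem : (t : G) * c * (t : G)⁻¹ ∈ Subgroup.zpowers c :=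
    (Subgroup.mem_normalizer_iff.1 t.2 c).1 (Subgroup.mem_zpowers c)
  rw [← mem_powers_iff_mem_zpowers] at hmem
  obtain ⟨k, hk⟩ := hmem
  have hk : c ^ k = (t : G) * c * (t : G)⁻¹ := hk
  have hstep : ∀ j, (t : G) • e (j + 1) = (c ^ k) • (t : G) • e j := by
    intro j
    rw [hk, mul_smul, mul_smul, inv_smul_smul, show c • e j = e (j + 1) from hc j]
  set d : ZMod p := e.symm ((t : G) • e 0) with hd
  have hform : ∀ n : ℕ, (t : G) • e (n : ZMod p) = e (d + (k : ZMod p) * n) := by
    intro n
    induction n with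
    | zero => simp [d]
    | succ n ih =>
      rw [Nat.cast_succ, hstep, ih, hci]
      congr 1
      ring
  have hform' : ∀ j : ZMod p, (t : G) • e j = e (d + (k : ZMod p) * j) := fun j => by
    simpa using hform j.val
  have hsq : ∀ j : ZMod p, d + (k : ZMod p) * (d + (k : ZMod p) * j) = j := fun j => by
    apply e.injective
    rw [← hform', ← hform', ← mul_smul, ht2, one_smul]
  have hkk : (k : ZMod p) = -1 := by
    have h0 := hsq 0
    have h1 := hsq 1
    have h2 : (k : ZMod p) * k = 1 := by linear_combination h1 - h0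
    rcases mul_self_eq_one_iff.1 h2 with h | h
    · exfalso
      rw [h] at h0
      have h2d : (2 : ZMod p) * d = 0 := by linear_combination h0
      have h2' : (2 : ZMod p) ≠ 0 := by
        intro e
        have : ((2 : ℕ) : ZMod p) = 0 := by exact_mod_cast e
        rw [ZMod.natCast_eq_zero_iff] at this
        have := Nat.le_of_dvd two_pos this
        have := hp.out.two_le
        omega
      have hd0 := (mul_eq_zero.1 h2d).resolve_left h2'
      refine htne (FaithfulSMul.eq_of_smul_eq_smul (α := α) fun x => ?_)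
      obtain ⟨j, rfl⟩ := e.surjective x
      rw [one_smul, hform', h, hd0]
      simp
    · exact h
  refine ⟨e, fun b => ⟨c ^ (b - d).val * (t : G), fun j => ?_⟩⟩
  rw [mul_smul, hform', hci, ZMod.natCast_zmod_val, hkk]
  congr 1
  ring

theorem setwise_transitive (hα : Fintype.card α = p) (hG : ¬ Group.IsSolvable G) (P : Sylow p G)
    (heven : Even (Nat.card (Subgroup.normalizer ((P : Subgroup G) : Set G))))
    {a b c d : α} (hab : a ≠ b) (hca : c ≠ a) (hcb : c ≠ b) (hda : d ≠ a) (hdb : d ≠ b) :
    ∃ g : G, ((g • a = a ∧ g • b = b) ∨ (g • a = b ∧ g • b = a)) ∧ g • c = d := by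
  classical
  have hodd := odd_prime G hα hG
  obtain ⟨e, he⟩ := exists_reflection G hα hodd P heven
  have h2 : IsMultiplyPretransitive G α 2 := by
    by_contra h
    exact hG (Cfsg.Lib.PermGroup.BurnsidePrime.isSolvable (hα ▸ hp.out) G h)
  by_contra hno
  let S : G → Prop := fun g => (g • a = a ∧ g • b = b) ∨ (g • a = b ∧ g • b = a)
  have hSmul : ∀ g h : G, S g → S h → S (g * h) := by
    rintro g h (hg | hg) (hh | hh) <;> simp only [S, mul_smul]
    · exact Or.inl ⟨by rw [hh.1, hg.1], by rw [hh.2, hg.2]⟩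
    · exact Or.inr ⟨by rw [hh.1, hg.2], by rw [hh.2, hg.1]⟩
    · exact Or.inr ⟨by rw [hh.1, hg.1], by rw [hh.2, hg.2]⟩
    · exact Or.inl ⟨by rw [hh.1, hg.2], by rw [hh.2, hg.1]⟩
  have hSinv : ∀ g : G, S g → S g⁻¹ := by
    rintro g (hg | hg)
    · exact Or.inl ⟨by rw [inv_smul_eq_iff, hg.1], by rw [inv_smul_eq_iff, hg.2]⟩
    · exact Or.inr ⟨by rw [inv_smul_eq_iff, hg.2], by rw [inv_smul_eq_iff, hg.1]⟩
  let O : Finset α := Finset.univ.filter fun x => ∃ g : G, S g ∧ g • c = x
  -- the invariant function
  let u : ZMod p := (O.card : ZMod p)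
  let φ : α → ZMod p := fun x => (if x = a ∨ x = b then u else 0) + (if x ∈ O then -2 else 0)
  have hOinv : ∀ g : G, S g → ∀ x, (g • x ∈ O ↔ x ∈ O) := by
    intro g hg x
    simp only [O, Finset.mem_filter, Finset.mem_univ, true_and]
    constructor
    · rintro ⟨k, hk, hkc⟩
      exact ⟨g⁻¹ * k, hSmul _ _ (hSinv g hg) hk, by rw [mul_smul, hkc, inv_smul_smul]⟩
    · rintro ⟨k, hk, hkc⟩
      exact ⟨g * k, hSmul _ _ hg hk, by rw [mul_smul, hkc]⟩
  have hφinv : ∀ g : G, S g → ∀ x, φ (g • x) = φ x := by
    intro g hg x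
    have h1 : (g • x = a ∨ g • x = b) ↔ (x = a ∨ x = b) := by
      constructor
      · rintro (h | h) <;> rcases hg with hg | hg
        · exact Or.inl (MulAction.injective g (h.trans hg.1.symm))
        · exact Or.inr (MulAction.injective g (h.trans hg.2.symm))
        · exact Or.inr (MulAction.injective g (h.trans hg.2.symm))
        · exact Or.inl (MulAction.injective g (h.trans hg.1.symm))
      · rintro (rfl | rfl) <;> rcases hg with hg | hg
        · exact Or.inl hg.1
        · exact Or.inr hg.1
        · exact Or.inr hg.2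
        · exact Or.inl hg.2
    simp only [φ, h1, hOinv g hg]
  have hφsum : ∑ x, φ x = 0 := by
    simp only [φ, Finset.sum_add_distrib, ← Finset.sum_filter, Finset.sum_const, nsmul_eq_mul]
    rw [show (Finset.univ.filter fun x => x = a ∨ x = b) = {a, b} by ext; simp,
      show (Finset.univ.filter fun x => x ∈ O) = O by ext; simp, Finset.card_pair hab]
    push_cast
    ring
  have hnab : a ∉ O := by
    simp only [O, Finset.mem_filter, Finset.mem_univ, true_and]
    rintro ⟨g, hg | hg, hgc⟩
    · exact hca (MulAction.injective g (hgc.trans hg.1.symm))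
    · exact hcb (MulAction.injective g (hgc.trans hg.2.symm))
  have hcO : c ∈ O := by
    simp only [O, Finset.mem_filter, Finset.mem_univ, true_and]
    exact ⟨1, Or.inl ⟨one_smul _ _, one_smul _ _⟩, one_smul _ _⟩
  have hφc : φ c = -2 := by simp [φ, hca, hcb, hcO]
  have hdO : d ∉ O := by
    simp only [O, Finset.mem_filter, Finset.mem_univ, true_and]
    rintro ⟨g, hg, hgc⟩
    exact hno ⟨g, hg, hgc⟩
  have hφd : φ d = 0 := by simp [φ, hda, hdb, hdO]
  -- the invariant subspace spanned by the translates
  let T : (α → ZMod p) ≃ₗ[ZMod p] (ZMod p → ZMod p) := LinearEquiv.funCongrLeft (ZMod p) (ZMod p) e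
  let W₀ : Submodule (ZMod p) (α → ZMod p) :=
    Submodule.span (ZMod p) (insert (fun _ => (1 : ZMod p)) (Set.range fun g : G => fun x => φ (g⁻¹ • x)))
  let W : Subrepresentation (Cfsg.permRep (ZMod p) G α) :=
    { toSubmodule := W₀
      apply_mem_toSubmodule := by
        intro g v hv
        induction hv using Submodule.span_induction with
        | mem v hv =>
          rcases Set.mem_insert_iff.1 hv with rfl | ⟨h, rfl⟩
          · exact Submodule.subset_span (Set.mem_insert _ _)
          · refine Submodule.subset_span (Set.mem_insert_of_mem _ ⟨g * h, funext fun x => ?_⟩)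
            show φ ((g * h)⁻¹ • x) = φ (h⁻¹ • g⁻¹ • x)
            rw [mul_inv_rev, mul_smul]
        | zero => simp
        | add x y _ _ hx hy => rw [map_add]; exact W₀.add_mem hx hy
        | smul r x _ hx => rw [map_smul]; exact W₀.smul_mem r hx }
  have hmemPr : ∀ v ∈ W₀, T v ∈ Pr p (ZMod p) (p - 2) := by
    intro v hv
    induction hv using Submodule.span_induction with
    | mem v hv =>
      rcases Set.mem_insert_iff.1 hv with rfl | ⟨h, rfl⟩
      · refine mem_Pr.2 ⟨1, ?_, funext fun j => by simp [pf_apply, T]⟩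
        rw [degree_one]
        exact_mod_cast (show 0 < p - 2 by have := hp.out.two_le; omega)
      · obtain ⟨g, hg⟩ := he (e.symm (h • a) + e.symm (h • b))
        refine symm_mem_Pr (b := e.symm (h • a) + e.symm (h • b)) hodd ?_ ?_
        · show ∑ j, φ (h⁻¹ • e j) = 0
          rw [← hφsum]
          exact Equiv.sum_comp (e.trans (MulAction.toPerm h⁻¹)) φ
        · intro j
          show φ (h⁻¹ • e (_ - j)) = φ (h⁻¹ • e j)
          rw [← hg j]
          have hS : S (h⁻¹ * g * h) := by
            refine Or.inr ⟨?_, ?_⟩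
            · rw [mul_smul, mul_smul, inv_smul_eq_iff, ← e.apply_symm_apply (h • a), hg]
              simp
            · rw [mul_smul, mul_smul, inv_smul_eq_iff, ← e.apply_symm_apply (h • b), hg]
              simp
          have := hφinv _ hS (h⁻¹ • e j)
          rw [mul_smul, mul_smul, smul_inv_smul] at this
          exact this
    | zero => simp
    | add x y _ _ hx hy => rw [map_add]; exact Submodule.add_mem _ hx hy
    | smul r x _ hx => rw [map_smul]; exact Submodule.smul_mem _ r hx
  rcases Cfsg.Agent.S0674.result hα G hG W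
    (by
      show Submodule.span (ZMod p) {fun _ : α => (1 : ZMod p)} ≤ W₀
      exact Submodule.span_mono (Set.singleton_subset_iff.2 (Set.mem_insert _ _)))
    (by
      show W₀ ≤ (Cfsg.permSumZero (ZMod p) G α).toSubmodule
      refine Submodule.span_le.2 ?_
      rintro v (rfl | ⟨h, rfl⟩)
      · show ∑ _x : α, (1 : ZMod p) = 0
        simp [hα]
      · show ∑ x, φ (h⁻¹ • x) = 0
        rw [← hφsum]
        exact Equiv.sum_comp (MulAction.toPerm h⁻¹) φ) with hW | hW
  · have h1 : φ ∈ Submodule.span (ZMod p) {fun _ : α => (1 : ZMod p)} := by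
      have : φ ∈ W₀ := Submodule.subset_span (Set.mem_insert_of_mem _ ⟨1, by simp⟩)
      rw [show W₀ = W.toSubmodule from rfl, hW] at this
      exact this
    obtain ⟨r, hr⟩ := Submodule.mem_span_singleton.1 h1
    have hrc := congrFun hr c
    have hrd := congrFun hr d
    simp only [Pi.smul_apply, smul_eq_mul, mul_one] at hrc hrd
    rw [hφc] at hrc
    rw [hφd] at hrd
    rw [hrd] at hrc
    have : ((2 : ℕ) : ZMod p) = 0 := by
      have h2 : (2 : ZMod p) = 0 := by linear_combination hrc
      exact_mod_cast h2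
    rw [ZMod.natCast_eq_zero_iff] at this
    have := Nat.le_of_dvd two_pos this
    have := hp.out.two_le
    omega
  · have hle : (Cfsg.permSumZero (ZMod p) G α).toSubmodule.map T.toLinearMap ≤ Pr p (ZMod p) (p - 2) := by
      rw [← hW]
      rintro _ ⟨v, hv, rfl⟩
      exact hmemPr v hv
    have h3 : (pf p (ZMod p) (X ^ (p - 2))) ∈ Pr p (ZMod p) (p - 2) := by
      refine hle ⟨T.symm (pf p (ZMod p) (X ^ (p - 2))), ?_, T.apply_symm_apply _⟩
      show ∑ x, pf p (ZMod p) (X ^ (p - 2)) (e.symm x) = 0
      rw [Equiv.sum_comp e.symm (pf p (ZMod p) (X ^ (p - 2)))]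
      simp only [pf_apply, eval_pow, eval_X]
      rw [sum_node_pow, FiniteField.sum_pow_lt_card_sub_one (K := ZMod p) (p - 2) (by
        rw [ZMod.card]; have := hp.out.two_le; omega), map_zero]
    obtain ⟨R, hR, hRf⟩ := mem_Pr.1 h3
    have hXd : (X ^ (p - 2) : (ZMod p)[X]).degree < (p : ℕ) := by
      rw [degree_X_pow]; exact Nat.cast_lt.2 (by have := hp.out.two_le; omega)
    rw [pf_injOn (hR.trans (Nat.cast_lt.2 (by have := hp.out.two_le; omega))) hXd hRf, degree_X_pow] at hR
    exact lt_irrefl _ hR

theorem three_transitive (hα : Fintype.card α = p) (hG : ¬ Group.IsSolvable G) (P : Sylow p G)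
    (heven : Even (Nat.card (Subgroup.normalizer ((P : Subgroup G) : Set G)))) :
    IsMultiplyPretransitive G α 3 := by
  have h2 : IsMultiplyPretransitive G α 2 := by
    by_contra h
    exact hG (Cfsg.Lib.PermGroup.BurnsidePrime.isSolvable (hα ▸ hp.out) G h)
  refine Cfsg.Agent.PairHeart.three_transitive h2 (fun a => ?_)
    (fun a b c d hab hca hcb hda hdb => setwise_transitive G hα hG P heven hab hca hcb hda hdb)
  have h1 : 2 ∣ Nat.card G := heven.two_dvd.trans (Subgroup.card_subgroup_dvd_card _)
  rw [dvd_card G hα a] at h1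
  exact even_iff_two_dvd.2 ((Nat.prime_two.dvd_mul.1 h1).resolve_left fun h =>
    odd_prime G hα hG ((Nat.prime_dvd_prime_iff_eq Nat.prime_two hp.out).1 h).symm)

end Cfsg.Agent.PrimeDegreeThree
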