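import Mathlib
import Cfsg.Agent.Lib.PermGroup.PrimeDegreeThree
import Cfsg.Agent.Lib.PermGroup.JordanPrime
import Cfsg.Agent.S4304
import Cfsg.Agent.Lib.Characters.Burnside

/-! Non-solvable groups of degree seven. -/

set_option linter.unusedSectionVars false
set_option linter.style.haveILetI false

namespace Cfsg.Agent.DegreeSeven

open MulAction Equiv

variable {α : Type*} [Fintype α] [DecidableEq α] (H : Subgroup (Equiv.Perm α)) [IsPretransitive H α]

/-- The normaliser data of a Sylow 7-subgroup. -/
theorem sylow_data (hα : Fintype.card α = 7) (hH : ¬ Group.IsSolvable H) :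
    ∃ k : ℕ, k ∣ 6 ∧ (∀ P : Sylow 7 H, Nat.card (Subgroup.normalizer ((P : Subgroup H) : Set H)) = 7 * k) ∧
      Nat.card (Sylow 7 H) * (7 * k) = Nat.card H ∧ Nat.card (Sylow 7 H) % 7 = 1 ∧ Nat.card (Sylow 7 H) ≠ 1 ∧
      (∀ P : Sylow 7 H, Nat.card (P : Subgroup H) = 7) ∧
      ∀ P : Sylow 7 H, k = 1 → Subgroup.normalizer ((P : Subgroup H) : Set H) ≤
        Subgroup.centralizer ((P : Subgroup H) : Set H) := by
  classical
  haveI : Fact (Nat.Prime 7) := ⟨by norm_num⟩
  obtain ⟨a₀⟩ : Nonempty α := Fintype.card_pos_iff.1 (by omega)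
  have hfac : (Nat.card H).factorization 7 = 1 := by
    apply le_antisymm
    · by_contra hlt
      exact Cfsg.Agent.PrimeDegreeThree.not_sq_dvd H hα
        ((Nat.Prime.pow_dvd_iff_le_factorization (by norm_num) Nat.card_pos.ne').2 (by omega))
    · exact Nat.Prime.factorization_pos_of_dvd (by norm_num) Nat.card_pos.ne'
        ⟨_, Cfsg.Agent.PrimeDegreeThree.dvd_card H hα a₀⟩
  have hPc : ∀ P : Sylow 7 H, Nat.card (P : Subgroup H) = 7 := fun P => by
    rw [P.card_eq_multiplicity, hfac, pow_one]
  -- a Sylow subgroup is its own centraliser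
  have hC : ∀ P : Sylow 7 H, Subgroup.centralizer ((P : Subgroup H) : Set H) = (P : Subgroup H) := by
    intro P
    haveI : IsCyclic (P : Subgroup H) := isCyclic_of_prime_card (hPc P)
    obtain ⟨c, hc⟩ := IsCyclic.exists_ofOrder_eq_natCard (α := (P : Subgroup H))
    have hco : orderOf ((c : H) : Perm α) = 7 := by rw [Subgroup.orderOf_coe, Subgroup.orderOf_coe, hc, hPc]
    have hcy : ((c : H) : Perm α).IsCycle :=
      Equiv.Perm.isCycle_of_prime_order'' (by rw [hα]; norm_num) (by rw [hco, hα])
    have hsupp : ((c : H) : Perm α).support = Finset.univ := by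
      rw [← Finset.card_eq_iff_eq_univ, ← hcy.orderOf, hco, hα]
    refine le_antisymm (fun g hg => ?_) ?_
    · have hcomm : Commute ((g : H) : Perm α) ((c : H) : Perm α) := by
        have := (Subgroup.mem_centralizer_iff.1 hg (c : H) c.2).symm
        exact congrArg Subtype.val this
      have hmem : ((g : H) : Perm α) ∈ Subgroup.zpowers ((c : H) : Perm α) := by
        obtain ⟨i, hi⟩ := hcy.exists_zpow_eq
          (Perm.mem_support.1 (show a₀ ∈ ((c : H) : Perm α).support by simp [hsupp]))
          (Perm.mem_support.1 (show (g : Perm α) a₀ ∈ ((c : H) : Perm α).support by simp [hsupp]))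
        refine ⟨i, Equiv.ext fun x => ?_⟩
        obtain ⟨j, rfl⟩ := hcy.exists_zpow_eq
          (Perm.mem_support.1 (show a₀ ∈ ((c : H) : Perm α).support by simp [hsupp]))
          (Perm.mem_support.1 (show x ∈ ((c : H) : Perm α).support by simp [hsupp]))
        show (((c : H) : Perm α) ^ i) ((((c : H) : Perm α) ^ j) a₀) = (g : Perm α) ((((c : H) : Perm α) ^ j) a₀)
        rw [← Perm.mul_apply, ← Perm.mul_apply, (hcomm.zpow_right j).eq, (Commute.zpow_zpow_self _ i j).eq,
          Perm.mul_apply, Perm.mul_apply, hi]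
      obtain ⟨i, hi⟩ := hmem
      have : g = (c : H) ^ i := Subtype.ext (by rw [Subgroup.coe_zpow]; exact hi.symm)
      rw [this]
      exact (P : Subgroup H).zpow_mem c.2 i
    · intro g hg
      rw [Subgroup.mem_centralizer_iff]
      intro x hx
      exact congrArg Subtype.val ((IsCyclic.isMulCommutative (α := (P : Subgroup H))).is_comm.comm ⟨x, hx⟩ ⟨g, hg⟩)
  have hker : ∀ P : Sylow 7 H, ∀ g : Subgroup.normalizer ((P : Subgroup H) : Set H),
      Subgroup.normalizerMonoidHom (P : Subgroup H) g = 1 → (g : H) ∈ (P : Subgroup H) := by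
    intro P g hg
    refine (hC P).le (Subgroup.mem_centralizer_iff.2 fun x hx => ?_)
    have := congrArg Subtype.val (MulEquiv.congr_fun hg (⟨x, hx⟩ : (P : Subgroup H)))
    change (g : H) * x * (g : H)⁻¹ = x at this
    calc x * (g : H) = ((g : H) * x * (g : H)⁻¹) * (g : H) := by rw [this]
      _ = (g : H) * x := by group
  have hNdvd : ∀ P : Sylow 7 H, ∃ k, k ∣ 6 ∧
      Nat.card (Subgroup.normalizer ((P : Subgroup H) : Set H)) = 7 * k := by
    intro P
    haveI : IsCyclic (P : Subgroup H) := isCyclic_of_prime_card (hPc P)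
    set f := Subgroup.normalizerMonoidHom (P : Subgroup H)
    refine ⟨Nat.card f.range, ?_, ?_⟩
    · refine (Subgroup.card_subgroup_dvd_card _).trans ?_
      rw [Nat.card_congr (IsCyclic.mulAutMulEquiv (P : Subgroup H)).toEquiv, hPc, Nat.card_eq_fintype_card,
        ZMod.card_units_eq_totient]
      decide
    · have h1 : Nat.card f.ker = 7 := by
        have : f.ker = ((P : Subgroup H)).subgroupOf (Subgroup.normalizer ((P : Subgroup H) : Set H)) := by
          ext g
          refine ⟨fun hg => hker P g hg, fun hg => ?_⟩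
          rw [MonoidHom.mem_ker]
          have hg' : (g : H) ∈ Subgroup.centralizer ((P : Subgroup H) : Set H) := by rw [hC P]; exact hg
          apply MulEquiv.ext
          intro x
          apply Subtype.ext
          have := Subgroup.mem_centralizer_iff.1 hg' x x.2
          show (g : H) * x * (g : H)⁻¹ = x
          calc (g : H) * x * (g : H)⁻¹ = x * g * (g : H)⁻¹ := by rw [this]
            _ = x := by group
        rw [this, Nat.card_congr (Subgroup.subgroupOfEquivOfLe Subgroup.le_normalizer).toEquiv, hPc]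
      rw [← Subgroup.index_mul_card f.ker, h1, Subgroup.index_ker, mul_comm]
  obtain ⟨P₀⟩ : Nonempty (Sylow 7 H) := inferInstance
  obtain ⟨k, hk6, hk⟩ := hNdvd P₀
  have hcard : Nat.card (Sylow 7 H) * (7 * k) = Nat.card H := by
    rw [Sylow.card_eq_index_normalizer P₀, ← hk]
    exact Subgroup.index_mul_card _
  have hkall : ∀ P : Sylow 7 H, Nat.card (Subgroup.normalizer ((P : Subgroup H) : Set H)) = 7 * k := by
    intro P
    have h1 := Subgroup.index_mul_card (Subgroup.normalizer ((P : Subgroup H) : Set H))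
    rw [show (Subgroup.normalizer ((P : Subgroup H) : Set H)).index = Nat.card (Sylow 7 H) from
      (Sylow.card_eq_index_normalizer P).symm] at h1
    exact Nat.eq_of_mul_eq_mul_left Nat.card_pos (h1.trans hcard.symm)
  refine ⟨k, hk6, hkall, hcard, card_sylow_modEq_one 7 H, fun h1 => hH ?_, hPc, fun P hk1 => ?_⟩
  · haveI : IsCyclic (P₀ : Subgroup H) := isCyclic_of_prime_card (hPc P₀)
    have hn : Subgroup.normalizer ((P₀ : Subgroup H) : Set H) = ⊤ := by
      rw [← Subgroup.index_eq_one]
      exact (Sylow.card_eq_index_normalizer P₀).symm.trans h1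
    haveI : Group.IsSolvable (P₀ : Subgroup H) :=
      Group.isSolvable_of_comm fun u v => (IsCyclic.isMulCommutative (α := (P₀ : Subgroup H))).is_comm.comm u v
    haveI : Group.IsSolvable (MulAut (P₀ : Subgroup H)) :=
      Group.isSolvable_of_comm fun u v =>
        (IsCyclic.mulAutMulEquiv (P₀ : Subgroup H)).injective (by rw [map_mul, map_mul, mul_comm])
    let f : Subgroup.normalizer ((P₀ : Subgroup H) : Set H) →* MulAut (P₀ : Subgroup H) :=
      Subgroup.normalizerMonoidHom _
    haveI : Group.IsSolvable (Subgroup.normalizer ((P₀ : Subgroup H) : Set H)) :=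
      Group.isSolvable_of_ker_le_range (Subgroup.inclusion Subgroup.le_normalizer :
        (P₀ : Subgroup H) →* Subgroup.normalizer ((P₀ : Subgroup H) : Set H)) f
        (fun g hg => ⟨⟨g, hker P₀ g hg⟩, rfl⟩)
    exact Group.isSolvable_of_surjective
      (f := (Subgroup.normalizer ((P₀ : Subgroup H) : Set H)).subtype)
      (fun x => ⟨⟨x, hn ▸ Subgroup.mem_top x⟩, rfl⟩)
  · rw [hC P]
    intro g hg
    have h2 : Nat.card (Subgroup.normalizer ((P : Subgroup H) : Set H)) ≤ Nat.card (P : Subgroup H) := by
      rw [hkall P, hk1, hPc P]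
    rw [Subgroup.eq_of_le_of_card_ge Subgroup.le_normalizer h2]
    exact hg

/-- No element of order three fixes two points. -/
theorem not_three_dvd (hα : Fintype.card α = 7) (hA : ¬ alternatingGroup α ≤ H) (a b : α) :
    ¬ 3 ∣ Nat.card ↥(stabilizer H a ⊓ stabilizer H b) ∨ a = b := by
  classical
  by_cases hab : a = b
  · exact Or.inr hab
  refine Or.inl fun h3 => hA ?_
  haveI : Fact (Nat.Prime 3) := ⟨Nat.prime_three⟩
  obtain ⟨u, hu⟩ := exists_prime_orderOf_dvd_card' (G := ↥(stabilizer H a ⊓ stabilizer H b)) 3 h3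
  set σ : Perm α := ((u : H) : Perm α)
  have hσ : orderOf σ = 3 := by simp only [σ, Subgroup.orderOf_coe, hu]
  have hua : σ a = a := u.2.1
  have hub : σ b = b := u.2.2
  have hle : σ.support.card ≤ 5 := by
    have : σ.support ⊆ ({a, b} : Finset α)ᶜ := by
      intro z hz
      simp only [Finset.mem_compl, Finset.mem_insert, Finset.mem_singleton]
      rintro (rfl | rfl)
      · exact Perm.mem_support.1 hz hua
      · exact Perm.mem_support.1 hz hub
    refine (Finset.card_le_card this).trans ?_
    rw [Finset.card_compl, Finset.card_pair hab, hα]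
  have hc : σ.IsCycle := Equiv.Perm.isCycle_of_prime_order (by rw [hσ]; exact Nat.prime_three) (by rw [hσ]; omega)
  haveI : IsPreprimitive H α :=
    IsPreprimitive.of_prime_card (by rw [Nat.card_eq_fintype_card, hα]; norm_num)
  exact Cfsg.Lib.PermGroup.alternatingGroup_le_of_prime_cycle this Nat.prime_three (by omega) hc
    (by rw [← hc.orderOf, hσ]) (u : H).2

/-- Facts on the order. -/
theorem order_data (hα : Fintype.card α = 7) (hH : ¬ Group.IsSolvable H) (hA : ¬ alternatingGroup α ≤ H) :
    ∃ m : ℕ, Nat.card H = 42 * m ∧ ¬ 3 ∣ m ∧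
      (Even (Nat.card (Subgroup.normalizer (((default : Sylow 7 H) : Subgroup H) : Set H))) → 5 ∣ m) := by
  classical
  haveI : Fact (Nat.Prime 7) := ⟨by norm_num⟩
  obtain ⟨a, b, hab⟩ := Fintype.exists_pair_of_one_lt_card (α := α) (by omega)
  have h2 : IsMultiplyPretransitive H α 2 := by
    by_contra h
    exact hH (Cfsg.Lib.PermGroup.BurnsidePrime.isSolvable (by rw [hα]; norm_num) H h)
  have h2' : ∀ {u v w z : α}, u ≠ v → w ≠ z → ∃ g : H, g • u = w ∧ g • v = z :=
    fun h h' => is_two_pretransitive_iff.1 h2 h h'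
  have hKa : Nat.card (stabilizer H a) = 6 * Nat.card ↥(stabilizer H a ⊓ stabilizer H b) := by
    have horb : orbit (stabilizer H a) b = {a}ᶜ := by
      ext x
      simp only [Set.mem_compl_iff, Set.mem_singleton_iff]
      constructor
      · rintro ⟨g, rfl⟩ e
        exact hab.symm (MulAction.injective (g : H) (e.trans g.2.symm))
      · intro hx
        obtain ⟨g, hga, hgb⟩ := h2' hab (Ne.symm hx)
        exact ⟨⟨g, hga⟩, hgb⟩
    rw [← Nat.card_congr (MulAction.orbitProdStabilizerEquivGroup (stabilizer H a) b), Nat.card_prod, horb,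
      Nat.card_coe_set_eq, Set.ncard_compl, Set.ncard_singleton, Nat.card_eq_fintype_card, hα]
    congr 1
    exact Nat.card_congr
      { toFun := fun g => ⟨g.1.1, Subgroup.mem_inf.2 ⟨g.1.2, g.2⟩⟩
        invFun := fun g => ⟨⟨g.1, (Subgroup.mem_inf.1 g.2).1⟩, (Subgroup.mem_inf.1 g.2).2⟩
        left_inv := fun g => rfl
        right_inv := fun g => rfl }
  refine ⟨Nat.card ↥(stabilizer H a ⊓ stabilizer H b), ?_, ?_, fun hev => ?_⟩
  · rw [Cfsg.Agent.PrimeDegreeThree.dvd_card H hα a, hKa]; ring
  · exact (not_three_dvd H hα hA a b).resolve_right hab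
  · have h3 := Cfsg.Agent.PrimeDegreeThree.three_transitive H hα hH default hev
    obtain ⟨c, hc⟩ : ∃ c, c ∉ ({a, b} : Finset α) := by
      by_contra hall
      push Not at hall
      have := congrArg Finset.card (Finset.eq_univ_of_forall hall)
      rw [Finset.card_pair hab, Finset.card_univ, hα] at this
      omega
    simp only [Finset.mem_insert, Finset.mem_singleton, not_or] at hc
    have horb : orbit ↥(stabilizer H a ⊓ stabilizer H b) c = ({a, b} : Set α)ᶜ := by
      ext x
      simp only [Set.mem_compl_iff, Set.mem_insert_iff, Set.mem_singleton_iff, not_or]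
      constructor
      · rintro ⟨g, rfl⟩
        exact ⟨fun e => hc.1 (MulAction.injective (g : H) (e.trans g.2.1.symm)),
          fun e => hc.2 (MulAction.injective (g : H) (e.trans g.2.2.symm))⟩
      · intro hx
        obtain ⟨g, hg⟩ := (MulAction.isMultiplyPretransitive_iff.1 h3) ⟨![a, b, c], by
            intro i j h
            fin_cases i <;> fin_cases j <;> simp_all [eq_comm]⟩
          ⟨![a, b, x], by
            intro i j h
            fin_cases i <;> fin_cases j <;> simp_all [eq_comm]⟩
        exact ⟨⟨g, DFunLike.congr_fun hg 0, DFunLike.congr_fun hg 1⟩, DFunLike.congr_fun hg 2⟩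
    rw [← Nat.card_congr (MulAction.orbitProdStabilizerEquivGroup ↥(stabilizer H a ⊓ stabilizer H b) c),
      Nat.card_prod, horb, Nat.card_coe_set_eq, Set.ncard_compl, Set.ncard_pair hab,
      Nat.card_eq_fintype_card, hα]
    exact dvd_mul_right _ _

theorem even_core (hα : Fintype.card α = 7) (hH : ¬ Group.IsSolvable H) (hA : ¬ alternatingGroup α ≤ H)
    (halt : H ≤ alternatingGroup α) : Nat.card H = 168 := by
  classical
  haveI : Fact (Nat.Prime 7) := ⟨by norm_num⟩
  obtain ⟨k, hk6, hkall, hcard, hmod, hne1, hPc, hburn⟩ := sylow_data H hα hH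
  obtain ⟨m, hm, hm3, hev⟩ := order_data H hα hH hA
  rw [hkall] at hev
  have hm60 : m ∣ 60 := by
    have h1 := Subgroup.card_dvd_of_le halt
    haveI : Nontrivial α := Fintype.one_lt_card_iff_nontrivial.1 (by omega)
    rw [hm, nat_card_alternatingGroup, Nat.card_eq_fintype_card (α := α), hα] at h1
    exact Nat.dvd_of_mul_dvd_mul_left (by norm_num : 0 < 42) (h1.trans (by norm_num [Nat.factorial]))
  have hmem : m ∈ Nat.divisors 60 := Nat.mem_divisors.2 ⟨hm60, by norm_num⟩
  rw [show Nat.divisors 60 = {1, 2, 3, 4, 5, 6, 10, 12, 15, 20, 30, 60} by decide] at hmem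
  have hk' : k ∈ Nat.divisors 6 := Nat.mem_divisors.2 ⟨hk6, by norm_num⟩
  rw [show Nat.divisors 6 = {1, 2, 3, 6} by decide] at hk'
  have h15 : Nat.card (Sylow 7 H) ≠ 15 := Cfsg.Agent.S4304.result
  simp only [Finset.mem_insert, Finset.mem_singleton] at hmem hk'
  set n7 := Nat.card (Sylow 7 H)
  rw [hm] at hcard
  by_cases hk1 : k = 1
  · subst hk1
    by_cases h20 : m = 20
    · -- a normal complement would be transitive
      exfalso
      obtain ⟨P⟩ : Nonempty (Sylow 7 H) := inferInstance
      have hcompl := MonoidHom.ker_transferSylow_isComplement' P (hburn P rfl)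
      have hKc := hcompl.card_mul
      rw [hPc P, hm, h20] at hKc
      set Kk := (MonoidHom.transferSylow P (hburn P rfl)).ker
      haveI : IsPreprimitive H α :=
        IsPreprimitive.of_prime_card (by rw [Nat.card_eq_fintype_card, hα]; norm_num)
      have hfix : fixedPoints Kk α ≠ .univ := by
        intro e
        have : Kk = ⊥ := (Subgroup.eq_bot_iff_forall _).2 fun g hg =>
          FaithfulSMul.eq_of_smul_eq_smul (α := α) fun x => by
            rw [one_smul]; exact Set.eq_univ_iff_forall.1 e x ⟨g, hg⟩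
        rw [this, Subgroup.card_bot] at hKc
        omega
      haveI := IsQuasiPreprimitive.isPretransitive_of_normal (G := H) (X := α) hfix
      obtain ⟨a₀⟩ : Nonempty α := Fintype.card_pos_iff.1 (by omega)
      have h7 : 7 ∣ Nat.card Kk := by
        rw [← Nat.card_congr (MulAction.orbitProdStabilizerEquivGroup Kk a₀), Nat.card_prod,
          MulAction.orbit_eq_univ, Nat.card_coe_set_eq, Set.ncard_univ, Nat.card_eq_fintype_card, hα]
        exact dvd_mul_right _ _
      omega
    · rcases hmem with rfl | rfl | rfl | rfl | rfl | rfl | rfl | rfl | rfl | rfl | rfl | rfl <;> omega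
  · rcases hk' with rfl | rfl | rfl | rfl <;>
      rcases hmem with rfl | rfl | rfl | rfl | rfl | rfl | rfl | rfl | rfl | rfl | rfl | rfl <;>
      first
        | omega
        | (have h5 : 5 ∣ _ := hev (by decide); omega)

theorem solvable_of_dvd_24 {X : Type*} [Group X] {N : Subgroup X} [N.Normal] [Finite (X ⧸ N)]
    (h : N.index ∣ 24) : Group.IsSolvable (X ⧸ N) := by
  refine Cfsg.Lib.Characters.isSolvable_of_card_eq_pow_mul_pow Nat.prime_two Nat.prime_three _ _ rfl ?_
  rw [show (24 : ℕ) = 2 ^ 3 * 3 ^ 1 from rfl] at h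
  obtain ⟨x, y, hx, hy, he⟩ := exists_dvd_and_dvd_of_dvd_mul h
  obtain ⟨u, -, rfl⟩ := (Nat.dvd_prime_pow Nat.prime_two).1 hx
  obtain ⟨v, -, rfl⟩ := (Nat.dvd_prime_pow Nat.prime_three).1 hy
  exact ⟨u, v, he⟩

theorem main (G : Subgroup (Equiv.Perm α)) [IsPretransitive G α] (hα : Fintype.card α = 7)
    (hG : ¬ Group.IsSolvable G) (hA : ¬ alternatingGroup α ≤ G) :
    Nat.card G = 168 ∧ IsSimpleGroup G := by
  classical
  haveI : Fact (Nat.Prime 7) := ⟨by norm_num⟩
  haveI : Nontrivial α := Fintype.one_lt_card_iff_nontrivial.1 (by omega)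
  set H := G ⊓ alternatingGroup α with hHdef
  have hHG : (H.subgroupOf G) = ((Equiv.Perm.sign).comp G.subtype).ker := by
    ext g
    simp [H, Subgroup.mem_subgroupOf, Equiv.Perm.mem_alternatingGroup]
  have hsolv : ¬ Group.IsSolvable H := by
    intro h
    haveI := h
    refine hG (Group.isSolvable_of_ker_le_range (Subgroup.inclusion (inf_le_left : H ≤ G))
      ((Equiv.Perm.sign).comp G.subtype) fun g hg => ?_)
    exact ⟨⟨g, g.2, Equiv.Perm.mem_alternatingGroup.2 hg⟩, rfl⟩
  obtain ⟨a₀⟩ : Nonempty α := Fintype.card_pos_iff.1 (by omega)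
  haveI : IsPretransitive H α := by
    obtain ⟨e, c, hc⟩ := Cfsg.Lib.PermGroup.PolyModule.exists_coords hα G
    have hcy7 : (c : Perm α) ^ 7 = 1 := by
      have hp : ∀ (n : ℕ) j, ((c : Perm α) ^ n) (e j) = e (j + n) := by
        intro n
        induction n with
        | zero => simp
        | succ n ih => intro j; rw [pow_succ', Perm.mul_apply, ih, hc]; push_cast; ring_nf
      ext x
      obtain ⟨j, rfl⟩ := e.surjective x
      rw [hp]
      simp
      rfl
    have hcA : (c : Perm α) ∈ alternatingGroup α := by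
      rw [Equiv.Perm.mem_alternatingGroup]
      rcases Int.units_eq_one_or (Equiv.Perm.sign (c : Perm α)) with h | h
      · exact h
      · have := congrArg Equiv.Perm.sign hcy7
        rw [map_pow, h, map_one] at this
        exact absurd this (by decide)
    let c' : H := ⟨c, c.2, hcA⟩
    have hp : ∀ (n : ℕ) j, (c' ^ n) • e j = e (j + n) := by
      intro n
      induction n with
      | zero => simp
      | succ n ih =>
        intro j
        rw [pow_succ, mul_smul, show c' • e j = e (j + 1) from hc j, ih]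
        push_cast; ring_nf
    constructor
    intro x y
    obtain ⟨i, rfl⟩ := e.surjective x
    obtain ⟨j, rfl⟩ := e.surjective y
    refine ⟨c' ^ (j - i).val, ?_⟩
    rw [hp, ZMod.natCast_zmod_val, add_sub_cancel]
  have hAH : ¬ alternatingGroup α ≤ H := fun h => hA (h.trans inf_le_left)
  have hH168 : Nat.card H = 168 := even_core H hα hsolv hAH inf_le_right
  have hG168 : Nat.card G = 168 := by
    have hidx := Subgroup.index_mul_card (H.subgroupOf G)
    rw [Nat.card_congr (Subgroup.subgroupOfEquivOfLe (inf_le_left : H ≤ G)).toEquiv, hH168, hHG,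
      Subgroup.index_ker] at hidx
    have h2 := (Subgroup.card_subgroup_dvd_card ((Equiv.Perm.sign).comp G.subtype).range)
    rw [Nat.card_eq_fintype_card (α := ℤˣ), Fintype.card_units_int] at h2
    rcases (Nat.dvd_prime Nat.prime_two).1 h2 with h | h <;> rw [h] at hidx
    · omega
    · exfalso
      obtain ⟨k, hk6, hkall, hcard, hmod, hne1, -, -⟩ := sylow_data G hα hG
      obtain ⟨m, hm, -, hev⟩ := order_data G hα hG hA
      rw [hkall] at hev
      have hk' : k ∈ Nat.divisors 6 := Nat.mem_divisors.2 ⟨hk6, by norm_num⟩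
      rw [show Nat.divisors 6 = {1, 2, 3, 6} by decide] at hk'
      simp only [Finset.mem_insert, Finset.mem_singleton] at hk'
      rcases hk' with rfl | rfl | rfl | rfl
      · omega
      · omega
      · omega
      · have := hev (by decide); omega
  refine ⟨hG168, ?_⟩
  obtain ⟨k, hk6, hkall, hcard, hmod, hne1, hPc, -⟩ := sylow_data G hα hG
  haveI : Nontrivial G := Finite.one_lt_card_iff_nontrivial.1 (by omega)
  refine ⟨fun N hN => ?_⟩
  by_contra hcon
  push Not at hcon
  haveI : IsPreprimitive G α :=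
    IsPreprimitive.of_prime_card (by rw [Nat.card_eq_fintype_card, hα]; norm_num)
  have hfix : fixedPoints N α ≠ .univ := fun e => hcon.1 ((Subgroup.eq_bot_iff_forall _).2 fun g hg =>
    FaithfulSMul.eq_of_smul_eq_smul (α := α) fun x => by
      rw [one_smul]; exact Set.eq_univ_iff_forall.1 e x ⟨g, hg⟩)
  haveI := IsQuasiPreprimitive.isPretransitive_of_normal (G := G) (X := α) hfix
  -- the image of `N` as a permutation group
  set N' : Subgroup (Perm α) := N.map G.subtype
  haveI : IsPretransitive N' α := ⟨fun x y => by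
    obtain ⟨n, hn⟩ := exists_smul_eq N x y
    exact ⟨⟨_, Subgroup.mem_map_of_mem _ n.2⟩, hn⟩⟩
  have hN'c : Nat.card N' = Nat.card N := Subgroup.card_map_of_injective G.subtype_injective
  have hNsolv : ¬ Group.IsSolvable N := by
    intro hs
    haveI := hs
    have hq : Group.IsSolvable (G ⧸ N) := by
      have hdvd : N.index * Nat.card N = 168 := hG168 ▸ Subgroup.index_mul_card N
      have h7 : 7 ∣ Nat.card N := by
        rw [← Nat.card_congr (MulAction.orbitProdStabilizerEquivGroup N a₀), Nat.card_prod,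
          MulAction.orbit_eq_univ, Nat.card_coe_set_eq, Set.ncard_univ, Nat.card_eq_fintype_card, hα]
        exact dvd_mul_right _ _
      obtain ⟨t, ht⟩ := h7
      rw [ht] at hdvd
      have hidx : N.index ∣ 24 := ⟨t, by nlinarith⟩
      exact solvable_of_dvd_24 hidx
    exact hG (Group.isSolvable_of_ker_le_range N.subtype (QuotientGroup.mk' N) (by simp))
  have hN'solv : ¬ Group.IsSolvable N' := fun h => hNsolv (by
    haveI := h
    exact Group.isSolvable_of_surjective (f := (N.equivMapOfInjective _ G.subtype_injective).symm.toMonoidHom)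
      (MulEquiv.surjective _))
  have hN'A : ¬ alternatingGroup α ≤ N' := fun h => hA (h.trans (Subgroup.map_subtype_le N))
  have : Nat.card N' = 168 := by
    obtain ⟨m, hm, -, -⟩ := order_data N' hα hN'solv hN'A
    obtain ⟨k', hk'6, -, hcard', hmod', hne', -, -⟩ := sylow_data N' hα hN'solv
    have hdvd : Nat.card N' ∣ 168 := by rw [hN'c, ← hG168]; exact Subgroup.card_subgroup_dvd_card N
    rw [hm] at hdvd hcard' ⊢
    have hm4 : m ∣ 4 := Nat.dvd_of_mul_dvd_mul_left (by norm_num : 0 < 42) hdvd
    have hm' : m ∈ Nat.divisors 4 := Nat.mem_divisors.2 ⟨hm4, by norm_num⟩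
    rw [show Nat.divisors 4 = {1, 2, 4} by decide] at hm'
    have hk' : k' ∈ Nat.divisors 6 := Nat.mem_divisors.2 ⟨hk'6, by norm_num⟩
    rw [show Nat.divisors 6 = {1, 2, 3, 6} by decide] at hk'
    simp only [Finset.mem_insert, Finset.mem_singleton] at hm' hk'
    rcases hm' with rfl | rfl | rfl <;> rcases hk' with rfl | rfl | rfl | rfl <;> omega
  exact hcon.2 (Subgroup.eq_top_of_card_eq _ (by omega))

end Cfsg.Agent.DegreeSeven
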