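import Mathlib
import Cfsg.Agent.Lib.PermGroup.PermCharacter

/-! Permutation characters with equal non-principal degrees, and rank at most five. -/

set_option linter.unusedSectionVars false
set_option linter.style.haveILetI false

namespace Cfsg.Agent.PermCharacter

open MulAction Finset Cfsg
open scoped ComplexConjugate Classical

attribute [local instance 10] Classical.propDecidable

variable {G : Type*} [Group G] [Fintype G] {Ω : Type*} [Fintype Ω] [MulAction G Ω]
  [IsPretransitive G Ω]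

theorem classInner_orbFun_one (a b : Ω) :
    classInner (orbFun G a b) (fun _ => (1 : ℂ)) = (Nat.card (orbit (stabilizer G a) b) : ℂ) := by
  rw [classInner_orbFun a b (fun _ _ => rfl)]
  simp only [map_one, Finset.sum_boole]
  have hk : ∀ o : orbit (stabilizer G a) b, ∃ k : G, k • a = (o : Ω) := fun o => exists_smul_eq G a _
  choose k hk using hk
  have e : {g : G // g • a ∈ orbit (stabilizer G a) b} ≃ orbit (stabilizer G a) b × stabilizer G a :=
    { toFun := fun g => (⟨g.1 • a, g.2⟩, ⟨(k ⟨g.1 • a, g.2⟩)⁻¹ * g.1, by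
        rw [mem_stabilizer_iff, mul_smul, inv_smul_eq_iff]
        exact (hk ⟨g.1 • a, g.2⟩).symm⟩)
      invFun := fun p => ⟨k p.1 * p.2, by
        rw [mul_smul, mem_stabilizer_iff.mp p.2.2, hk]
        exact p.1.2⟩
      left_inv := fun g => Subtype.ext (mul_inv_cancel_left _ _)
      right_inv := fun p => by
        obtain ⟨o, h, hh⟩ := p
        have : (k o * h) • a = (o : Ω) := by rw [mul_smul, mem_stabilizer_iff.mp hh, hk]
        refine Prod.ext (Subtype.ext this) (Subtype.ext ?_)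
        simp only [this, Subtype.coe_eta, inv_mul_cancel_left] }
  rw [← Fintype.card_subtype, ← Nat.card_eq_fintype_card, Nat.card_congr e, Nat.card_prod,
    Nat.cast_mul, mul_comm ((Nat.card (orbit (stabilizer G a) b) : ℂ)), ← mul_assoc,
    inv_mul_cancel₀ (Nat.cast_ne_zero.mpr Nat.card_pos.ne'), one_mul]

/-- The multiplicity data of the permutation character. -/
theorem exists_mult (a : Ω) : ∃ m : IrrCharacter G → ℕ,
    (∀ χ : IrrCharacter G, classInner (permChar G Ω) (χ : G → ℂ) = m χ) ∧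
    m ⟨fun _ => 1, Cfsg.Lib.Characters.isIrrCharacter_one⟩ = 1 ∧
    (∑ χ : IrrCharacter G, (m χ : ℂ) * (χ : G → ℂ) 1) = Fintype.card Ω ∧
    ∑ χ : IrrCharacter G, m χ * m χ = Nat.card (orbitRel.Quotient (stabilizer G a) Ω) := by
  have hπ : IsCharacter G (permChar G Ω) := isCharacter_permChar
  have hπc := Cfsg.Lib.Characters.isClassFunction_of_isCharacter hπ
  choose m hm using fun χ : IrrCharacter G => Cfsg.Lib.Characters.classInner_nat hπ χ.2.isCharacter
  refine ⟨m, hm, ?_, ?_, ?_⟩
  · have h1 := hm ⟨fun _ => 1, Cfsg.Lib.Characters.isIrrCharacter_one⟩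
    rw [show classInner (permChar G Ω) (fun _ => (1 : ℂ)) = 1 from classInner_permChar_one a] at h1
    exact_mod_cast h1.symm
  · have h := congrFun (Cfsg.Lib.Characters.classFunction_expansion hπc) 1
    simp only [Finset.sum_apply, Pi.smul_apply, smul_eq_mul, hm] at h
    rw [← h, permChar, Nat.cast_inj, ← Nat.card_eq_fintype_card]
    exact Nat.card_congr (Equiv.subtypeUnivEquiv fun x => by simp)
  · have h := Cfsg.Lib.Characters.classInner_eq_sum (f' := permChar G Ω) hπc
    rw [classInner_permChar_self a] at h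
    have h2 : ((∑ χ : IrrCharacter G, m χ * m χ : ℕ) : ℂ) =
        (Nat.card (orbitRel.Quotient (stabilizer G a) Ω) : ℂ) := by
      rw [h, Nat.cast_sum]
      refine Finset.sum_congr rfl fun χ _ => ?_
      rw [Nat.cast_mul, hm, ← Cfsg.Lib.Characters.conj_classInner (permChar G Ω) (χ : G → ℂ), hm,
        map_natCast]
    exact_mod_cast h2

theorem equal_degrees (a : Ω) (f : ℕ)
    (hf : ∀ χ : G → ℂ, Cfsg.IsIrrCharacter G χ → χ ≠ (fun _ => 1) →
      classInner (permChar G Ω) χ ≠ 0 → χ 1 = f) :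
    (∀ χ : G → ℂ, Cfsg.IsIrrCharacter G χ →
      classInner (permChar G Ω) χ = 0 ∨ classInner (permChar G Ω) χ = 1) ∧
    ∀ b : Ω, b ≠ a → Nat.card (orbit (stabilizer G a) b) = f := by
  obtain ⟨m, hm, hm1, hn, hrank⟩ := exists_mult (G := G) a
  set one : IrrCharacter G := ⟨fun _ => 1, Cfsg.Lib.Characters.isIrrCharacter_one⟩ with hone
  have hdeg : ∀ χ : IrrCharacter G, χ ≠ one → m χ ≠ 0 → (χ : G → ℂ) 1 = f := by
    intro χ hne hm0
    exact hf χ χ.2 (fun e => hne (Subtype.ext e)) (by rw [hm]; exact_mod_cast hm0)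
  set rest := (Finset.univ : Finset (IrrCharacter G)).erase one with hrest
  have hsplit : ∀ F : IrrCharacter G → ℂ, ∑ χ, F χ = F one + ∑ χ ∈ rest, F χ := fun F =>
    (Finset.add_sum_erase _ F (Finset.mem_univ one)).symm
  have hn' : Fintype.card Ω = 1 + f * ∑ χ ∈ rest, m χ := by
    rw [hsplit, hm1] at hn
    have : ∀ χ ∈ rest, (m χ : ℂ) * (χ : G → ℂ) 1 = (f : ℂ) * (m χ : ℂ) := by
      intro χ hχ
      rcases eq_or_ne (m χ) 0 with h | h
      · simp [h]
      · rw [hdeg χ (Finset.ne_of_mem_erase hχ) h, mul_comm]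
    rw [Finset.sum_congr rfl this, ← Finset.mul_sum] at hn
    have h1 : ((one : IrrCharacter G) : G → ℂ) 1 = 1 := rfl
    rw [h1] at hn
    simp only [Nat.cast_one, mul_one] at hn
    exact_mod_cast hn.symm
  have hrk : Nat.card (orbitRel.Quotient (stabilizer G a) Ω) = 1 + ∑ χ ∈ rest, m χ * m χ := by
    rw [← hrank, ← Finset.add_sum_erase _ _ (Finset.mem_univ one), hm1, one_mul]
  -- every subdegree is divisible by `f`
  have hdvd : ∀ b : Ω, b ≠ a → f ∣ Nat.card (orbit (stabilizer G a) b) ∧ 0 < f := by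
    intro b hb
    have hc := isClassFunction_orbFun (G := G) a b
    have h1 := congrFun (Cfsg.Lib.Characters.classFunction_expansion hc) 1
    simp only [Finset.sum_apply, Pi.smul_apply, smul_eq_mul] at h1
    rw [hsplit] at h1
    have hc1 : orbFun G a b 1 = 0 := by
      rw [orbFun, Nat.cast_eq_zero, Nat.card_eq_zero]
      left
      refine ⟨fun ⟨x, k, h1, h2⟩ => hb ?_⟩
      rw [one_smul, ← h1] at h2
      exact MulAction.injective k h2
    have hcoef : ∀ χ : IrrCharacter G, IsIntegral ℤ (classInner (orbFun G a b) (χ : G → ℂ)) ∧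
        (m χ = 0 → classInner (orbFun G a b) (χ : G → ℂ) = 0) := by
      rintro ⟨_, n, ρ, hρ, rfl⟩
      obtain ⟨hi, hz⟩ := coeff_orbFun ρ a b
      exact ⟨hi, fun h => hz (by rw [hm ⟨ρ.character, n, ρ, hρ, rfl⟩, h, Nat.cast_zero])⟩
    rw [hc1, show ((one : IrrCharacter G) : G → ℂ) 1 = 1 from rfl,
      show ((one : IrrCharacter G) : G → ℂ) = (fun _ => 1) from rfl, classInner_orbFun_one, mul_one,
      show ∑ χ ∈ rest, classInner (orbFun G a b) (χ : G → ℂ) * (χ : G → ℂ) 1 =
        (f : ℂ) * ∑ χ ∈ rest, classInner (orbFun G a b) (χ : G → ℂ) by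
        rw [Finset.mul_sum]
        refine Finset.sum_congr rfl fun χ hχ => ?_
        rcases eq_or_ne (m χ) 0 with h | h
        · simp [(hcoef χ).2 h]
        · rw [hdeg χ (Finset.ne_of_mem_erase hχ) h, mul_comm]] at h1
    set A := ∑ χ ∈ rest, classInner (orbFun G a b) (χ : G → ℂ) with hA
    have hAint : IsIntegral ℤ A := IsIntegral.sum _ fun χ _ => (hcoef χ).1
    set N := Nat.card (orbit (stabilizer G a) b) with hN
    have hNpos : 0 < N := by
      haveI : Nonempty (orbit (stabilizer G a) b) := ⟨⟨b, mem_orbit_self b⟩⟩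
      exact Nat.card_pos
    have hfpos : 0 < f := by
      by_contra h0
      push Not at h0
      obtain rfl : f = 0 := by omega
      have h2 : (N : ℂ) = 0 := by simpa using h1.symm
      exact hNpos.ne' (by exact_mod_cast h2)
    refine ⟨?_, hfpos⟩
    have hAeq : A = algebraMap ℚ ℂ (-(N : ℚ) / f) := by
      have h2 : (f : ℂ) * A = -(N : ℂ) := eq_neg_of_add_eq_zero_right h1.symm
      have hf0 : (f : ℂ) ≠ 0 := Nat.cast_ne_zero.mpr hfpos.ne'
      rw [map_div₀, map_neg, map_natCast, map_natCast, eq_div_iff hf0, mul_comm]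
      exact h2
    rw [hAeq, isIntegral_algebraMap_iff (algebraMap ℚ ℂ).injective] at hAint
    obtain ⟨z, hz⟩ := IsIntegrallyClosed.isIntegral_iff.mp hAint
    rw [eq_intCast, eq_div_iff (Nat.cast_ne_zero.mpr hfpos.ne')] at hz
    have hz' : (N : ℤ) = -z * f := by
      have : ((N : ℤ) : ℚ) = ((-z * f : ℤ) : ℚ) := by push_cast; linarith
      exact_mod_cast this
    exact Int.natCast_dvd_natCast.mp ⟨-z, by rw [hz', mul_comm]⟩
  -- count the points through the orbits
  let Q := orbitRel.Quotient (stabilizer G a) Ω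
  let q0 : Q := Quotient.mk'' a
  have hsize : Fintype.card Ω = 1 + ∑ q ∈ (univ : Finset Q).erase q0, Nat.card (orbitRel.Quotient.orbit q) := by
    rw [← Nat.card_eq_fintype_card, Nat.card_congr (MulAction.selfEquivSigmaOrbits' (stabilizer G a) Ω),
      Nat.card_sigma, ← Finset.add_sum_erase _ _ (Finset.mem_univ q0)]
    congr 1
    rw [orbitRel.Quotient.orbit_mk, Nat.card_eq_one_iff_unique]
    refine ⟨⟨?_⟩, ⟨⟨a, mem_orbit_self a⟩⟩⟩
    rintro ⟨_, h, rfl⟩ ⟨_, h', rfl⟩
    exact Subtype.ext (h.2.trans h'.2.symm)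
  have horb : ∀ q ∈ (univ : Finset Q).erase q0, ∃ b, b ≠ a ∧ orbitRel.Quotient.orbit q = orbit (stabilizer G a) b := by
    intro q hq
    obtain ⟨b, rfl⟩ := Quotient.mk''_surjective q
    refine ⟨b, fun e => Finset.ne_of_mem_erase hq (by rw [e]), orbitRel.Quotient.orbit_mk b⟩
  set s := (univ : Finset Q).erase q0 with hs
  have hscard : s.card = ∑ χ ∈ rest, m χ * m χ := by
    rw [hs, Finset.card_erase_of_mem (Finset.mem_univ _), Finset.card_univ,
      ← Nat.card_eq_fintype_card]
    show Nat.card (orbitRel.Quotient (stabilizer G a) Ω) - 1 = _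
    omega
  have hle : ∀ q ∈ s, f ≤ Nat.card (orbitRel.Quotient.orbit q) := by
    intro q hq
    obtain ⟨b, hb, e⟩ := horb q hq
    rw [e]
    haveI : Nonempty (orbit (stabilizer G a) b) := ⟨⟨b, mem_orbit_self b⟩⟩
    exact Nat.le_of_dvd Nat.card_pos (hdvd b hb).1
  have hsum : ∑ q ∈ s, Nat.card (orbitRel.Quotient.orbit q) = f * ∑ χ ∈ rest, m χ := by omega
  have hlow : s.card * f ≤ f * ∑ χ ∈ rest, m χ := by
    rw [← hsum, ← smul_eq_mul]
    exact Finset.card_nsmul_le_sum _ _ _ hle
  refine ⟨fun χ hχ => ?_, fun b hb => ?_⟩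
  · rcases eq_or_ne χ (fun _ => 1) with rfl | hne
    · exact Or.inr (classInner_permChar_one a)
    · rw [hm ⟨χ, hχ⟩]
      have hmem : (⟨χ, hχ⟩ : IrrCharacter G) ∈ rest :=
        Finset.mem_erase.mpr ⟨fun e => hne (congrArg Subtype.val e), Finset.mem_univ _⟩
      by_cases hs0 : s = ∅
      · left
        rw [hs0, Finset.card_empty] at hscard
        have := (Finset.sum_eq_zero_iff.mp hscard.symm) _ hmem
        rw [Nat.mul_eq_zero, or_self] at this
        rw [this, Nat.cast_zero]
      · obtain ⟨q, hq⟩ := Finset.nonempty_iff_ne_empty.mpr hs0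
        obtain ⟨b, hb, -⟩ := horb q hq
        have hfpos := (hdvd b hb).2
        have h2 : ∑ χ ∈ rest, m χ * m χ ≤ ∑ χ ∈ rest, m χ :=
          Nat.le_of_mul_le_mul_left (by rw [← hscard, mul_comm]; exact hlow) hfpos
        have h3 : m ⟨χ, hχ⟩ ≤ 1 := by
          by_contra h4
          push Not at h4
          have h5 : ∑ χ ∈ rest, m χ < ∑ χ ∈ rest, m χ * m χ :=
            Finset.sum_lt_sum (fun x _ => Nat.le_mul_self _) ⟨_, hmem, by nlinarith⟩
          omega
        rcases Nat.le_one_iff_eq_zero_or_eq_one.mp h3 with h | h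
        · left; rw [h, Nat.cast_zero]
        · right; rw [h, Nat.cast_one]
  · have hqb : (Quotient.mk'' b : Q) ∈ s := by
      refine Finset.mem_erase.mpr ⟨fun e => hb ?_, Finset.mem_univ _⟩
      obtain ⟨h, hh⟩ : b ∈ orbit (stabilizer G a) a := orbitRel_apply.mp (Quotient.eq''.mp e)
      exact hh.symm.trans h.2
    have h6 : ∑ χ ∈ rest, m χ ≤ s.card := hscard ▸ Finset.sum_le_sum fun x _ => Nat.le_mul_self _
    have h7 : ∑ q ∈ s, Nat.card (orbitRel.Quotient.orbit q) ≤ s.card * f := by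
      rw [hsum, mul_comm f]
      exact Nat.mul_le_mul_right f h6
    have h8 : ∀ q ∈ s, f = Nat.card (orbitRel.Quotient.orbit q) :=
      (Finset.sum_eq_sum_iff_of_le hle).mp (le_antisymm (Finset.sum_le_sum hle)
        (h7.trans (le_of_eq (by rw [Finset.sum_const, smul_eq_mul]))))
    have h9 := h8 _ hqb
    rw [orbitRel.Quotient.orbit_mk] at h9
    exact h9.symm

theorem rank_five (a : Ω) (h5 : Nat.card (orbitRel.Quotient (stabilizer G a) Ω) ≤ 5) :
    ∀ χ : G → ℂ, Cfsg.IsIrrCharacter G χ →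
      classInner (permChar G Ω) χ = 0 ∨ classInner (permChar G Ω) χ = 1 := by
  intro χ hχ
  obtain ⟨m, hm, hm1, hn, hrank⟩ := exists_mult (G := G) a
  set one : IrrCharacter G := ⟨fun _ => 1, Cfsg.Lib.Characters.isIrrCharacter_one⟩ with hone
  set x : IrrCharacter G := ⟨χ, hχ⟩ with hx
  rw [show classInner (permChar G Ω) χ = m x from hm x]
  by_contra hc
  push Not at hc
  have h2 : 2 ≤ m x := by
    rcases Nat.lt_or_ge (m x) 2 with h | h
    · rcases Nat.le_one_iff_eq_zero_or_eq_one.mp (by omega : m x ≤ 1) with h' | h'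
      · exact absurd (by rw [h', Nat.cast_zero]) hc.1
      · exact absurd (by rw [h', Nat.cast_one]) hc.2
    · exact h
  have hxne : x ≠ one := fun e => by rw [e, hm1] at h2; omega
  have honly : ∀ ψ : IrrCharacter G, ψ ≠ one → ψ ≠ x → m ψ = 0 := by
    intro ψ h1 hψx
    by_contra h0
    have : m one * m one + (m x * m x + m ψ * m ψ) ≤ ∑ χ : IrrCharacter G, m χ * m χ := by
      have hsub := Finset.sum_le_sum_of_subset (f := fun χ : IrrCharacter G => m χ * m χ)
        (Finset.subset_univ ({one, x, ψ} : Finset (IrrCharacter G)))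
      rwa [Finset.sum_insert (by simp [hxne.symm, h1.symm]), Finset.sum_insert (by simp [hψx.symm]),
        Finset.sum_singleton] at hsub
    rw [hm1] at this
    have h4 : 4 ≤ m x * m x := Nat.mul_le_mul h2 h2
    have h1' : 1 ≤ m ψ * m ψ := Nat.one_le_iff_ne_zero.mpr (Nat.mul_ne_zero h0 h0)
    omega
  obtain ⟨f, hfdeg⟩ := Cfsg.Lib.Characters.exists_degree hχ.isCharacter
  have hf : ∀ ψ : G → ℂ, Cfsg.IsIrrCharacter G ψ → ψ ≠ (fun _ => 1) →
      classInner (permChar G Ω) ψ ≠ 0 → ψ 1 = f := by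
    intro ψ hψ hne hψ0
    by_cases hψx : (⟨ψ, hψ⟩ : IrrCharacter G) = x
    · rw [show ψ = χ from congrArg Subtype.val hψx, hfdeg]
    · exact absurd (by rw [hm ⟨ψ, hψ⟩, honly _ (fun e => hne (congrArg Subtype.val e)) hψx,
        Nat.cast_zero]) hψ0
  rcases (equal_degrees a f hf).1 χ hχ with h | h <;> rw [show classInner (permChar G Ω) χ = m x from hm x] at h
  · exact hc.1 h
  · exact hc.2 h

end Cfsg.Agent.PermCharacter
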