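import Mathlib

namespace Cfsg.Agent.GenerousOrbits

open Equiv MulAction

set_option linter.unusedSectionVars false

variable {α : Type*} [Fintype α] [DecidableEq α] (G : Subgroup (Equiv.Perm α))

theorem realize {m : ℕ}
    (hgen : ∀ s : Finset α, s.card = m → ∀ σ : Equiv.Perm ↥s, ∃ g ∈ G, ∀ x : ↥s, g (x : α) = σ x)
    (s : Finset α) (hs : s.card = m) (π : Perm α) (hπ : ∀ x, π x ∈ s ↔ x ∈ s) :
    ∃ g : G, ∀ x ∈ s, (g : Perm α) x = π x := by
  obtain ⟨g, hg, h⟩ := hgen s hs (π.subtypePerm hπ)
  exact ⟨⟨g, hg⟩, fun x hx => h ⟨x, hx⟩⟩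

theorem transitive_sets {k : ℕ}
    (hgen : ∀ s : Finset α, s.card = k + 1 → ∀ σ : Equiv.Perm ↥s, ∃ g ∈ G, ∀ x : ↥s, g (x : α) = σ x)
    (B : Finset α) (hB : B.card = k) :
    ∀ n, ∀ A : Finset α, A.card = k → (B \ A).card = n →
      ∃ g : G, A.image (g : Perm α) = B := by
  intro n
  induction n with
  | zero =>
    intro A hA h
    have hsub : B ⊆ A := Finset.sdiff_eq_empty_iff_subset.mp (Finset.card_eq_zero.mp h)
    exact ⟨1, by simp [Finset.eq_of_subset_of_card_le hsub (by omega)]⟩
  | succ n ih =>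
    intro A hA h
    obtain ⟨a, ha⟩ := Finset.card_pos.mp (show 0 < (B \ A).card by omega)
    rw [Finset.mem_sdiff] at ha
    obtain ⟨b, hb⟩ : (A \ B).Nonempty := by
      rw [← Finset.card_pos, Finset.card_sdiff_comm (by omega : A.card = B.card)]
      omega
    rw [Finset.mem_sdiff] at hb
    obtain ⟨g, hg⟩ := realize G hgen (insert a A) (by simp [ha.2, hA]) (Equiv.swap a b)
      (fun x => by
        rcases eq_or_ne x a with rfl | hxa
        · simp [hb.1]
        rcases eq_or_ne x b with rfl | hxb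
        · simp [hb.1]
        rw [Equiv.swap_apply_of_ne_of_ne hxa hxb])
    have himg : A.image (g : Perm α) = insert a (A.erase b) := by
      rw [Finset.image_congr (g := Equiv.swap a b) (fun x hx => hg x (Finset.mem_insert_of_mem hx))]
      ext x
      simp only [Finset.mem_image, Finset.mem_insert, Finset.mem_erase]
      constructor
      · rintro ⟨y, hy, rfl⟩
        rcases eq_or_ne y b with rfl | hyb
        · simp
        · rw [Equiv.swap_apply_of_ne_of_ne (fun (e : y = a) => ha.2 (e ▸ hy)) hyb]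
          exact Or.inr ⟨hyb, hy⟩
      · rintro (rfl | ⟨hxb, hx⟩)
        · exact ⟨b, hb.1, by simp⟩
        · exact ⟨x, hx, Equiv.swap_apply_of_ne_of_ne (fun e => ha.2 (e ▸ hx)) hxb⟩
    have hc : (insert a (A.erase b)).card = k := by
      rw [Finset.card_insert_of_notMem (by simp [ha.2]), Finset.card_erase_of_mem hb.1]
      have := Finset.card_pos.mpr ⟨b, hb.1⟩
      omega
    have hd : B \ insert a (A.erase b) = (B \ A).erase a := by
      ext x
      simp only [Finset.mem_sdiff, Finset.mem_insert, Finset.mem_erase]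
      constructor
      · intro hx
        refine ⟨fun e => hx.2 (Or.inl e), hx.1, fun hxA => hx.2 (Or.inr ⟨?_, hxA⟩)⟩
        rintro rfl
        exact hb.2 hx.1
      · intro hx
        exact ⟨hx.2.1, fun e => e.elim hx.1 (fun e => hx.2.2 e.2)⟩
    obtain ⟨g', hg'⟩ := ih _ hc (by
      rw [hd, Finset.card_erase_of_mem (Finset.mem_sdiff.mpr ha)]; omega)
    refine ⟨g' * g, ?_⟩
    rw [← hg', ← himg, Finset.image_image]
    simp only [Subgroup.coe_mul, Perm.coe_mul]

theorem card_fixing_eq {k : ℕ}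
    (hgen : ∀ s : Finset α, s.card = k + 1 → ∀ σ : Equiv.Perm ↥s, ∃ g ∈ G, ∀ x : ↥s, g (x : α) = σ x)
    (A B : Finset α) (hA : A.card = k) (hB : B.card = k) :
    Nat.card (fixingSubgroup G (A : Set α)) = Nat.card (fixingSubgroup G (B : Set α)) := by
  obtain ⟨g, hg⟩ := transitive_sets G hgen B hB _ A hA rfl
  have : (fixingSubgroup G (A : Set α)).map (MulAut.conj g).toMonoidHom
      = fixingSubgroup G (B : Set α) := by
    ext h
    rw [Subgroup.mem_map_equiv, mem_fixingSubgroup_iff, mem_fixingSubgroup_iff, ← hg]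
    simp only [Finset.mem_coe, Finset.forall_mem_image, MulAut.conj_symm_apply, mul_smul,
      inv_smul_eq_iff]
    rfl
  rw [← this, Subgroup.card_map_of_injective (MulAut.conj g).injective]

theorem exists_dvd_orbit {k : ℕ}
    (hgen : ∀ s : Finset α, s.card = k + 1 → ∀ σ : Equiv.Perm ↥s, ∃ g ∈ G, ∀ x : ↥s, g (x : α) = σ x)
    {p : ℕ} (hp : p.Prime) (hpk : p ≤ k) (Γ : Finset α) (hΓ : Γ.card = k) (f : Fin p → α)
    (hf : ∀ i, f i ∉ Γ)
    (hdist : ∀ i j, i ≠ j → f j ∉ MulAction.orbit (fixingSubgroup G (Γ : Set α)) (f i)) :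
    ∃ i, p ∣ Nat.card (MulAction.orbit (fixingSubgroup G (Γ : Set α)) (f i)) := by
  have := Fact.mk hp
  by_contra hno
  push Not at hno
  set K := fixingSubgroup G (Γ : Set α) with hK
  obtain ⟨C, hC, hCp⟩ := Finset.exists_subset_card_eq (show p ≤ Γ.card by omega)
  let L : Subgroup G :=
    { carrier := {g | (∀ x ∈ Γ \ C, g • x = x) ∧ (∀ x, g • x ∈ Γ ↔ x ∈ Γ)}
      one_mem' := by simp
      mul_mem' := by
        intro a b ha hb
        refine ⟨fun x hx => by rw [mul_smul, hb.1 x hx, ha.1 x hx], fun x => ?_⟩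
        rw [mul_smul, ha.2, hb.2]
      inv_mem' := by
        intro a ha
        refine ⟨fun x hx => by rw [inv_smul_eq_iff, ha.1 x hx], fun x => ?_⟩
        rw [← ha.2 (a⁻¹ • x), smul_inv_smul] }
  have hKL : K ≤ L := by
    intro g hg
    rw [hK, mem_fixingSubgroup_iff] at hg
    refine ⟨fun x hx => hg x (Finset.mem_sdiff.mp hx).1, fun x => ⟨fun h => ?_, fun h => ?_⟩⟩
    · have := hg _ h
      rwa [smul_left_cancel_iff g |>.mp this] at h
    · rwa [hg x h]
  have hnorm : (K.subgroupOf L).Normal := by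
    refine ⟨fun n hn l => ?_⟩
    rw [Subgroup.mem_subgroupOf, hK, mem_fixingSubgroup_iff] at hn ⊢
    intro x hx
    simp only [Subgroup.coe_mul, Subgroup.coe_inv, mul_smul]
    rw [hn _ (by
      rw [Finset.mem_coe, ← l.2.2 ((l : G)⁻¹ • x), smul_inv_smul]
      exact hx), smul_inv_smul]
  -- an element of order `p` modulo `K`
  have hp2 := hp.two_le
  have hnd : C.toList.Nodup := C.nodup_toList
  have hcy : C.toList.formPerm.IsCycle :=
    List.isCycle_formPerm hnd (by rw [Finset.length_toList]; omega)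
  set c : Perm α := C.toList.formPerm with hc
  have hsupp : c.support = C := by
    rw [hc, List.support_formPerm_of_nodup _ hnd, Finset.toList_toFinset]
    intro x hx
    have := congrArg List.length hx
    rw [Finset.length_toList, List.length_singleton] at this
    omega
  have hord : orderOf c = p := by rw [hcy.orderOf, hsupp, hCp]
  have hcC : ∀ x, c x ∈ Γ ↔ x ∈ Γ := fun x => by
    by_cases hx : x ∈ C
    · have : c x ∈ C := by rw [← hsupp] at hx ⊢; exact Perm.apply_mem_support.mpr hx
      simp [hC hx, hC this]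
    · rw [← hsupp, Perm.notMem_support] at hx
      rw [hx]
  obtain ⟨z, hz⟩ : ∃ z, z ∉ Γ := ⟨f ⟨0, hp.pos⟩, hf _⟩
  obtain ⟨g, hg⟩ := realize G hgen (insert z Γ) (by simp [hz, hΓ]) c (fun x => by
    have hcz : c z = z := Perm.notMem_support.mp (fun h => hz (hC (hsupp ▸ h)))
    simp only [Finset.mem_insert, hcC]
    constructor <;> rintro (h | h) <;> try exact Or.inr h
    · exact Or.inl (c.injective (h.trans hcz.symm))
    · exact Or.inl (h ▸ hcz))
  have hgΓ : ∀ x ∈ Γ, g • x = c x := fun x hx => hg x (Finset.mem_insert_of_mem hx)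
  have hgL : g ∈ L := by
    refine ⟨fun x hx => ?_, fun x => ?_⟩
    · rw [Finset.mem_sdiff] at hx
      rw [hgΓ x hx.1]
      exact Perm.notMem_support.mp (hsupp ▸ hx.2)
    · have himg : Γ.image (g • ·) = Γ := Finset.eq_of_subset_of_card_le
        (fun y hy => by
          obtain ⟨x, hx, rfl⟩ := Finset.mem_image.mp hy
          show g • x ∈ Γ
          rw [hgΓ x hx, hcC]
          exact hx)
        (by rw [Finset.card_image_of_injective _ (MulAction.injective g)])
      constructor
      · intro h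
        rw [← himg] at h
        obtain ⟨y, hy, hyx⟩ := Finset.mem_image.mp h
        exact (MulAction.injective g hyx) ▸ hy
      · intro h
        rw [hgΓ x h, hcC]
        exact h
  have hpow : ∀ n : ℕ, ∀ x ∈ Γ, (g ^ n) • x = (c ^ n) x := by
    intro n
    induction n with
    | zero => simp
    | succ n ih =>
      intro x hx
      rw [pow_succ, pow_succ, mul_smul, Perm.mul_apply, hgΓ x hx, ih _ ((hcC x).mpr hx)]
  have hidx : p ∣ K.relIndex L := by
    have := hnorm
    have ho : orderOf (QuotientGroup.mk (s := K.subgroupOf L) ⟨g, hgL⟩) = p := by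
      apply orderOf_eq_prime
      · rw [← QuotientGroup.mk_pow, QuotientGroup.eq_one_iff, Subgroup.mem_subgroupOf,
          Subgroup.coe_pow, hK, mem_fixingSubgroup_iff]
        intro x hx
        rw [hpow p x hx, ← hord, pow_orderOf_eq_one, Perm.one_apply]
      · rw [Ne, QuotientGroup.eq_one_iff, Subgroup.mem_subgroupOf, hK, mem_fixingSubgroup_iff]
        intro h
        obtain ⟨x, hx⟩ := Finset.card_pos.mp (show 0 < C.card by omega)
        have h1 := h x (hC hx)
        rw [hgΓ x (hC hx)] at h1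
        exact Perm.mem_support.mp (hsupp.symm ▸ hx) h1
    rw [Subgroup.relIndex, Subgroup.index, ← ho]
    exact orderOf_dvd_natCard _
  have hcardL : p ^ ((Nat.card K).factorization p + 1) ∣ Nat.card L := by
    rw [← Subgroup.index_mul_card (K.subgroupOf L),
      Nat.card_congr (Subgroup.subgroupOfEquivOfLe hKL).toEquiv, pow_succ, mul_comm]
    exact mul_dvd_mul hidx (Nat.ordProj_dvd _ _)
  obtain ⟨Q, hQ⟩ := Sylow.exists_subgroup_card_pow_prime p hcardL
  have hQp : IsPGroup p Q := IsPGroup.of_card hQ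
  -- `L` preserves each orbit of `K`
  have hinv : ∀ l ∈ L, ∀ i, ∀ y ∈ MulAction.orbit K (f i), l • y ∈ MulAction.orbit K (f i) := by
    intro l hl i y hy
    have hyΓ : y ∉ Γ := by
      obtain ⟨m, rfl⟩ := hy
      intro h
      exact hf i (((hKL m.2).2 (f i)).mp h)
    let π : Perm α := Equiv.Perm.ofSubtype ((l : Perm α).subtypePerm (p := (· ∈ Γ)) hl.2)
    have hπ1 : ∀ x ∈ Γ, π x = l • x := fun x hx => by
      simp only [π]
      rw [Equiv.Perm.ofSubtype_apply_of_mem _ hx]
      rfl
    have hπ2 : π y = y := Equiv.Perm.ofSubtype_apply_of_not_mem _ hyΓ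
    obtain ⟨h, hh⟩ := realize G hgen (insert y Γ) (by simp [hyΓ, hΓ]) π (fun x => by
      by_cases hx : x ∈ Γ
      · simp [hπ1 x hx, hx, hl.2 x]
      · have : π x = x := Equiv.Perm.ofSubtype_apply_of_not_mem _ hx
        rw [this])
    have hk' : l * h⁻¹ ∈ K := by
      rw [hK, mem_fixingSubgroup_iff]
      intro x hx
      have hx' : l⁻¹ • x ∈ Γ := by
        rw [← hl.2, smul_inv_smul]
        exact hx
      have he : h • (l⁻¹ • x) = x := by
        show (h : Perm α) (l⁻¹ • x) = x
        rw [hh _ (Finset.mem_insert_of_mem hx'), hπ1 _ hx', smul_inv_smul]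
      calc (l * h⁻¹) • x = (l * h⁻¹) • (h • (l⁻¹ • x)) := by rw [he]
        _ = x := by simp [mul_smul]
    have hy2 : h • y = y := by
      show (h : Perm α) y = y
      rw [hh y (Finset.mem_insert_self _ _), hπ2]
    obtain ⟨m, rfl⟩ := hy
    refine ⟨⟨l * h⁻¹, hk'⟩ * m, ?_⟩
    show (⟨l * h⁻¹, hk'⟩ * m : K) • f i = _
    rw [mul_smul]
    show (l * h⁻¹) • (m • f i) = _
    rw [mul_smul]
    congr 1
    rw [inv_smul_eq_iff]
    exact hy2.symm
  have hfix : ∀ i, ∃ y ∈ MulAction.orbit K (f i), ∀ q : Q, ((q : L) : G) • y = y := by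
    intro i
    letI : MulAction Q (MulAction.orbit K (f i)) :=
      { smul := fun q y => ⟨((q : L) : G) • (y : α), hinv _ (q : L).2 i y y.2⟩
        one_smul := fun y => Subtype.ext (one_smul G (y : α))
        mul_smul := fun a b y => Subtype.ext (mul_smul ((a : L) : G) ((b : L) : G) (y : α)) }
    obtain ⟨y, hy⟩ := hQp.nonempty_fixed_point_of_prime_not_dvd_card
      (MulAction.orbit K (f i)) (hno i)
    exact ⟨y, y.2, fun q => congrArg Subtype.val (hy q)⟩
  choose y hyo hyf using hfix
  have hyinj : Function.Injective y := by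
    intro i j h
    by_contra hij
    apply hdist i j hij
    rw [← MulAction.orbit_eq_iff.mpr (hyo i), h, MulAction.orbit_eq_iff.mpr (hyo j)]
    exact MulAction.mem_orbit_self _
  have hyΓ : ∀ i, y i ∉ Γ := by
    intro i h
    obtain ⟨m, hm⟩ := hyo i
    rw [← hm] at h
    exact hf i (((hKL m.2).2 (f i)).mp h)
  set A : Finset α := (Γ \ C) ∪ Finset.univ.image y with hA
  have hAcard : A.card = k := by
    rw [hA, Finset.card_union_of_disjoint, Finset.card_sdiff_of_subset hC,
      Finset.card_image_of_injective _ hyinj, Finset.card_univ, Fintype.card_fin]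
    · omega
    · rw [Finset.disjoint_left]
      intro x hx hx'
      obtain ⟨i, -, rfl⟩ := Finset.mem_image.mp hx'
      exact hyΓ i (Finset.mem_sdiff.mp hx).1
  have hQA : Q.map L.subtype ≤ fixingSubgroup G (A : Set α) := by
    rintro _ ⟨q, hq, rfl⟩
    rw [mem_fixingSubgroup_iff]
    intro x hx
    rw [Finset.mem_coe, hA, Finset.mem_union, Finset.mem_image] at hx
    rcases hx with hx | ⟨i, -, rfl⟩
    · exact q.2.1 x hx
    · exact hyf i ⟨q, hq⟩
  have := Subgroup.card_dvd_of_le hQA
  rw [Subgroup.card_map_of_injective L.subtype_injective, hQ,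
    card_fixing_eq G hgen A Γ hAcard hΓ] at this
  exact Nat.pow_succ_factorization_not_dvd Nat.card_pos.ne' hp this

end Cfsg.Agent.GenerousOrbits
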