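import Mathlib
import Cfsg.Prelude.Def_Perm

/-! Prime power degree: no trivial factor in the heart forces double transitivity. -/

set_option linter.unusedSectionVars false

namespace Cfsg.Agent.HeartTrivial

open MulAction Finset

variable {G : Type*} [Group G] [Finite G] {Ω : Type*} [Fintype Ω] [MulAction G Ω]
  {K : Type*} [Field K] {p : ℕ} [Fact p.Prime] [CharP K p]

theorem sylow_transitive [IsPretransitive G Ω] {f : ℕ} (hcard : Fintype.card Ω = p ^ f)
    (P : Sylow p G) (x y : Ω) : ∃ g ∈ (P : Subgroup G), g • x = y := by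
  have hp : p.Prime := Fact.out
  let Px : Subgroup G := (P : Subgroup G) ⊓ stabilizer G x
  have h1 : Nat.card G = Fintype.card Ω * Nat.card (stabilizer G x) := by
    rw [← Nat.card_eq_fintype_card, ← MulAction.index_stabilizer_of_transitive G x,
      Subgroup.index_mul_card]
  have h2 : Nat.card (P : Subgroup G) =
      Nat.card (MulAction.orbit (P : Subgroup G) x) * Nat.card (stabilizer (P : Subgroup G) x) := by
    rw [← Nat.card_prod]
    exact Nat.card_congr (MulAction.orbitProdStabilizerEquivGroup (P : Subgroup G) x).symm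
  obtain ⟨m, hm⟩ := IsPGroup.iff_card.mp (P.isPGroup'.to_subgroup (stabilizer (P : Subgroup G) x))
  have h3 : p ^ m ∣ Nat.card (stabilizer G x) := by
    rw [← hm]
    have hle : (stabilizer (P : Subgroup G) x).map (P : Subgroup G).subtype ≤ stabilizer G x := by
      rintro _ ⟨q, hq, rfl⟩
      exact hq
    have := Subgroup.card_dvd_of_le hle
    rwa [Subgroup.card_map_of_injective (P : Subgroup G).subtype_injective] at this
  have h4 : Fintype.card Ω ≤ Nat.card (MulAction.orbit (P : Subgroup G) x) := by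
    have hdvd : p ^ (f + m) ∣ Nat.card G := by
      rw [h1, hcard, pow_add]
      exact mul_dvd_mul dvd_rfl h3
    have hle := (hp.pow_dvd_iff_le_factorization Nat.card_pos.ne').mp hdvd
    rw [P.card_eq_multiplicity, hm] at h2
    have : p ^ (f + m) ≤ Nat.card (MulAction.orbit (P : Subgroup G) x) * p ^ m :=
      h2 ▸ Nat.pow_le_pow_right hp.pos hle
    rw [hcard]
    rw [pow_add] at this
    exact Nat.le_of_mul_le_mul_right this (pow_pos hp.pos m)
  have h5 : MulAction.orbit (P : Subgroup G) x = Set.univ := by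
    apply Set.eq_of_subset_of_ncard_le (Set.subset_univ _)
    rwa [Set.ncard_univ, Nat.card_eq_fintype_card, ← Nat.card_coe_set_eq]
  obtain ⟨g, hg⟩ : y ∈ MulAction.orbit (P : Subgroup G) x := h5 ▸ Set.mem_univ y
  exact ⟨g, g.2, hg⟩

theorem constants_le [IsPretransitive G Ω] {f : ℕ} (hcard : Fintype.card Ω = p ^ f)
    (W : Submodule K (Ω → K)) (hW : ∀ g : G, ∀ v ∈ W, Cfsg.permRep K G Ω g v ∈ W) (hne : W ≠ ⊥) :
    (fun _ => (1 : K)) ∈ W := by
  have hp : p.Prime := Fact.out
  obtain ⟨v, hv, hv0⟩ := Submodule.exists_mem_ne_zero_of_ne_bot hne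
  let P : Sylow p G := default
  letI : Algebra (ZMod p) K := ZMod.algebra K p
  let U : Submodule (ZMod p) (Ω → K) :=
    Submodule.span (ZMod p) (Set.range fun g : G => Cfsg.permRep K G Ω g v)
  haveI : Module.Finite (ZMod p) U := Module.Finite.span_of_finite (ZMod p) (Set.finite_range _)
  haveI : Finite U := Module.finite_of_finite (ZMod p)
  have hUW : U ≤ W.restrictScalars (ZMod p) := by
    rw [Submodule.span_le]
    rintro _ ⟨g, rfl⟩
    exact hW g v hv
  have hUinv : ∀ g : G, ∀ u ∈ U, Cfsg.permRep K G Ω g u ∈ U := by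
    intro g u hu
    induction hu using Submodule.span_induction with
    | mem x hx =>
      obtain ⟨h, rfl⟩ := hx
      refine Submodule.subset_span ⟨g * h, ?_⟩
      simp [map_mul]
    | zero => simp
    | add x y _ _ hx hy => rw [map_add]; exact U.add_mem hx hy
    | smul c x _ hx =>
      rw [show c • x = (algebraMap (ZMod p) K c) • x from (algebraMap_smul K c x).symm, map_smul,
        algebraMap_smul]
      exact U.smul_mem c hx
  letI : MulAction (P : Subgroup G) U :=
    { smul := fun g u => ⟨Cfsg.permRep K G Ω (g : G) (u : Ω → K), hUinv _ _ u.2⟩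
      one_smul := fun u => Subtype.ext (show Cfsg.permRep K G Ω (1 : G) (u : Ω → K) = u by simp)
      mul_smul := fun g h u => Subtype.ext (show Cfsg.permRep K G Ω ((g : G) * h) (u : Ω → K) =
        Cfsg.permRep K G Ω (g : G) (Cfsg.permRep K G Ω (h : G) (u : Ω → K)) by simp [map_mul]) }
  have hv' : v ∈ U := Submodule.subset_span ⟨1, by simp⟩
  haveI : Nontrivial U := ⟨⟨⟨v, hv'⟩, 0, fun e => hv0 (congrArg Subtype.val e)⟩⟩
  have hdvd : p ∣ Nat.card U := by
    rw [Module.natCard_eq_pow_finrank (K := ZMod p), Nat.card_zmod]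
    exact dvd_pow_self p (Module.finrank_pos).ne'
  have h0 : (0 : U) ∈ MulAction.fixedPoints (P : Subgroup G) U := fun g =>
    Subtype.ext (show Cfsg.permRep K G Ω (g : G) 0 = 0 by simp)
  obtain ⟨u, hu, hune⟩ := P.isPGroup'.exists_fixed_point_of_prime_dvd_card_of_fixed_point _ hdvd h0
  have hconst : ∀ x y : Ω, (u : Ω → K) x = (u : Ω → K) y := by
    intro x y
    obtain ⟨g, hg, rfl⟩ := sylow_transitive hcard P x y
    have := congrFun (congrArg Subtype.val (hu ⟨g, hg⟩)) (g • x)
    rw [← this]
    show (u : Ω → K) x = (u : Ω → K) (g⁻¹ • g • x)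
    rw [inv_smul_smul]
  obtain ⟨x, hx⟩ : ∃ x, (u : Ω → K) x ≠ 0 := by
    by_contra hall
    push Not at hall
    exact hune (Subtype.ext (funext hall)).symm
  have : (fun _ => (1 : K)) = ((u : Ω → K) x)⁻¹ • (u : Ω → K) := by
    funext y
    simp [hconst y x, hx]
  rw [this]
  exact W.smul_mem _ (hUW u.2)

theorem two_transitive [IsPretransitive G Ω] {f : ℕ} (hcard : Fintype.card Ω = p ^ f)
    (h : ∀ W W' : Subrepresentation (Cfsg.permRep K G Ω),
      (Cfsg.permConstants K G Ω).toSubmodule ≤ W.toSubmodule → W.toSubmodule < W'.toSubmodule →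
      W'.toSubmodule ≤ (Cfsg.permSumZero K G Ω).toSubmodule →
      ∃ g : G, ∃ v ∈ W'.toSubmodule, Cfsg.permRep K G Ω g v - v ∉ W.toSubmodule) :
    IsMultiplyPretransitive G Ω 2 := by
  classical
  suffices hst : ∀ a c d : Ω, c ≠ a → d ≠ a → ∃ g : G, g • a = a ∧ g • c = d by
    rw [is_two_pretransitive_iff]
    intro a b c d hab hcd
    obtain ⟨g, hg⟩ := exists_smul_eq G a c
    obtain ⟨k, hk1, hk2⟩ := hst c (g • b) d
      (fun e => hab (MulAction.injective g (hg.trans e.symm))) hcd.symm
    exact ⟨k * g, by rw [mul_smul, hg, hk1], by rw [mul_smul, hk2]⟩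
  intro a c d hca hda
  by_contra hno
  let R : Ω → Ω → Prop := fun y x => ∃ g : G, g • a = y ∧ g • c = x
  have hR : ∀ (g : G) y x, R (g • y) (g • x) ↔ R y x := by
    intro g y x
    constructor
    · rintro ⟨k, hk1, hk2⟩
      exact ⟨g⁻¹ * k, by rw [mul_smul, hk1, inv_smul_smul], by rw [mul_smul, hk2, inv_smul_smul]⟩
    · rintro ⟨k, hk1, hk2⟩
      exact ⟨g * k, by rw [mul_smul, hk1], by rw [mul_smul, hk2]⟩
  let row : Ω → ℕ := fun y => (univ.filter fun x => R y x).card
  let col : Ω → ℕ := fun x => (univ.filter fun y => R y x).card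
  have hrow : ∀ y, row y = row a := by
    intro y
    obtain ⟨g, rfl⟩ := exists_smul_eq G a y
    refine (Finset.card_bij (fun x _ => g • x) ?_ ?_ ?_).symm
    · intro x hx; simpa [hR] using hx
    · intro x _ x' _ e; exact MulAction.injective g e
    · intro x hx
      refine ⟨g⁻¹ • x, ?_, smul_inv_smul g x⟩
      rw [mem_filter] at hx ⊢
      exact ⟨mem_univ _, by rw [← hR g, smul_inv_smul]; exact hx.2⟩
  have hcol : ∀ x, col x = col a := by
    intro x
    obtain ⟨g, rfl⟩ := exists_smul_eq G a x
    refine (Finset.card_bij (fun y _ => g • y) ?_ ?_ ?_).symm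
    · intro y hy; simpa [hR] using hy
    · intro y _ y' _ e; exact MulAction.injective g e
    · intro y hy
      refine ⟨g⁻¹ • y, ?_, smul_inv_smul g y⟩
      rw [mem_filter] at hy ⊢
      exact ⟨mem_univ _, by rw [← hR g, smul_inv_smul]; exact hy.2⟩
  have hrc : col a = row a := by
    have hn : 0 < Fintype.card Ω := Fintype.card_pos_iff.mpr ⟨a⟩
    have h1 : ∑ y, row y = ∑ x, col x := by
      simp only [row, col, Finset.card_filter]
      exact Finset.sum_comm
    rw [Finset.sum_congr rfl (fun y _ => hrow y), Finset.sum_congr rfl (fun x _ => hcol x),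
      Finset.sum_const, Finset.sum_const, Finset.card_univ, smul_eq_mul, smul_eq_mul] at h1
    exact (Nat.eq_of_mul_eq_mul_left hn h1).symm
  let Mx : Ω → Ω → K := fun y x => (if R y x then 1 else 0) - (if y = x then (row a : K) else 0)
  have hM : ∀ (g : G) y x, Mx (g • y) (g • x) = Mx y x := by
    intro g y x
    simp only [Mx, hR, smul_left_cancel_iff]
  have hcolsum : ∀ x, ∑ y, Mx y x = 0 := by
    intro x
    simp only [Mx, Finset.sum_sub_distrib, Finset.sum_boole, Finset.sum_ite_eq', Finset.mem_univ,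
      if_true]
    rw [show (univ.filter fun y => R y x).card = row a from (hcol x).trans hrc, sub_self]
  let B : (Ω → K) →ₗ[K] (Ω → K) :=
    { toFun := fun v y => ∑ x, Mx y x * v x
      map_add' := fun v w => by funext y; simp [mul_add, Finset.sum_add_distrib]
      map_smul' := fun r v => by
        funext y
        simp only [Pi.smul_apply, smul_eq_mul, Finset.mul_sum, RingHom.id_apply]
        exact Finset.sum_congr rfl fun x _ => by ring }
  let B' : (Ω → K) →ₗ[K] (Ω → K) :=
    { toFun := fun v x => ∑ y, Mx y x * v y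
      map_add' := fun v w => by funext x; simp [mul_add, Finset.sum_add_distrib]
      map_smul' := fun r v => by
        funext x
        simp only [Pi.smul_apply, smul_eq_mul, Finset.mul_sum, RingHom.id_apply]
        exact Finset.sum_congr rfl fun y _ => by ring }
  have hB : ∀ g : G, ∀ v, B (Cfsg.permRep K G Ω g v) = Cfsg.permRep K G Ω g (B v) := by
    intro g v
    funext y
    show ∑ x, Mx y x * v (g⁻¹ • x) = ∑ x, Mx (g⁻¹ • y) x * v x
    rw [← Equiv.sum_comp (MulAction.toPerm g)]
    refine Finset.sum_congr rfl fun x _ => ?_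
    simp only [MulAction.toPerm_apply, inv_smul_smul]
    rw [← hM g (g⁻¹ • y) x, smul_inv_smul]
  have hB' : ∀ g : G, ∀ v, B' (Cfsg.permRep K G Ω g v) = Cfsg.permRep K G Ω g (B' v) := by
    intro g v
    funext x
    show ∑ y, Mx y x * v (g⁻¹ • y) = ∑ y, Mx y (g⁻¹ • x) * v y
    rw [← Equiv.sum_comp (MulAction.toPerm g)]
    refine Finset.sum_congr rfl fun y _ => ?_
    simp only [MulAction.toPerm_apply, inv_smul_smul]
    rw [← hM g y (g⁻¹ • x), smul_inv_smul]
  have hRac : R a c := ⟨1, one_smul _ _, one_smul _ _⟩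
  have hMac : Mx a c = 1 := by simp [Mx, hRac, hca.symm]
  have hMad : Mx a d = 0 := by
    have : ¬ R a d := fun ⟨g, h1, h2⟩ => hno ⟨g, h1, h2⟩
    simp [Mx, this, hda.symm]
  have hker : ∀ v, B v = 0 → ∑ x, v x = 0 := by
    intro v hv
    have hne : LinearMap.range B' ≠ ⊥ := by
      intro e
      have h1 : B' (Pi.single a 1) = 0 := by
        have := LinearMap.mem_range_self B' (Pi.single a 1)
        rwa [e, Submodule.mem_bot] at this
      have h2 : ∑ y, Mx y c * (Pi.single a (1 : K) : Ω → K) y = 0 := congrFun h1 c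
      simp [Pi.single_apply, hMac] at h2
    obtain ⟨w, hw⟩ := constants_le hcard (LinearMap.range B')
      (by rintro g _ ⟨w, rfl⟩; exact ⟨_, hB' g w⟩) hne
    have key : ∑ x, v x * B' w x = ∑ y, B v y * w y := by
      show ∑ x, v x * (∑ y, Mx y x * w y) = ∑ y, (∑ x, Mx y x * v x) * w y
      simp only [Finset.mul_sum, Finset.sum_mul]
      rw [Finset.sum_comm]
      exact Finset.sum_congr rfl fun y _ => Finset.sum_congr rfl fun x _ => by ring
    rw [hw, hv] at key
    simpa using key
  let S := (Cfsg.permSumZero K G Ω).toSubmodule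
  let W : Subrepresentation (Cfsg.permRep K G Ω) :=
    { toSubmodule := S.map B
      apply_mem_toSubmodule := by
        rintro g _ ⟨v, hv, rfl⟩
        exact ⟨_, (Cfsg.permSumZero K G Ω).apply_mem_toSubmodule g hv, hB g v⟩ }
  let W' : Subrepresentation (Cfsg.permRep K G Ω) :=
    { toSubmodule := LinearMap.range B
      apply_mem_toSubmodule := by
        rintro g _ ⟨v, rfl⟩
        exact ⟨_, hB g v⟩ }
  have hWne : W.toSubmodule ≠ ⊥ := by
    intro e
    have hs : (Pi.single c 1 - Pi.single d 1 : Ω → K) ∈ S := by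
      show ∑ z, (Pi.single c (1 : K) - Pi.single d 1 : Ω → K) z = 0
      simp
    have h1 : B (Pi.single c 1 - Pi.single d 1) = 0 := by
      have := Submodule.mem_map_of_mem (f := B) hs
      rwa [show S.map B = ⊥ from e, Submodule.mem_bot] at this
    have h2 : ∑ x, Mx a x * (Pi.single c (1 : K) - Pi.single d 1 : Ω → K) x = 0 := congrFun h1 a
    simp [mul_sub, Finset.sum_sub_distrib, Pi.single_apply, hMac, hMad] at h2
  obtain ⟨g, v, hv, hgv⟩ := h W W'
    (by
      show Submodule.span K {fun _ => (1 : K)} ≤ W.toSubmodule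
      rw [Submodule.span_singleton_le_iff_mem]
      exact constants_le hcard _ (fun g v hv => W.apply_mem_toSubmodule g hv) hWne)
    (by
      refine lt_of_le_of_ne (LinearMap.map_le_range) fun e => ?_
      have : B (Pi.single a 1) ∈ S.map B := by
        rw [show S.map B = LinearMap.range B from e]
        exact LinearMap.mem_range_self _ _
      obtain ⟨s, hs, hsB⟩ := this
      have h1 := hker (Pi.single a 1 - s) (by rw [map_sub, hsB, sub_self])
      have hs0 : ∑ x, s x = 0 := hs
      simp [Finset.sum_sub_distrib, hs0] at h1)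
    (by
      rintro _ ⟨v, rfl⟩
      show ∑ y, ∑ x, Mx y x * v x = 0
      rw [Finset.sum_comm]
      refine Finset.sum_eq_zero fun x _ => ?_
      rw [← Finset.sum_mul, hcolsum, zero_mul])
  obtain ⟨u, rfl⟩ := hv
  refine hgv ⟨Cfsg.permRep K G Ω g u - u, ?_, by rw [map_sub, hB]⟩
  show ∑ x, (u (g⁻¹ • x) - u x) = 0
  rw [Finset.sum_sub_distrib, sub_eq_zero]
  exact Equiv.sum_comp (MulAction.toPerm g⁻¹) u

end Cfsg.Agent.HeartTrivial
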