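import Mathlib
import Cfsg.Agent.Lib.Characters.Basic

/-! Multiplicity free is equivalent to commutative centraliser algebra. -/

set_option linter.unusedSectionVars false
set_option linter.style.haveILetI false

namespace Cfsg.Agent.MultFree

open Finset Cfsg Module
open scoped ComplexConjugate

variable {G : Type*} [Group G] [Fintype G] {V : Type*} [AddCommGroup V] [Module ℂ V]
  [FiniteDimensional ℂ V] (σ : Representation ℂ G V)

theorem commute_of_multFree
    (h : ∀ χ : G → ℂ, IsIrrCharacter G χ →
      classInner σ.character χ = 0 ∨ classInner σ.character χ = 1)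
    (S T : V →ₗ[ℂ] V) (hS : ∀ g v, S (σ g v) = σ g (S v)) (hT : ∀ g v, T (σ g v) = σ g (T v)) :
    S ∘ₗ T = T ∘ₗ S := by
  classical
  have hss := Cfsg.Lib.Characters.isSemisimpleRepresentation σ
  let C : Subrepresentation σ :=
    { toSubmodule := LinearMap.ker (S ∘ₗ T - T ∘ₗ S)
      apply_mem_toSubmodule := fun g v hv => by
        simp only [LinearMap.mem_ker, LinearMap.sub_apply, LinearMap.comp_apply] at hv ⊢
        rw [hT, hS, hS, hT, ← map_sub, hv, map_zero] }
  by_contra hne
  obtain ⟨D, hD⟩ := exists_isCompl C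
  have hCD := Cfsg.Lib.Characters.isCompl_toSubmodule hD
  have hDne : D.toSubmodule ≠ ⊥ := by
    intro e
    have := hCD.sup_eq_top
    rw [e, sup_bot_eq] at this
    exact hne (sub_eq_zero.mp (LinearMap.ker_eq_top.mp this))
  obtain ⟨W, ⟨hW0, hWD⟩, hWmin⟩ :
      ∃ W ∈ {W : Subrepresentation σ | W.toSubmodule ≠ ⊥ ∧ W.toSubmodule ≤ D.toSubmodule},
        ∀ W' ∈ {W : Subrepresentation σ | W.toSubmodule ≠ ⊥ ∧ W.toSubmodule ≤ D.toSubmodule},
          ¬ finrank ℂ W'.toSubmodule < finrank ℂ W.toSubmodule :=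
    (InvImage.wf (fun W : Subrepresentation σ => finrank ℂ W.toSubmodule) wellFounded_lt).has_min _
      ⟨D, hDne, le_rfl⟩
  haveI : Nontrivial W.toSubmodule := Submodule.nontrivial_iff_ne_bot.mpr hW0
  haveI hirr : W.toRepresentation.IsIrreducible := by
    haveI : Nontrivial (Subrepresentation W.toRepresentation) :=
      ⟨⊥, ⊤, fun h => bot_ne_top (α := Submodule ℂ W.toSubmodule)
        (congrArg Subrepresentation.toSubmodule h)⟩
    refine ⟨fun U => ?_⟩
    by_cases hU : U.toSubmodule = ⊥
    · exact Or.inl (Subrepresentation.toSubmodule_injective hU)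
    · right
      let U' : Subrepresentation σ :=
        { toSubmodule := U.toSubmodule.map W.toSubmodule.subtype
          apply_mem_toSubmodule := by
            rintro g _ ⟨u, hu, rfl⟩
            exact ⟨_, U.apply_mem_toSubmodule g hu, rfl⟩ }
      have hle : U'.toSubmodule ≤ W.toSubmodule := Submodule.map_subtype_le _ _
      have := hWmin U' ⟨fun e => hU (Submodule.map_injective_of_injective
        W.toSubmodule.injective_subtype (e.trans (Submodule.map_bot _).symm)), hle.trans hWD⟩
      apply Subrepresentation.toSubmodule_injective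
      refine Submodule.map_injective_of_injective W.toSubmodule.injective_subtype ?_
      show U'.toSubmodule = (⊤ : Submodule ℂ W.toSubmodule).map W.toSubmodule.subtype
      rw [Submodule.map_subtype_top]
      exact Submodule.eq_of_le_of_finrank_le hle (not_lt.mp this)
  have hχ : IsIrrCharacter G W.toRepresentation.character :=
    Cfsg.Lib.Characters.isIrrCharacter_character _
  let ι : Representation.IntertwiningMap W.toRepresentation σ :=
    { toLinearMap := W.toSubmodule.subtype
      isIntertwining' := fun g => LinearMap.ext fun v => rfl }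
  have hι : ι ≠ 0 := by
    intro e
    obtain ⟨w, hw⟩ := exists_ne (0 : W.toSubmodule)
    have h1 : (w : V) = 0 := congrArg (fun k : Representation.IntertwiningMap W.toRepresentation σ => k w) e
    exact hw (Subtype.ext h1)
  have hdim : finrank ℂ (Representation.IntertwiningMap W.toRepresentation σ) ≤ 1 := by
    have h1 := Cfsg.Lib.Characters.classInner_character W.toRepresentation σ
    rcases h _ hχ with h2 | h2 <;> rw [h1] at h2
    · rw [Nat.cast_eq_zero] at h2; omega
    · rw [Nat.cast_eq_one] at h2; omega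
  have hscal : ∀ R : V →ₗ[ℂ] V, (∀ g v, R (σ g v) = σ g (R v)) →
      ∃ c : ℂ, ∀ w : W.toSubmodule, R (w : V) = c • (w : V) := by
    intro R hR
    let Rι : Representation.IntertwiningMap W.toRepresentation σ :=
      { toLinearMap := R ∘ₗ W.toSubmodule.subtype
        isIntertwining' := fun g => LinearMap.ext fun v => hR g (v : V) }
    have h1 : finrank ℂ (Representation.IntertwiningMap W.toRepresentation σ) = 1 := by
      have := Module.finrank_pos_iff_exists_ne_zero (R := ℂ) |>.mpr ⟨ι, hι⟩
      omega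
    obtain ⟨c, hc⟩ := (finrank_eq_one_iff_of_nonzero' ι hι).mp h1 Rι
    exact ⟨c, fun w => (congrArg (fun k : Representation.IntertwiningMap W.toRepresentation σ => k w) hc).symm⟩
  obtain ⟨s, hs⟩ := hscal S hS
  obtain ⟨t, ht⟩ := hscal T hT
  have hWC : W.toSubmodule ≤ C.toSubmodule := fun v hv => by
    show v ∈ LinearMap.ker (S ∘ₗ T - T ∘ₗ S)
    have h1 : S v = s • v := hs ⟨v, hv⟩
    have h2 : T v = t • v := ht ⟨v, hv⟩
    simp [h1, h2, map_smul, smul_smul, mul_comm]
  exact hW0 (le_bot_iff.mp (hCD.inf_eq_bot ▸ le_inf hWC hWD))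

theorem multFree_of_commute
    (h : ∀ S T : V →ₗ[ℂ] V, (∀ g v, S (σ g v) = σ g (S v)) → (∀ g v, T (σ g v) = σ g (T v)) →
      S ∘ₗ T = T ∘ₗ S)
    (χ : G → ℂ) (hχ : IsIrrCharacter G χ) :
    classInner σ.character χ = 0 ∨ classInner σ.character χ = 1 := by
  classical
  obtain ⟨n, ρ, hρ, rfl⟩ := hχ
  rw [Cfsg.Lib.Characters.classInner_character ρ σ]
  suffices hle : finrank ℂ (Representation.IntertwiningMap ρ σ) ≤ 1 by
    rcases Nat.le_one_iff_eq_zero_or_eq_one.mp hle with h | h <;> simp [h]
  by_contra hgt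
  push Not at hgt
  haveI : Module.Finite ℂ (Representation.IntertwiningMap ρ σ) :=
    Module.finite_of_finrank_pos (by omega)
  obtain ⟨f₁, hf₁⟩ := Module.finrank_pos_iff_exists_ne_zero (R := ℂ)
    (M := Representation.IntertwiningMap ρ σ) |>.mp (by omega)
  obtain ⟨f₂, hf₂⟩ : ∃ f₂, f₂ ∉ Submodule.span ℂ {f₁} := by
    by_contra hall
    push Not at hall
    have := finrank_le_one f₁ (fun w => Submodule.mem_span_singleton.mp (hall w))
    omega
  have hker : ∀ f : Representation.IntertwiningMap ρ σ, f ≠ 0 → LinearMap.ker f.toLinearMap = ⊥ := by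
    intro f hf
    let K : Subrepresentation ρ :=
      { toSubmodule := LinearMap.ker f.toLinearMap
        apply_mem_toSubmodule := fun g v hv => by
          rw [LinearMap.mem_ker] at hv ⊢
          have := LinearMap.congr_fun (f.isIntertwining' g) v
          simp only [LinearMap.comp_apply] at this
          rw [this, hv, map_zero] }
    rcases hρ.eq_bot_or_eq_top K with e | e
    · exact congrArg Subrepresentation.toSubmodule e
    · refine absurd ?_ hf
      refine Representation.IntertwiningMap.ext (LinearMap.ext fun v => ?_)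
      have : v ∈ K.toSubmodule := by rw [e]; exact Submodule.mem_top
      exact this
  have hint : ∀ (f : Representation.IntertwiningMap ρ σ) g v, f.toLinearMap (ρ g v) = σ g (f.toLinearMap v) :=
    fun f g v => LinearMap.congr_fun (f.isIntertwining' g) v
  -- the two embeddings are independent
  have hind : ∀ x y, f₁.toLinearMap x + f₂.toLinearMap y = 0 → x = 0 ∧ y = 0 := by
    let K : Subrepresentation ρ :=
      { toSubmodule := (LinearMap.range f₁.toLinearMap).comap f₂.toLinearMap
        apply_mem_toSubmodule := fun g v hv => by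
          obtain ⟨u, hu⟩ := hv
          exact ⟨ρ g u, by rw [hint, hu, hint]⟩ }
    have hKbot : K.toSubmodule = ⊥ := by
      rcases hρ.eq_bot_or_eq_top K with e | e
      · exact congrArg Subrepresentation.toSubmodule e
      exfalso
      have hex : ∀ v, ∃ u, f₁.toLinearMap u = f₂.toLinearMap v := fun v => by
        have : v ∈ K.toSubmodule := by rw [e]; exact Submodule.mem_top
        exact this
      choose u hu using hex
      have hinj := LinearMap.ker_eq_bot.mp (hker f₁ hf₁)
      let U : (Fin n → ℂ) →ₗ[ℂ] (Fin n → ℂ) :=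
        { toFun := u
          map_add' := fun v w => hinj (by rw [map_add, hu, hu, hu, map_add])
          map_smul' := fun c v => hinj (by rw [RingHom.id_apply, map_smul, hu, hu, map_smul]) }
      obtain ⟨c, hc⟩ : ∃ c : ℂ, U = c • LinearMap.id := by
        haveI := hρ
        exact Cfsg.Lib.Characters.schur_scalar ρ U fun g =>
          LinearMap.ext fun v => hinj (show f₁.toLinearMap (u (ρ g v)) = f₁.toLinearMap (ρ g (u v)) by
            rw [hu, hint, hint, hu])
      refine hf₂ (Submodule.mem_span_singleton.mpr ⟨c, ?_⟩)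
      refine Representation.IntertwiningMap.ext (LinearMap.ext fun v => ?_)
      show c • f₁.toLinearMap v = f₂.toLinearMap v
      rw [← hu v, show u v = U v from rfl, hc, ← map_smul]
      rfl
    intro x y hxy
    have hy : y ∈ K.toSubmodule := ⟨-x, by rw [map_neg]; exact (eq_neg_of_add_eq_zero_right hxy).symm⟩
    rw [hKbot, Submodule.mem_bot] at hy
    refine ⟨?_, hy⟩
    rw [hy, map_zero, add_zero] at hxy
    exact LinearMap.ker_eq_bot'.mp (hker f₁ hf₁) x hxy
  let F : (Fin n → ℂ) × (Fin n → ℂ) →ₗ[ℂ] V := f₁.toLinearMap.coprod f₂.toLinearMap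
  obtain ⟨L, hL⟩ := F.exists_leftInverse_of_injective (LinearMap.ker_eq_bot'.mpr fun p hp =>
    Prod.ext (hind p.1 p.2 hp).1 (hind p.1 p.2 hp).2)
  have hG : (Nat.card G : ℂ) ≠ 0 := Nat.cast_ne_zero.mpr Nat.card_pos.ne'
  let avg : (V →ₗ[ℂ] (Fin n → ℂ)) → (V →ₗ[ℂ] (Fin n → ℂ)) := fun p =>
    (Nat.card G : ℂ)⁻¹ • ∑ g : G, ρ g⁻¹ ∘ₗ p ∘ₗ σ g
  have havg : ∀ p g v, avg p (σ g v) = ρ g (avg p v) := by
    intro p g v
    simp only [avg, LinearMap.smul_apply, LinearMap.sum_apply, LinearMap.comp_apply, map_smul, map_sum]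
    congr 1
    rw [← Equiv.sum_comp (Equiv.mulRight g⁻¹)]
    refine Finset.sum_congr rfl fun k _ => ?_
    simp only [Equiv.coe_mulRight, mul_inv_rev, inv_inv, map_mul, Module.End.mul_apply]
    rw [show σ g⁻¹ (σ g v) = v by rw [← Module.End.mul_apply, ← map_mul, inv_mul_cancel, map_one,
      Module.End.one_apply]]
  have hsame : ∀ p (f : Representation.IntertwiningMap ρ σ) (c : ℂ),
      (∀ x, p (f.toLinearMap x) = c • x) → ∀ x, avg p (f.toLinearMap x) = c • x := by
    intro p f c hp x
    simp only [avg, LinearMap.smul_apply, LinearMap.sum_apply, LinearMap.comp_apply]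
    have : ∀ g : G, ρ g⁻¹ (p (σ g (f.toLinearMap x))) = c • x := fun g => by
      rw [← hint, hp, map_smul, ← Module.End.mul_apply, ← map_mul, inv_mul_cancel, map_one,
        Module.End.one_apply]
    rw [Finset.sum_congr rfl (fun g _ => this g), Finset.sum_const, Finset.card_univ,
      ← Nat.cast_smul_eq_nsmul ℂ, smul_smul, ← Nat.card_eq_fintype_card, inv_mul_cancel₀ hG, one_smul]
  let p₁ : V →ₗ[ℂ] (Fin n → ℂ) := LinearMap.fst ℂ _ _ ∘ₗ L
  let p₂ : V →ₗ[ℂ] (Fin n → ℂ) := LinearMap.snd ℂ _ _ ∘ₗ L
  have hLF : ∀ q, L (F q) = q := fun q => LinearMap.congr_fun hL q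
  have h11 : ∀ x, p₁ (f₁.toLinearMap x) = (1 : ℂ) • x := fun x => by
    have := congrArg Prod.fst (hLF (x, 0))
    simpa [p₁, F] using this
  have h12 : ∀ x, p₁ (f₂.toLinearMap x) = (0 : ℂ) • x := fun x => by
    have := congrArg Prod.fst (hLF (0, x))
    simpa [p₁, F] using this
  have h22 : ∀ x, p₂ (f₂.toLinearMap x) = (1 : ℂ) • x := fun x => by
    have := congrArg Prod.snd (hLF (0, x))
    simpa [p₂, F] using this
  have h21 : ∀ x, p₂ (f₁.toLinearMap x) = (0 : ℂ) • x := fun x => by
    have := congrArg Prod.snd (hLF (x, 0))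
    simpa [p₂, F] using this
  have key := h (f₁.toLinearMap ∘ₗ avg p₂) (f₂.toLinearMap ∘ₗ avg p₁)
    (fun g v => by simp only [LinearMap.comp_apply, havg, hint])
    (fun g v => by simp only [LinearMap.comp_apply, havg, hint])
  obtain ⟨x, hx⟩ : ∃ x : Fin n → ℂ, x ≠ 0 := by
    by_contra hall
    push Not at hall
    exact hf₁ (Representation.IntertwiningMap.ext (LinearMap.ext fun v => by simp [hall v]))
  have := LinearMap.congr_fun key (f₁.toLinearMap x)
  simp only [LinearMap.comp_apply, hsame p₁ f₁ 1 h11, hsame p₂ f₁ 0 h21, one_smul,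
    hsame p₂ f₂ 1 h22, zero_smul, map_zero] at this
  exact hx (LinearMap.ker_eq_bot'.mp (hker f₁ hf₁) x this)

end Cfsg.Agent.MultFree
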