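import Mathlib.GroupTheory.GroupAction.MultipleTransitivity

/-!
A criterion for multiple transitivity: pointwise stabilisers of small sets are transitive on the
remaining points.
-/

namespace Cfsg.Lib.MultiTrans

open MulAction

variable {G α : Type*} [Group G] [MulAction G α]

theorem isMultiplyPretransitive_of_fixing [DecidableEq α] (k : ℕ)
    (h : ∀ T : Finset α, T.card < k → ∀ x y : α, x ∉ T → y ∉ T →
      ∃ g : G, (∀ t ∈ T, g • t = t) ∧ g • x = y) :
    IsMultiplyPretransitive G α k := by
  have key : ∀ j ≤ k, IsMultiplyPretransitive G α j := by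
    intro j
    induction j with
    | zero => exact fun _ => ⟨fun u v => ⟨1, Function.Embedding.ext fun i => i.elim0⟩⟩
    | succ j ih =>
      intro hj
      have := ih (by omega)
      refine ⟨fun u v => ?_⟩
      obtain ⟨g, hg⟩ := exists_smul_eq G (Fin.castSuccEmb.trans u) (Fin.castSuccEmb.trans v)
      have hg' : ∀ i : Fin j, g • u i.castSucc = v i.castSucc := fun i => DFunLike.congr_fun hg i
      set T : Finset α := Finset.univ.map (Fin.castSuccEmb.trans v) with hT
      have hcard : T.card < k := by rw [hT, Finset.card_map, Finset.card_univ, Fintype.card_fin]; omega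
      have hmem : ∀ i : Fin j, v i.castSucc ∈ T := fun i =>
        Finset.mem_map.mpr ⟨i, Finset.mem_univ _, rfl⟩
      have h2 : v (Fin.last j) ∉ T := by
        intro hm
        obtain ⟨i, -, hi⟩ := Finset.mem_map.mp hm
        exact absurd (v.injective hi) (Fin.castSucc_lt_last i).ne
      have h1 : g • u (Fin.last j) ∉ T := by
        intro hm
        obtain ⟨i, -, hi⟩ := Finset.mem_map.mp hm
        change v i.castSucc = _ at hi
        rw [← hg' i] at hi
        exact absurd (u.injective (smul_left_cancel g hi)) (Fin.castSucc_lt_last i).ne
      obtain ⟨m, hm, hml⟩ := h T hcard _ _ h1 h2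
      refine ⟨m * g, Function.Embedding.ext fun i => ?_⟩
      change (m * g) • u i = v i
      induction i using Fin.lastCases with
      | last => rw [mul_smul, hml]
      | cast i => rw [mul_smul, hg' i, hm _ (hmem i)]
  exact key k le_rfl

end Cfsg.Lib.MultiTrans
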