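import Mathlib.GroupTheory.GroupAction.MultiplePrimitivity
import Mathlib.GroupTheory.Sylow

/-!
Regular normal subgroups of multiply primitive groups.
-/

namespace Cfsg.Lib.RegularNormal

open MulAction
open scoped Pointwise

theorem pair_eq_univ {H Y : Type*} [Group H] [MulAction H Y] [IsPreprimitive H Y] (f : Y → Y)
    (hinv : ∀ y, f (f y) = y) (hf : ∀ (h : H) (y : Y), f (h • y) = h • f y) (y : Y) (hy : f y ≠ y) :
    ∀ z : Y, z = y ∨ z = f y := by
  have hB : IsBlock H ({y, f y} : Set Y) := by
    rw [isBlock_iff_smul_eq_of_nonempty]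
    rintro h ⟨z, ⟨w, hw, hwz⟩, hz⟩
    change h • w = z at hwz
    have key : h • y = y ∧ h • f y = f y ∨ h • y = f y ∧ h • f y = y := by
      simp only [Set.mem_insert_iff, Set.mem_singleton_iff] at hw hz
      rcases hw with rfl | rfl <;> rcases hz with rfl | rfl
      · exact Or.inl ⟨hwz, by rw [← hf, hwz]⟩
      · exact Or.inr ⟨hwz, by rw [← hf, hwz, hinv]⟩
      · refine Or.inr ⟨?_, hwz⟩
        have := congrArg f hwz
        rw [← hf] at this
        simpa [hinv] using this
      · refine Or.inl ⟨?_, hwz⟩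
        have := congrArg f hwz
        rw [← hf] at this
        simpa [hinv] using this
    rcases key with ⟨h1, h2⟩ | ⟨h1, h2⟩ <;>
      simp [Set.smul_set_insert, Set.smul_set_singleton, h1, h2, Set.pair_comm]
  intro z
  rcases IsPreprimitive.isTrivialBlock_of_isBlock hB with h | h
  · exact absurd (h (Set.mem_insert _ _) (Set.mem_insert_of_mem _ rfl)).symm hy
  · simpa [← h] using Set.mem_univ z

variable {G X : Type*} [Group G] [MulAction G X] [Finite X] (N : Subgroup G) [N.Normal]

/-- Coordinates on the points given by a regular subgroup. -/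
noncomputable def coord (htrans : IsPretransitive N X) (a : X) (x : X) : N :=
  (htrans.exists_smul_eq a x).choose

theorem coord_spec (htrans : IsPretransitive N X) (a x : X) : coord N htrans a x • a = x :=
  (htrans.exists_smul_eq a x).choose_spec

omit [Finite X] [N.Normal] in
theorem eq_of_smul_eq (hreg : ∀ x : X, stabilizer N x = ⊥) {a : X} {n m : N}
    (h : n • a = m • a) : n = m := by
  have : m⁻¹ * n ∈ stabilizer N a := by rw [mem_stabilizer_iff, mul_smul, h, inv_smul_smul]
  rw [hreg a, Subgroup.mem_bot] at this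
  exact (inv_mul_eq_one.mp this).symm

omit [Finite X] in
theorem smul_coord (a : X) {g : G} (hg : g • a = a) (n : N) :
    g • (n • a) = (⟨g * n * g⁻¹, (inferInstance : N.Normal).conj_mem n n.2 g⟩ : N) • a := by
  change g • ((n : G) • a) = (g * n * g⁻¹) • a
  rw [mul_smul, mul_smul, inv_smul_eq_iff.mpr hg.symm]

theorem double_cases [Fintype X] (hX : Nonempty X) (h2 : IsMultiplyPreprimitive G X 2)
    (htrans : IsPretransitive N X) (hreg : ∀ x : X, stabilizer N x = ⊥) :
    Fintype.card X = 3 ∨ ∀ n ∈ N, n ^ 2 = 1 := by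
  classical
  by_contra hc
  push Not at hc
  obtain ⟨h3, n, hn, hn2⟩ := hc
  obtain ⟨a⟩ := hX
  haveI hP : IsPreprimitive (fixingSubgroup G ({a} : Set X)) (SubMulAction.ofFixingSubgroup G ({a} : Set X)) :=
    haveI := h2; IsMultiplyPreprimitive.isPreprimitive_ofFixingSubgroup G 2 (by simp; rfl)
  let Y := SubMulAction.ofFixingSubgroup G ({a} : Set X)
  have hY : ∀ y : Y, (y : X) ≠ a := fun y => y.2
  let c := coord N htrans a
  have hc1 : ∀ y : Y, ((c y)⁻¹ • a : X) ∉ ({a} : Set X) := by
    intro y e
    rw [Set.mem_singleton_iff, inv_smul_eq_iff] at e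
    exact hY y ((coord_spec N htrans a y).symm.trans e.symm)
  let f : Y → Y := fun y => ⟨(c y)⁻¹ • a, hc1 y⟩
  have hcc : ∀ m : N, c (m • a) = m := fun m =>
    eq_of_smul_eq N hreg (coord_spec N htrans a _)
  have hinv : ∀ y, f (f y) = y := by
    intro y
    refine Subtype.ext ?_
    change (c ((c y)⁻¹ • a))⁻¹ • a = (y : X)
    rw [hcc, inv_inv, coord_spec]
  have hfeq : ∀ (h : fixingSubgroup G ({a} : Set X)) (y : Y), f (h • y) = h • f y := by
    intro h y
    refine Subtype.ext ?_
    change (c ((h : G) • (y : X)))⁻¹ • a = (h : G) • ((c y)⁻¹ • a)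
    have hga : (h : G) • a = a := (mem_fixingSubgroup_iff G).mp h.2 a rfl
    have hy : (h : G) • (y : X) = _ := (congrArg ((h : G) • ·) (coord_spec N htrans a y)).symm.trans
      (smul_coord N a hga (c y))
    rw [hy, hcc, smul_coord N a hga]
    congr 1
    refine Subtype.ext ?_
    simp [mul_assoc]
  set m : N := ⟨n, hn⟩
  have hm : m • a ≠ a := fun e => hn2 (by
    have : m = 1 := eq_of_smul_eq N hreg (e.trans (one_smul _ _).symm)
    have h := congrArg (fun q : N => (q : G) ^ 2) this
    simpa [m] using h)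
  let y : Y := ⟨m • a, hm⟩
  have hy : f y ≠ y := by
    intro e
    have e' : (c (m • a))⁻¹ • a = m • a := congrArg Subtype.val e
    rw [hcc] at e'
    have := eq_of_smul_eq N hreg e'
    exact hn2 (by
      have h1 := congrArg (fun q : N => (q : G)) this
      change n⁻¹ = n at h1
      rw [sq]
      nth_rewrite 1 [← h1]
      exact inv_mul_cancel n)
  have hall := pair_eq_univ f hinv hfeq y hy
  apply h3
  have huniv : (Finset.univ : Finset X) = {a, (y : X), (f y : X)} := by
    ext x
    simp only [Finset.mem_univ, Finset.mem_insert, Finset.mem_singleton, true_iff]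
    by_cases hx : x = a
    · exact Or.inl hx
    · rcases hall ⟨x, hx⟩ with e | e
      · exact Or.inr (Or.inl (congrArg Subtype.val e))
      · exact Or.inr (Or.inr (congrArg Subtype.val e))
  rw [← Finset.card_univ, huniv, Finset.card_eq_three]
  exact ⟨a, y, f y, (hY y).symm, (hY (f y)).symm, fun e => hy (Subtype.ext e).symm, rfl⟩

theorem card_eq [Fintype X] (htrans : IsPretransitive N X) (hreg : ∀ x : X, stabilizer N x = ⊥)
    (a : X) : Nat.card N = Fintype.card X := by
  rw [← Nat.card_eq_fintype_card]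
  exact Nat.card_eq_of_bijective (fun n : N => n • a)
    ⟨fun _ _ e => eq_of_smul_eq N hreg e, fun x => htrans.exists_smul_eq a x⟩

theorem card_eq_two_pow [Fintype X] [Nonempty X] (htrans : IsPretransitive N X)
    (hreg : ∀ x : X, stabilizer N x = ⊥) (h : ∀ n ∈ N, n ^ 2 = 1) :
    ∃ m : ℕ, Fintype.card X = 2 ^ m := by
  obtain ⟨a⟩ := ‹Nonempty X›
  haveI : Finite N := Finite.of_injective (fun n : N => n • a) fun _ _ e => eq_of_smul_eq N hreg e
  haveI := Fact.mk Nat.prime_two
  have hP : IsPGroup 2 N := fun n => ⟨1, by rw [pow_one]; exact Subtype.ext (h n n.2)⟩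
  obtain ⟨m, hm⟩ := IsPGroup.iff_card.mp hP
  exact ⟨m, (card_eq N htrans hreg a).symm.trans hm⟩

theorem triple_cases [Fintype X] (h3 : IsMultiplyPreprimitive G X 3) (hX : 3 ≤ Fintype.card X)
    (htrans : IsPretransitive N X) (hreg : ∀ x : X, stabilizer N x = ⊥) :
    Fintype.card X = 3 ∨ Fintype.card X = 4 := by
  classical
  have hcard : (3 : ℕ∞) ≤ ENat.card X := by
    rw [ENat.card_eq_coe_fintype_card]; exact_mod_cast hX
  rcases double_cases N (Fintype.card_pos_iff.mp (by omega)) (isMultiplyPreprimitive_of_le G X (n := 3) h3 (by omega) hcard) htrans hreg with h | hexp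
  · exact Or.inl h
  haveI : Nonempty X := Fintype.card_pos_iff.mp (by omega)
  obtain ⟨k, hk⟩ := card_eq_two_pow N htrans hreg hexp
  by_contra hc
  push Not at hc
  obtain ⟨a, b, hab⟩ := Fintype.exists_pair_of_one_lt_card (α := X) (by omega)
  haveI hP : IsPreprimitive (fixingSubgroup G ({a, b} : Set X)) (SubMulAction.ofFixingSubgroup G ({a, b} : Set X)) :=
    haveI := h3; IsMultiplyPreprimitive.isPreprimitive_ofFixingSubgroup G 3 (by rw [Set.encard_pair hab]; rfl)
  let Y := SubMulAction.ofFixingSubgroup G ({a, b} : Set X)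
  let c := coord N htrans a
  have hcc : ∀ m : N, c (m • a) = m := fun m =>
    eq_of_smul_eq N hreg (coord_spec N htrans a _)
  have hcs : ∀ x : X, c x • a = x := coord_spec N htrans a
  set e := c b
  have hsq : ∀ q : N, q * q = 1 := fun q => Subtype.ext (by
    rw [Subgroup.coe_mul, ← sq]; exact hexp q q.2)
  have he1 : e ≠ 1 := fun h => hab (by
    have := hcs b
    rw [show c b = 1 from h, one_smul] at this; exact this)
  have hnot : ∀ y : Y, ((c y * e) • a : X) ∉ ({a, b} : Set X) := by
    intro y hy
    have hy' : (y : X) ≠ a ∧ (y : X) ≠ b := by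
      have h : (y : X) ∉ ({a, b} : Set X) := y.2
      simpa using h
    rcases hy with h | h
    · have h1 := eq_of_smul_eq N hreg (h.trans (one_smul N a).symm)
      have h2 : c (y : X) = e := by
        rw [← mul_one (c (y : X)), ← hsq e, ← mul_assoc, h1, one_mul]
      exact hy'.2 ((hcs y).symm.trans (by rw [h2]; exact hcs b))
    · have h1 := eq_of_smul_eq N hreg (h.trans (hcs b).symm)
      exact hy'.1 ((hcs y).symm.trans (by rw [mul_eq_right.mp h1, one_smul]))
  let f : Y → Y := fun y => ⟨(c y * e) • a, hnot y⟩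
  have hinv : ∀ y, f (f y) = y := by
    intro y
    refine Subtype.ext ?_
    change (c ((c (y : X) * e) • a) * e) • a = (y : X)
    rw [hcc, mul_assoc, hsq, mul_one, hcs]
  have hfeq : ∀ (h : fixingSubgroup G ({a, b} : Set X)) (y : Y), f (h • y) = h • f y := by
    intro h y
    refine Subtype.ext ?_
    change (c ((h : G) • (y : X)) * e) • a = (h : G) • ((c (y : X) * e) • a)
    have hga : (h : G) • a = a := (mem_fixingSubgroup_iff G).mp h.2 a (Set.mem_insert _ _)
    have hgb : (h : G) • b = b := (mem_fixingSubgroup_iff G).mp h.2 b (Set.mem_insert_of_mem _ rfl)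
    have hee : (⟨(h : G) * e * (h : G)⁻¹, (inferInstance : N.Normal).conj_mem _ e.2 _⟩ : N) = e := by
      refine eq_of_smul_eq N hreg (a := a) ?_
      rw [← smul_coord N a hga, hcs, hgb]
    have hy : (h : G) • (y : X) = _ := (congrArg ((h : G) • ·) (hcs y)).symm.trans
      (smul_coord N a hga (c y))
    rw [hy, hcc, smul_coord N a hga]
    congr 1
    refine Subtype.ext ?_
    change ((h : G) * (c (y : X) : G) * (h : G)⁻¹) * (e : G) = (h : G) * ((c (y : X) : G) * e) * (h : G)⁻¹
    conv_lhs => rw [← congrArg (fun q : N => (q : G)) hee]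
    simp [mul_assoc]
  obtain ⟨x, hx⟩ : ∃ x : X, x ∉ ({a, b} : Finset X) := by
    by_contra hall
    push Not at hall
    have := Finset.card_le_card (s := Finset.univ) (t := ({a, b} : Finset X)) (fun z _ => hall z)
    rw [Finset.card_univ, Finset.card_pair hab] at this
    omega
  let y : Y := ⟨x, show x ∉ ({a, b} : Set X) by simpa using hx⟩
  have hy : f y ≠ y := by
    intro h
    have h' : (c x * e) • a = c x • a := (congrArg Subtype.val h).trans (hcs x).symm
    exact he1 (mul_eq_left.mp (eq_of_smul_eq N hreg h'))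
  have hall := pair_eq_univ f hinv hfeq y hy
  have hsub : (Finset.univ : Finset X) ⊆ {a, b, (y : X), (f y : X)} := by
    intro z _
    simp only [Finset.mem_insert, Finset.mem_singleton]
    by_cases hz : z = a ∨ z = b
    · rcases hz with h | h
      · exact Or.inl h
      · exact Or.inr (Or.inl h)
    · rcases hall ⟨z, show z ∉ ({a, b} : Set X) by simpa using hz⟩ with h | h
      · exact Or.inr (Or.inr (Or.inl (congrArg Subtype.val h)))
      · exact Or.inr (Or.inr (Or.inr (congrArg Subtype.val h)))
  have h4 := (Finset.card_le_card hsub).trans (Finset.card_le_four (a := a) (b := b) (c := (y : X)) (d := (f y : X)))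
  rw [Finset.card_univ] at h4
  omega

end Cfsg.Lib.RegularNormal
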