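import Mathlib
import Cfsg.Agent.Lib.PermGroup.RegularNormal
import Cfsg.Agent.Lib.PermGroup.MultiTrans

/-! Normal subgroups of multiply primitive groups. -/

namespace Cfsg.Lib.PermGroup.NormalPrimitive

open MulAction

variable {G α : Type*} [Group G] [MulAction G α] [Fintype α] [DecidableEq α] {k : ℕ}

/-- `H` has a non-trivial element fixing `T` pointwise. -/
def HasFix (H : Subgroup G) (T : Finset α) : Prop := ∃ h ∈ H, h ≠ 1 ∧ ∀ t ∈ T, h • t = t

theorem card_compl (T : Finset α) :
    Nat.card (SubMulAction.ofFixingSubgroup G (T : Set α)) = Fintype.card α - T.card := by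
  rw [← Finset.card_compl, ← Nat.card_eq_finsetCard]
  exact Nat.card_congr (Equiv.subtypeEquivRight fun x => by simp [SubMulAction.mem_ofFixingSubgroup_iff])

theorem preprimitive_compl (hG : IsMultiplyPreprimitive G α k) (hkn : k ≤ Fintype.card α) {T : Finset α}
    {m : ℕ} (hm : 1 ≤ m) (hT : T.card + m ≤ k) :
    IsMultiplyPreprimitive (fixingSubgroup G (T : Set α)) (SubMulAction.ofFixingSubgroup G (T : Set α)) m := by
  haveI := hG
  haveI := ofFixingSubgroup.isMultiplyPreprimitive G α (s := (T : Set α)) (m := k - T.card) (n := k)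
    (by rw [Set.ncard_coe_finset]; omega)
  refine isMultiplyPreprimitive_of_le _ _ this (by omega) ?_
  rw [ENat.card_eq_coe_natCard, card_compl]
  exact_mod_cast (by omega : k - T.card ≤ Fintype.card α - T.card)

theorem exists_move [FaithfulSMul G α] (hG : IsMultiplyPreprimitive G α k) (hkn : k ≤ Fintype.card α)
    {H : Subgroup G} [H.Normal] {T : Finset α} (hT : T.card < k) (hH : HasFix H T)
    {x y : α} (hx : x ∉ T) (hy : y ∉ T) : ∃ h ∈ H, (∀ t ∈ T, h • t = t) ∧ h • x = y := by
  have h1 := preprimitive_compl (G := G) hG hkn (T := T) le_rfl (by omega)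
  rw [is_one_preprimitive_iff] at h1
  haveI := h1
  obtain ⟨h, hh, hne, hfix⟩ := hH
  let N := H.comap (fixingSubgroup G (T : Set α)).subtype
  have hN : fixedPoints N (SubMulAction.ofFixingSubgroup G (T : Set α)) ≠ .univ := by
    intro e
    refine hne (eq_of_smul_eq_smul (α := α) fun z => ?_)
    rw [one_smul]
    by_cases hz : z ∈ T
    · exact hfix z hz
    · have := Set.eq_univ_iff_forall.1 e ⟨z, by simpa [SubMulAction.mem_ofFixingSubgroup_iff] using hz⟩
        ⟨⟨h, (mem_fixingSubgroup_iff G).2 fun t ht => hfix t ht⟩, hh⟩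
      exact congrArg Subtype.val this
  obtain ⟨g, hg⟩ := (IsQuasiPreprimitive.isPretransitive_of_normal hN).exists_smul_eq
    (⟨x, by simpa [SubMulAction.mem_ofFixingSubgroup_iff] using hx⟩ :
      SubMulAction.ofFixingSubgroup G (T : Set α))
    ⟨y, by simpa [SubMulAction.mem_ofFixingSubgroup_iff] using hy⟩
  exact ⟨g.1.1, g.2, fun t ht => (mem_fixingSubgroup_iff G).1 g.1.2 t ht, congrArg Subtype.val hg⟩

theorem isMultiplyPretransitive [FaithfulSMul G α] (hk : 1 ≤ k) (hn : k + 2 ≤ Fintype.card α)
    (hG : IsMultiplyPreprimitive G α k) (H : Subgroup G) [H.Normal] (hH : H ≠ ⊥)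
    (hnr : ∃ a : α, stabilizer H a ≠ ⊥) : IsMultiplyPretransitive H α k := by
  classical
  have hkn : k ≤ Fintype.card α := by omega
  haveI := hG
  -- conjugating finite sets
  have hconj : ∀ U V : Finset α, U.card = V.card → U.card ≤ k → HasFix H U → HasFix H V := by
    intro U V hUV hUk ⟨h, hh, hne, hfix⟩
    haveI : IsMultiplyPretransitive G α U.card := isMultiplyPretransitive_of_le (n := k) hUk
      (by rw [Nat.card_eq_fintype_card]; exact hkn)
    let u : Fin U.card ↪ α := U.equivFin.symm.toEmbedding.trans (Function.Embedding.subtype _)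
    let v : Fin U.card ↪ α := ((finCongr hUV).trans V.equivFin.symm).toEmbedding.trans (Function.Embedding.subtype _)
    obtain ⟨g, hg⟩ := exists_smul_eq G u v
    refine ⟨g * h * g⁻¹, (inferInstance : H.Normal).conj_mem h hh g, fun e => hne (conj_eq_one_iff.1 e),
      fun t ht => ?_⟩
    have h2 : g • u ((finCongr hUV).symm (V.equivFin ⟨t, ht⟩)) = t := by
      rw [← Function.Embedding.smul_apply, hg]
      simp [v]
    have hu : u ((finCongr hUV).symm (V.equivFin ⟨t, ht⟩)) ∈ U := Subtype.prop _
    rw [mul_smul, mul_smul, inv_smul_eq_iff.2 h2.symm, hfix _ hu, h2]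
  have hall : ∀ T : Finset α, T.card < k → HasFix H T := by
    by_contra hc
    push Not at hc
    have hex : ∃ t, t < k ∧ ∃ U : Finset α, U.card = t ∧ ¬ HasFix H U := by
      obtain ⟨U, hU, hU'⟩ := hc; exact ⟨_, hU, U, rfl, hU'⟩
    set t := Nat.find hex with ht
    obtain ⟨htk, U, hUt, hUnot⟩ := Nat.find_spec hex
    rw [← ht] at htk hUt
    have hless : ∀ V : Finset α, V.card < t → HasFix H V := fun V hV => by
      by_contra h; exact Nat.find_min hex hV ⟨by omega, V, rfl, h⟩
    have heq : ∀ V : Finset α, V.card = t → ¬ HasFix H V := fun V hV h =>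
      hUnot (hconj V U (hV.trans hUt.symm) (by omega) h)
    have h0 : t ≠ 0 := by
      intro e
      obtain ⟨h, hh⟩ := Subgroup.ne_bot_iff_exists_ne_one.1 hH
      exact heq ∅ (by simp [e]) ⟨h, h.2, fun e' => hh (Subtype.ext e'), by simp⟩
    have h1 : t ≠ 1 := by
      intro e
      obtain ⟨a, ha⟩ := hnr
      obtain ⟨h, hh⟩ := Subgroup.ne_bot_iff_exists_ne_one.1 ha
      refine heq {a} (by simp [e]) ⟨(h : H), (h : H).2, fun e' => hh (Subtype.ext (Subtype.ext e')), ?_⟩
      intro x hx
      rw [Finset.mem_singleton] at hx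
      subst hx
      exact h.2
    obtain ⟨T, -, hT⟩ := Finset.exists_subset_card_eq (show t - 2 ≤ U.card by omega)
    have hout : ∀ s : Finset α, s.card ≤ 4 → ∀ m, m ≤ 3 → s.card ≤ m → ∃ x, x ∉ T ∪ s := by
      intro s _ m hm hs
      by_contra h
      push Not at h
      have := Finset.card_le_card (fun x _ => h x : Finset.univ ⊆ T ∪ s)
      have := Finset.card_union_le T s
      rw [Finset.card_univ] at *
      omega
    -- the group fixing a smaller set is elementary abelian of exponent two
    have hexp : ∀ a, a ∉ T → ∀ h ∈ H, (∀ x ∈ insert a T, h • x = x) → h ^ 2 = 1 := by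
      intro a ha h hh hfix
      set S := insert a T
      have hS : S.card = t - 1 := by rw [Finset.card_insert_of_notMem ha]; omega
      have hp := preprimitive_compl (G := G) hG hkn (T := S) (m := 2) (by norm_num) (by omega)
      let N := H.comap (fixingSubgroup G (S : Set α)).subtype
      haveI : Finite (SubMulAction.ofFixingSubgroup G (S : Set α)) :=
        Finite.of_injective Subtype.val Subtype.val_injective
      haveI : Fintype (SubMulAction.ofFixingSubgroup G (S : Set α)) := Fintype.ofFinite _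
      have hmem : ∀ x : SubMulAction.ofFixingSubgroup G (S : Set α), (x : α) ∉ S := fun x h =>
        (SubMulAction.mem_ofFixingSubgroup_iff G).1 x.2 (Finset.mem_coe.2 h)
      have htrans : IsPretransitive N (SubMulAction.ofFixingSubgroup G (S : Set α)) := ⟨fun x y => by
        obtain ⟨g, hgH, hgS, hgxy⟩ := exists_move hG hkn (by omega) (hless S (by omega)) (hmem x) (hmem y)
        exact ⟨⟨⟨g, (mem_fixingSubgroup_iff G).2 fun s hs => hgS s hs⟩, hgH⟩, Subtype.ext hgxy⟩⟩
      have hreg : ∀ x : SubMulAction.ofFixingSubgroup G (S : Set α), stabilizer N x = ⊥ := by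
        intro x
        rw [eq_bot_iff]
        intro g hg
        rw [Subgroup.mem_bot]
        by_contra hne
        refine heq (insert (x : α) S) (by rw [Finset.card_insert_of_notMem (hmem x)]; omega)
          ⟨g.1.1, g.2, fun e => hne (Subtype.ext (Subtype.ext e)), fun s hs => ?_⟩
        rcases Finset.mem_insert.1 hs with rfl | hs
        · exact congrArg Subtype.val hg
        · exact (mem_fixingSubgroup_iff G).1 g.1.2 s hs
      have hcard : Fintype.card (SubMulAction.ofFixingSubgroup G (S : Set α)) = Fintype.card α - S.card := by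
        rw [← Nat.card_eq_fintype_card, card_compl]
      rcases Cfsg.Lib.RegularNormal.double_cases N (Fintype.card_pos_iff.1 (by omega)) hp htrans hreg with h3 | h2
      · omega
      · exact congrArg Subtype.val (h2 ⟨h, (mem_fixingSubgroup_iff G).2 fun s hs => hfix s hs⟩ hh)
    obtain ⟨b, hb⟩ := hout ∅ (by simp) 0 (by norm_num) (by simp)
    obtain ⟨c, hc'⟩ := hout {b} (by simp) 1 (by norm_num) (by simp)
    obtain ⟨a, ha⟩ := hout {b, c} (Finset.card_le_two.trans (by norm_num)) 2 (by norm_num) Finset.card_le_two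
    obtain ⟨a', ha'⟩ := hout {b, c, a} (Finset.card_le_three.trans (by norm_num)) 3 le_rfl Finset.card_le_three
    simp only [Finset.mem_union, Finset.mem_insert, Finset.mem_singleton, Finset.notMem_empty, or_false,
      not_or] at hb hc' ha ha'
    have hswap : ∀ x, x ∉ T → x ≠ b → x ≠ c →
        ∃ s ∈ H, (∀ y ∈ insert x T, s • y = y) ∧ s • b = c ∧ s • c = b := by
      intro x hx hxb hxc
      have hcard : (insert x T).card = t - 1 := by rw [Finset.card_insert_of_notMem hx]; omega
      obtain ⟨s, hs, hfix, hbc⟩ := exists_move hG hkn (by omega) (hless (insert x T) (by omega))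
        (x := b) (y := c) (by simp [Ne.symm hxb, hb]) (by simp [Ne.symm hxc, hc'.1])
      refine ⟨s, hs, hfix, hbc, ?_⟩
      rw [← hbc, ← mul_smul, ← sq, hexp x hx s hs hfix, one_smul]
    obtain ⟨s, hs, hsfix, hsb, hsc⟩ := hswap a ha.1 ha.2.1 ha.2.2
    obtain ⟨s', hs', hs'fix, hs'b, hs'c⟩ := hswap a' ha'.1 ha'.2.1 ha'.2.2.1
    have hcard : ∀ u v, u ≠ v → u ∉ T → v ∉ T → (insert u (insert v T)).card = t := fun u v huv hu hv => by
      rw [Finset.card_insert_of_notMem (by simp [huv, hu]), Finset.card_insert_of_notMem hv]; omega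
    have heq' : s'⁻¹ * s = 1 := by
      by_contra hne
      refine heq _ (hcard b c (Ne.symm hc'.2) hb hc'.1) ⟨s'⁻¹ * s, H.mul_mem (H.inv_mem hs') hs, hne, ?_⟩
      intro y hy
      simp only [Finset.mem_insert] at hy
      rw [mul_smul, inv_smul_eq_iff]
      rcases hy with rfl | rfl | hy
      · rw [hsb, hs'b]
      · rw [hsc, hs'c]
      · rw [hsfix y (Finset.mem_insert_of_mem hy), hs'fix y (Finset.mem_insert_of_mem hy)]
    rw [inv_mul_eq_one] at heq'
    subst heq'
    refine heq _ (hcard a a' (Ne.symm ha'.2.2.2) ha.1 ha'.1) ⟨_, hs', fun e => ?_, ?_⟩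
    · rw [e, one_smul] at hs'b; exact hc'.2 hs'b.symm
    · intro y hy
      simp only [Finset.mem_insert] at hy
      rcases hy with rfl | rfl | hy
      · exact hsfix _ (Finset.mem_insert_self _ _)
      · exact hs'fix _ (Finset.mem_insert_self _ _)
      · exact hsfix y (Finset.mem_insert_of_mem hy)
  refine Cfsg.Lib.MultiTrans.isMultiplyPretransitive_of_fixing k fun T hT x y hx hy => ?_
  obtain ⟨h, hh, hfix, hxy⟩ := exists_move hG hkn hT (hall T hT) hx hy
  exact ⟨⟨h, hh⟩, hfix, hxy⟩

end Cfsg.Lib.PermGroup.NormalPrimitive
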