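import Mathlib
import Cfsg.Agent.Lib.PermGroup.NormalPrimitive

/-! Normal subgroups of 3-transitive groups of odd degree. -/

namespace Cfsg.Agent.NormalOdd

open MulAction Pointwise

variable {G α : Type*} [Group G] [Finite G] [MulAction G α] [Fintype α] [DecidableEq α]

theorem pair_transitive (N : Subgroup G) [N.Normal]
    (h2 : ∀ {a b c d : α}, a ≠ b → c ≠ d → ∃ n : N, n • a = c ∧ n • b = d)
    (hodd : Odd (Fintype.card α))
    {b c : α} (hbc : b ≠ c)
    (hG : ∀ x y : α, x ≠ b → x ≠ c → y ≠ b → y ≠ c → ∃ g : G, g • b = b ∧ g • c = c ∧ g • x = y) :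
    ∀ x y : α, x ≠ b → x ≠ c → y ≠ b → y ≠ c → ∃ n : N, n • b = b ∧ n • c = c ∧ n • x = y := by
  classical
  haveI := Fact.mk Nat.prime_two
  let K : Subgroup N := stabilizer N b ⊓ stabilizer N c
  have hKmem : ∀ n : N, n ∈ K ↔ n • b = b ∧ n • c = c := fun n => by
    simp [K, Subgroup.mem_inf, mem_stabilizer_iff]
  let M : Subgroup N :=
    { carrier := {n | (n • b = b ∧ n • c = c) ∨ (n • b = c ∧ n • c = b)}
      one_mem' := Or.inl ⟨one_smul _ _, one_smul _ _⟩
      mul_mem' := by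
        rintro u v (hu | hu) (hv | hv)
        · exact Or.inl ⟨by rw [mul_smul, hv.1, hu.1], by rw [mul_smul, hv.2, hu.2]⟩
        · exact Or.inr ⟨by rw [mul_smul, hv.1, hu.2], by rw [mul_smul, hv.2, hu.1]⟩
        · exact Or.inr ⟨by rw [mul_smul, hv.1, hu.1], by rw [mul_smul, hv.2, hu.2]⟩
        · exact Or.inl ⟨by rw [mul_smul, hv.1, hu.2], by rw [mul_smul, hv.2, hu.1]⟩
      inv_mem' := by
        rintro u (hu | hu)
        · exact Or.inl ⟨by rw [inv_smul_eq_iff, hu.1], by rw [inv_smul_eq_iff, hu.2]⟩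
        · exact Or.inr ⟨by rw [inv_smul_eq_iff, hu.2], by rw [inv_smul_eq_iff, hu.1]⟩ }
  have hKM : K ≤ M := fun n hn => Or.inl ((hKmem n).mp hn)
  obtain ⟨s, hs1, hs2⟩ := h2 hbc hbc.symm
  have hsM : s ∈ M := Or.inr ⟨hs1, hs2⟩
  have hidx : K.relIndex M = 2 := by
    rw [Subgroup.relIndex_eq_two_iff]
    refine ⟨s, hsM, fun u hu => ?_⟩
    rw [hKmem, hKmem, mul_smul, mul_smul, hs1, hs2]
    rcases hu with ⟨h1, h1'⟩ | ⟨h1, h1'⟩
    · exact Or.inr ⟨⟨h1, h1'⟩, fun e => hbc.symm (h1'.symm.trans e.1)⟩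
    · exact Or.inl ⟨⟨h1', h1⟩, fun e => hbc.symm (h1.symm.trans e.1)⟩
  have hcardM : Nat.card M = 2 * Nat.card K := by
    rw [← Subgroup.index_mul_card (K.subgroupOf M),
      Nat.card_congr (Subgroup.subgroupOfEquivOfLe hKM).toEquiv, ← Subgroup.relIndex, hidx]
  have hv : (Nat.card M).factorization 2 = (Nat.card K).factorization 2 + 1 := by
    rw [hcardM, Nat.factorization_mul (by norm_num) Nat.card_pos.ne']
    simp [Nat.prime_two.factorization_self, add_comm]
  -- a 2-subgroup of this order fixes at most one point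
  have huniq : ∀ P : Subgroup N, Nat.card P = 2 ^ ((Nat.card K).factorization 2 + 1) →
      ∀ u w : α, (∀ p ∈ P, p • u = u) → (∀ p ∈ P, p • w = w) → u = w := by
    intro P hP u w hu hw
    by_contra hne
    obtain ⟨n, hn1, hn2⟩ := h2 hne hbc
    have hle : P.map (MulAut.conj n).toMonoidHom ≤ K := by
      rintro _ ⟨p, hp, rfl⟩
      rw [hKmem]
      simp only [MulEquiv.toMonoidHom_eq_coe, MonoidHom.coe_coe, MulAut.conj_apply, mul_smul]
      rw [← hn1, ← hn2, inv_smul_smul, inv_smul_smul, hu p hp, hw p hp]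
      exact ⟨rfl, rfl⟩
    have := Subgroup.card_dvd_of_le hle
    rw [Subgroup.card_map_of_injective (MulAut.conj n).injective, hP] at this
    exact Nat.pow_succ_factorization_not_dvd Nat.card_pos.ne' Nat.prime_two this
  obtain ⟨Q⟩ : Nonempty (Sylow 2 M) := inferInstance
  have hQcard : Nat.card ((Q : Subgroup M).map M.subtype) = 2 ^ ((Nat.card K).factorization 2 + 1) := by
    rw [Subgroup.card_map_of_injective M.subtype_injective, Q.card_eq_multiplicity, hv]
  obtain ⟨q, hqQ, hqK⟩ : ∃ q ∈ (Q : Subgroup M), (q : N) ∉ K := by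
    by_contra hall
    push Not at hall
    have : (Q : Subgroup M).map M.subtype ≤ K := by
      rintro _ ⟨q, hq, rfl⟩
      exact hall q hq
    have := Subgroup.card_dvd_of_le this
    rw [hQcard] at this
    exact Nat.pow_succ_factorization_not_dvd Nat.card_pos.ne' Nat.prime_two this
  obtain ⟨x0, hx0⟩ := Q.isPGroup'.nonempty_fixed_point_of_prime_not_dvd_card α (by
    rw [Nat.card_eq_fintype_card]
    exact fun h => Nat.not_even_iff_odd.mpr hodd (even_iff_two_dvd.mpr h))
  have hx0' : ∀ p ∈ (Q : Subgroup M), (p : N) • x0 = x0 := fun p hp => hx0 ⟨p, hp⟩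
  have hqswap : (q : N) • b = c ∧ (q : N) • c = b := q.2.resolve_left fun h => hqK ((hKmem _).mpr h)
  have hx0b : x0 ≠ b := fun e => hbc (by
    have := hx0' q hqQ
    rw [e, hqswap.1] at this
    exact this.symm)
  have hx0c : x0 ≠ c := fun e => hbc (by
    have := hx0' q hqQ
    rw [e, hqswap.2] at this
    exact this)
  have key : ∀ y : α, y ≠ b → y ≠ c → ∃ k : N, k ∈ K ∧ k • x0 = y := by
    intro y hyb hyc
    obtain ⟨g, hgb, hgc, hgy⟩ := hG x0 y hx0b hx0c hyb hyc
    let σ : N ≃* N := MulAut.conjNormal g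
    let φ : N →* N := σ.toMonoidHom
    have hφ : ∀ (n : N) (z : α), φ n • g • z = g • n • z := by
      intro n z
      show ((MulAut.conjNormal g n : N) : G) • g • z = g • ((n : G) • z)
      rw [MulAut.conjNormal_apply, ← mul_smul, inv_mul_cancel_right, mul_smul]
    let Q2' : Subgroup N := ((Q : Subgroup M).map M.subtype).map φ
    have hQ2M : Q2' ≤ M := by
      rintro _ ⟨_, ⟨p, hp, rfl⟩, rfl⟩
      have h1 := hφ (p : N) b
      have h2' := hφ (p : N) c
      rw [hgb] at h1
      rw [hgc] at h2'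
      rcases p.2 with ⟨e1, e2⟩ | ⟨e1, e2⟩
      · exact Or.inl ⟨h1.trans (by rw [e1, hgb]), h2'.trans (by rw [e2, hgc])⟩
      · exact Or.inr ⟨h1.trans (by rw [e1, hgc]), h2'.trans (by rw [e2, hgb])⟩
    have hQ2card : Nat.card Q2' = 2 ^ ((Nat.card K).factorization 2 + 1) := by
      rw [Subgroup.card_map_of_injective (f := φ) σ.injective, hQcard]
    let Q2 : Sylow 2 M := Sylow.ofCard (Q2'.subgroupOf M) (by
      rw [Nat.card_congr (Subgroup.subgroupOfEquivOfLe hQ2M).toEquiv, hQ2card, hv])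
    obtain ⟨m, hm⟩ := MulAction.exists_smul_eq M Q Q2
    have hfix2 : ∀ p ∈ Q2', p • y = y := by
      rintro _ ⟨_, ⟨p, hp, rfl⟩, rfl⟩
      rw [← hgy, hφ, show (M.subtype p) • x0 = x0 from hx0' p hp]
    have hfix1 : ∀ p ∈ Q2', p • ((m : N) • x0) = (m : N) • x0 := by
      intro p hp
      have hmem : (⟨p, hQ2M hp⟩ : M) ∈ ((m • Q : Sylow 2 M) : Subgroup M) := by
        rw [hm]
        exact hp
      rw [Sylow.coe_subgroup_smul, Subgroup.mem_pointwise_smul_iff_inv_smul_mem] at hmem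
      have h3 := hx0' _ hmem
      simp only [MulAut.smul_def, map_inv, MulAut.conj_inv_apply, Subgroup.coe_mul, Subgroup.coe_inv,
        mul_smul, inv_smul_eq_iff] at h3
      exact h3
    have hy : (m : N) • x0 = y := huniq Q2' hQ2card _ _ hfix1 hfix2
    by_cases hmK : (m : N) ∈ K
    · exact ⟨m, hmK, hy⟩
    · refine ⟨(m : N) * (q : N), ?_, by rw [mul_smul, hx0' q hqQ, hy]⟩
      have hms : (m : N) • b = c ∧ (m : N) • c = b := m.2.resolve_left fun h => hmK ((hKmem _).mpr h)
      rw [hKmem, mul_smul, mul_smul, hqswap.1, hqswap.2]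
      exact ⟨hms.2, hms.1⟩
  intro x y hxb hxc hyb hyc
  obtain ⟨k, hk, hkx⟩ := key x hxb hxc
  obtain ⟨l, hl, hly⟩ := key y hyb hyc
  have := (hKmem _).mp (K.mul_mem hl (K.inv_mem hk))
  refine ⟨l * k⁻¹, this.1, this.2, ?_⟩
  rw [← hkx, mul_smul, inv_smul_smul, hly]

theorem three_transitive [FaithfulSMul G α] (hodd : Odd (Fintype.card α)) (h5 : 5 ≤ Fintype.card α)
    (hG : IsMultiplyPretransitive G α 3) (N : Subgroup G) [N.Normal] (hN : N ≠ ⊥) :
    IsMultiplyPretransitive N α 3 := by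
  haveI := hG
  have hcard : ((2 : ℕ).succ : ℕ∞) ≤ ENat.card α := by
    rw [ENat.card_eq_coe_fintype_card]; exact_mod_cast (by omega : (2 : ℕ).succ ≤ Fintype.card α)
  have hprim : IsMultiplyPreprimitive G α 2 :=
    isMultiplyPreprimitive_of_isMultiplyPretransitive_succ G α (n := 2) hcard
  have hprim1 : IsPreprimitive G α := by
    rw [← is_one_preprimitive_iff]
    exact isMultiplyPreprimitive_of_le G α hprim (by omega)
      (by rw [ENat.card_eq_coe_fintype_card]; exact_mod_cast (by omega : 2 ≤ Fintype.card α))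
  have hfix : fixedPoints N α ≠ .univ := by
    intro e
    refine hN ((Subgroup.eq_bot_iff_forall _).mpr fun g hg => eq_of_smul_eq_smul (α := α) fun x => ?_)
    rw [one_smul]
    exact Set.eq_univ_iff_forall.1 e x ⟨g, hg⟩
  have htrans : IsPretransitive N α := IsQuasiPreprimitive.isPretransitive_of_normal hfix
  have hnr : ∃ a : α, stabilizer N a ≠ ⊥ := by
    by_contra hall
    push Not at hall
    rcases Cfsg.Lib.RegularNormal.double_cases N (Fintype.card_pos_iff.1 (by omega)) hprim htrans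
      hall with h | h
    · omega
    · haveI : Nonempty α := Fintype.card_pos_iff.1 (by omega)
      obtain ⟨m, hm⟩ := Cfsg.Lib.RegularNormal.card_eq_two_pow N htrans hall h
      rcases Nat.eq_zero_or_pos m with rfl | hm0
      · omega
      · exact Nat.not_even_iff_odd.mpr hodd (hm ▸ (Nat.even_pow.mpr ⟨even_two, hm0.ne'⟩))
  have h2N : IsMultiplyPretransitive N α 2 :=
    Cfsg.Lib.PermGroup.NormalPrimitive.isMultiplyPretransitive (by omega) (by omega) hprim N hN hnr
  rw [is_two_pretransitive_iff] at h2N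
  rw [MulAction.isMultiplyPretransitive_iff] at hG ⊢
  intro x y
  have hne : ∀ (z : Fin 3 ↪ α) {i j : Fin 3}, i ≠ j → z i ≠ z j := fun z i j h e => h (z.injective e)
  have hGp : ∀ u w : α, u ≠ y 0 → u ≠ y 1 → w ≠ y 0 → w ≠ y 1 →
      ∃ g : G, g • y 0 = y 0 ∧ g • y 1 = y 1 ∧ g • u = w := by
    intro u w hu0 hu1 hw0 hw1
    have h01 := hne y (show (0 : Fin 3) ≠ 1 by decide)
    obtain ⟨g, hg⟩ := hG
      ⟨![y 0, y 1, u], by
        intro i j h
        fin_cases i <;> fin_cases j <;> simp_all [eq_comm]⟩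
      ⟨![y 0, y 1, w], by
        intro i j h
        fin_cases i <;> fin_cases j <;> simp_all [eq_comm]⟩
    exact ⟨g, DFunLike.congr_fun hg 0, DFunLike.congr_fun hg 1, DFunLike.congr_fun hg 2⟩
  obtain ⟨n, hn0, hn1⟩ := h2N (hne x (show (0 : Fin 3) ≠ 1 by decide))
    (hne y (show (0 : Fin 3) ≠ 1 by decide))
  obtain ⟨m, hm0, hm1, hm2⟩ := pair_transitive N (fun h h' => h2N h h') hodd
    (hne y (show (0 : Fin 3) ≠ 1 by decide)) hGp (n • x 2) (y 2)
    (by rw [← hn0]; exact fun e => hne x (by decide) (MulAction.injective n e))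
    (by rw [← hn1]; exact fun e => hne x (by decide) (MulAction.injective n e))
    (hne y (by decide)) (hne y (by decide))
  refine ⟨m * n, ?_⟩
  ext i
  fin_cases i
  · show (m * n) • x 0 = y 0
    rw [mul_smul, hn0, hm0]
  · show (m * n) • x 1 = y 1
    rw [mul_smul, hn1, hm1]
  · show (m * n) • x 2 = y 2
    rw [mul_smul, hm2]

end Cfsg.Agent.NormalOdd
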