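import Mathlib
import Cfsg.Agent.S0266

/-! A 2-transitive group whose point stabilizers act as `x ↦ k²x + e` in coordinates is `PSL(2, K)`. -/

set_option autoImplicit false

namespace Cfsg.Lib.PSLCoord

open Matrix

/-- Recognition of `PSL(2, K)` from coordinates on the projective line. -/
theorem exists_iso {G Ω E K : Type*} [Group G] [MulAction G Ω] [Fintype Ω] [FaithfulSMul G Ω]
    [Field E] [Fintype E] [Field K] [Fintype K] (ρ : E ≃+* K)
    (h2 : ∀ x y z w : Ω, x ≠ y → z ≠ w → ∃ g : G, g • x = z ∧ g • y = w)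
    (a : Ω) (crd : E → Ω) (hcrda : ∀ e, crd e ≠ a) (hcrdi : Function.Injective crd)
    (hcard : Fintype.card Ω = Fintype.card E + 1)
    (htr : ∀ e : E, ∃ u : G, u • a = a ∧ ∀ e', u • crd e' = crd (e + e'))
    (hmul : ∀ k : E, k ≠ 0 → ∃ h : G, h • a = a ∧ ∀ e, h • crd e = crd (k * k * e))
    (hswap : ∃ s : G, s • a = crd 0 ∧ s • crd 0 = a ∧ ∀ e : E, e ≠ 0 → s • crd e = crd e⁻¹)
    (hm1 : IsSquare (-1 : E))
    (hD : ∀ g : G, g • a = a → g • crd 0 = crd 0 → ∃ k : E, k ≠ 0 ∧ ∀ e, g • crd e = crd (k * k * e)) :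
    Nonempty (G ≃* Matrix.ProjectiveSpecialLinearGroup (Fin 2) K) := by
  classical
  have hsurj : ∀ x : Ω, x ≠ a → ∃ e, crd e = x := by
    intro x hx
    have e1 : (Finset.univ.image crd) = Finset.univ.erase a := by
      refine Finset.eq_of_subset_of_card_le (fun w hw => ?_) ?_
      · obtain ⟨e, -, rfl⟩ := Finset.mem_image.1 hw
        exact Finset.mem_erase.2 ⟨hcrda e, Finset.mem_univ _⟩
      · rw [Finset.card_image_of_injective _ hcrdi, Finset.card_erase_of_mem (Finset.mem_univ _), Finset.card_univ,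
          Finset.card_univ]
        omega
    have hm : x ∈ Finset.univ.erase a := Finset.mem_erase.2 ⟨hx, Finset.mem_univ _⟩
    rw [← e1] at hm
    obtain ⟨e, -, he⟩ := Finset.mem_image.1 hm
    exact ⟨e, he⟩
  choose inv hinv using hsurj
  obtain ⟨s, sa, sb, s_all⟩ := hswap
  let P := Projectivization K (Fin 2 → K)
  let ψ : Ω → P := fun w => if h : w = a then Projectivization.mk K ![1, 0] (by simp)
    else Projectivization.mk K ![ρ (inv w h), 1] (by simp)
  have ψa : ψ a = Projectivization.mk K ![1, 0] (by simp) := dif_pos rfl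
  have ψe : ∀ e : E, ψ (crd e) = Projectivization.mk K ![ρ e, 1] (by simp) := fun e => by
    show dite _ _ _ = _
    rw [dif_neg (hcrda e)]
    congr
    exact hcrdi (hinv _ _)
  have ψinj : Function.Injective ψ := by
    intro v w hvw
    by_cases hv : v = a <;> by_cases hw : w = a
    · rw [hv, hw]
    · rw [hv, ψa, ← hinv w hw, ψe, Projectivization.mk_eq_mk_iff'] at hvw
      obtain ⟨k, hk⟩ := hvw
      have h0 := congrFun hk 1
      have h1 := congrFun hk 0
      simp at h0 h1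
      simp [h0] at h1
    · rw [hw, ψa, ← hinv v hv, ψe, Projectivization.mk_eq_mk_iff'] at hvw
      obtain ⟨k, hk⟩ := hvw
      have h0 := congrFun hk 1
      simp at h0
    · rw [← hinv v hv, ← hinv w hw, ψe, ψe, Projectivization.mk_eq_mk_iff'] at hvw
      obtain ⟨k, hk⟩ := hvw
      have h0 := congrFun hk 1
      have h1 := congrFun hk 0
      simp at h0 h1
      rw [h0, one_mul] at h1
      rw [← hinv v hv, ← hinv w hw, ρ.injective h1]
  have hψ : Function.Bijective ψ := ψinj.bijective_of_nat_card_le (by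
    rw [Projectivization.card_of_finrank_two K _ (Module.finrank_fin_fun K), Nat.card_eq_fintype_card,
      Nat.card_eq_fintype_card, hcard, Fintype.card_congr ρ.toEquiv])
  let Ψ : Ω ≃ P := Equiv.ofBijective ψ hψ
  let Φ : G →* Equiv.Perm P := (Ψ.permCongrHom : Equiv.Perm Ω ≃* Equiv.Perm P).toMonoidHom.comp (MulAction.toPermHom G Ω)
  have Φap : ∀ (g : G) (w : Ω), Φ g (ψ w) = ψ (g • w) := fun g w => by
    show Ψ (g • Ψ.symm (Ψ w)) = ψ (g • w)
    rw [Equiv.symm_apply_apply]; rfl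
  let S := Matrix.ProjectiveSpecialLinearGroup (Fin 2) K
  let R : S →* Equiv.Perm P := (MulAction.toPermHom (Matrix.ProjGenLinGroup (Fin 2) K) P).comp
    Matrix.ProjectiveSpecialLinearGroup.toPGL
  have Rap : ∀ (A : Matrix.SpecialLinearGroup (Fin 2) K) (v : Fin 2 → K) (hv : v ≠ 0),
      R (QuotientGroup.mk A) (Projectivization.mk K v hv) = Projectivization.mk K (Matrix.SpecialLinearGroup.toGL A • v)
        ((smul_ne_zero_iff_ne _).2 hv) := fun A v hv => Projectivization.PGL.mk_smul_mk _ hv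
  have gen : ∀ (g : G) (A : Matrix.SpecialLinearGroup (Fin 2) K),
      Projectivization.mk K (Matrix.SpecialLinearGroup.toGL A • ![(1 : K), 0]) ((smul_ne_zero_iff_ne _).2 (by simp)) = ψ (g • a) →
      (∀ e : E, Projectivization.mk K (Matrix.SpecialLinearGroup.toGL A • ![ρ e, 1]) ((smul_ne_zero_iff_ne _).2 (by simp)) = ψ (g • crd e)) →
      R (QuotientGroup.mk A) = Φ g :=
    fun g A hA hA' => Equiv.ext fun q => by
      obtain ⟨w, rfl⟩ := hψ.2 q
      rw [Φap]
      by_cases hw : w = a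
      · rw [hw, ψa]; exact (Rap A _ _).trans hA
      · rw [← hinv w hw, ψe]; exact (Rap A _ _).trans (hA' _)
  have htrans : ∀ (u : G) (e : E), u • a = a → (∀ e', u • crd e' = crd (e + e')) → Φ u ∈ R.range := by
    intro u e hu hu'
    refine ⟨QuotientGroup.mk ⟨!![1, ρ e; 0, 1], by simp [Matrix.det_fin_two]⟩, gen u _ ?_ fun e' => ?_⟩
    · rw [hu, ψa, Projectivization.mk_eq_mk_iff']
      exact ⟨1, funext fun i => by fin_cases i <;> simp [Units.smul_def, Matrix.SpecialLinearGroup.toGL]⟩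
    · rw [hu', ψe, Projectivization.mk_eq_mk_iff', map_add]
      exact ⟨1, funext fun i => by fin_cases i <;> simp [Units.smul_def, Matrix.SpecialLinearGroup.toGL, add_comm]⟩
  have hdiag : ∀ (g : G) (k : E) (hk : ρ k ≠ 0), g • a = a → (∀ e, g • crd e = crd (k * k * e)) →
      R (QuotientGroup.mk ⟨!![ρ k, 0; 0, (ρ k)⁻¹], by rw [Matrix.det_fin_two]; simp [mul_inv_cancel₀ hk]⟩) = Φ g := by
    intro g k hk hga hg
    refine gen g _ ?_ fun e => ?_
    · rw [hga, ψa, Projectivization.mk_eq_mk_iff']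
      exact ⟨ρ k, funext fun i => by fin_cases i <;> simp [Units.smul_def, Matrix.SpecialLinearGroup.toGL]⟩
    · rw [hg, ψe, Projectivization.mk_eq_mk_iff', map_mul, map_mul]
      exact ⟨(ρ k)⁻¹, funext fun i => by fin_cases i <;> simp [Units.smul_def, Matrix.SpecialLinearGroup.toGL, hk] <;> field_simp⟩
  have hS : Φ s ∈ R.range := by
    obtain ⟨i, hi⟩ : IsSquare (-1 : K) := by simpa using hm1.map ρ
    have hi0 : i ≠ 0 := fun h => by simp [h] at hi
    refine ⟨QuotientGroup.mk ⟨!![0, i; i, 0], by simp [Matrix.det_fin_two, ← hi]⟩, gen s _ ?_ fun e => ?_⟩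
    · rw [sa, ψe, Projectivization.mk_eq_mk_iff', map_zero]
      exact ⟨i, funext fun j => by fin_cases j <;> simp [Units.smul_def, Matrix.SpecialLinearGroup.toGL]⟩
    · by_cases he : e = 0
      · subst he
        rw [sb, ψa, Projectivization.mk_eq_mk_iff']
        exact ⟨i, funext fun j => by fin_cases j <;> simp [Units.smul_def, Matrix.SpecialLinearGroup.toGL]⟩
      · rw [s_all e he, ψe, Projectivization.mk_eq_mk_iff', map_inv₀]
        have hr : ρ e ≠ 0 := fun h => he (ρ.injective (h.trans (map_zero ρ).symm))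
        exact ⟨i * ρ e, funext fun j => by fin_cases j <;> simp [Units.smul_def, Matrix.SpecialLinearGroup.toGL, hr] <;> field_simp⟩
  have hstab : ∀ g : G, g • a = a → Φ g ∈ R.range := by
    intro g hg
    obtain ⟨e, he⟩ : ∃ e, crd e = g • crd 0 :=
      ⟨_, hinv _ (fun h => hcrda 0 (smul_left_cancel g (h.trans hg.symm)))⟩
    obtain ⟨u, hu, hu'⟩ := htr e
    have h0 : (u⁻¹ * g) • crd 0 = crd 0 := by
      rw [mul_smul, ← he, inv_smul_eq_iff, hu' 0, add_zero]
    have ha' : (u⁻¹ * g) • a = a := by rw [mul_smul, hg, inv_smul_eq_iff, hu]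
    obtain ⟨k, hk, hk'⟩ := hD _ ha' h0
    have hk0 : ρ k ≠ 0 := fun h => hk (ρ.injective (h.trans (map_zero ρ).symm))
    rw [show g = u * (u⁻¹ * g) by group, map_mul]
    exact R.range.mul_mem (htrans u e hu hu') ⟨_, hdiag _ k hk0 ha' hk'⟩
  have hrange : ∀ g : G, Φ g ∈ R.range := by
    intro g
    by_cases hg : g • a = a
    · exact hstab g hg
    obtain ⟨e, he⟩ : ∃ e, crd e = g • a := ⟨_, hinv _ hg⟩
    obtain ⟨u, hu, hu'⟩ := htr e
    have h1 : (s⁻¹ * (u⁻¹ * g)) • a = a := by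
      rw [mul_smul, mul_smul, ← he, inv_smul_eq_iff, inv_smul_eq_iff, sa, hu' 0, add_zero]
    rw [show g = u * (s * (s⁻¹ * (u⁻¹ * g))) by group, map_mul, map_mul]
    exact R.range.mul_mem (htrans u e hu hu') (R.range.mul_mem hS (hstab _ h1))
  have hne : ∀ x y : Ω, x ≠ y → ψ x ≠ ψ y := fun x y h e' => h (ψinj e')
  have hle : R.range ≤ Φ.range := by
    rintro _ ⟨k, rfl⟩
    obtain ⟨xa, ha'⟩ := hψ.2 (R k (ψ a))
    obtain ⟨xb, hb'⟩ := hψ.2 (R k (ψ (crd 0)))
    have hxx : xa ≠ xb := fun h => hcrda 0 (ψinj ((R k).injective (ha'.symm.trans ((congrArg ψ h).trans hb')))).symm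
    obtain ⟨g, g1, g2⟩ := h2 a (crd 0) xa xb (hcrda 0).symm hxx
    obtain ⟨k', hk'⟩ := hrange g
    suffices ∃ h : G, Φ h = R (k'⁻¹ * k) by
      obtain ⟨h, hh⟩ := this
      refine ⟨g * h, ?_⟩
      rw [map_mul, hh, ← hk', ← map_mul, mul_inv_cancel_left]
    have fa : R (k'⁻¹ * k) (ψ a) = ψ a := by
      rw [map_mul, map_inv, Equiv.Perm.mul_apply, ← ha', hk', Equiv.Perm.inv_eq_iff_eq, Φap, g1]
    have fb : R (k'⁻¹ * k) (ψ (crd 0)) = ψ (crd 0) := by
      rw [map_mul, map_inv, Equiv.Perm.mul_apply, ← hb', hk', Equiv.Perm.inv_eq_iff_eq, Φap, g2]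
    obtain ⟨A, hA⟩ := QuotientGroup.mk_surjective (k'⁻¹ * k)
    rw [← hA] at fa fb ⊢
    rw [ψa] at fa
    have fa := (Rap A _ (by simp)).symm.trans fa
    rw [Projectivization.mk_eq_mk_iff'] at fa
    rw [ψe] at fb
    have fb := (Rap A _ (by simp)).symm.trans fb
    rw [Projectivization.mk_eq_mk_iff'] at fb
    obtain ⟨α, hα⟩ := fa
    obtain ⟨β, hβ⟩ := fb
    have a10 : A 1 0 = 0 := by
      have := congrFun hα 1
      simpa [Units.smul_def, Matrix.SpecialLinearGroup.toGL] using this.symm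
    have a01 : A 0 1 = 0 := by
      have := congrFun hβ 0
      simpa [Units.smul_def, Matrix.SpecialLinearGroup.toGL] using this.symm
    have hdet := A.2
    rw [Matrix.det_fin_two] at hdet
    change A 0 0 * A 1 1 - A 0 1 * A 1 0 = 1 at hdet
    rw [a01, a10, mul_zero, sub_zero] at hdet
    have h00 : A 0 0 ≠ 0 := fun h => by rw [h, zero_mul] at hdet; exact zero_ne_one hdet
    have hk0 : ρ.symm (A 0 0) ≠ 0 := fun h => h00 (by simpa using congrArg ρ h)
    obtain ⟨h, hha, hh⟩ := hmul _ hk0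
    refine ⟨h, ?_⟩
    rw [← hdiag h (ρ.symm (A 0 0)) (by simpa using h00) hha hh]
    congr 2
    refine Subtype.ext ?_
    ext i j; fin_cases i <;> fin_cases j <;> simp [a01, a10, eq_inv_of_mul_eq_one_right hdet]
  have hR : Function.Injective R := by
    refine (injective_iff_map_eq_one R).2 fun k₀ hk => ?_
    refine (injective_iff_map_eq_one (Matrix.ProjectiveSpecialLinearGroup.toPGL (n := Fin 2) (R := K))).1
      Matrix.ProjectiveSpecialLinearGroup.toPGL_injective k₀ ?_
    set k := Matrix.ProjectiveSpecialLinearGroup.toPGL (n := Fin 2) (R := K) k₀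
    exact (Cfsg.Agent.S0266.result (F := K)).2 k (ψ a) (ψ (crd 0)) (ψ (crd 1)) (hne _ _ (hcrda 0).symm)
      (hne _ _ (hcrda 1).symm) (hne _ _ (fun h => zero_ne_one (hcrdi h)))
      (Equiv.congr_fun hk _) (Equiv.congr_fun hk _) (Equiv.congr_fun hk _)
  have hΦ : Function.Injective Φ := by
    refine (injective_iff_map_eq_one Φ).2 fun g hg => FaithfulSMul.eq_of_smul_eq_smul (α := Ω) fun w => ?_
    have := Φap g w
    rw [hg] at this
    exact (ψinj this).symm.trans (one_smul G w).symm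
  exact ⟨(MonoidHom.ofInjective hΦ).trans ((MulEquiv.subgroupCongr (le_antisymm
    (by rintro _ ⟨g, rfl⟩; exact hrange g) hle)).trans (MonoidHom.ofInjective hR).symm)⟩

end Cfsg.Lib.PSLCoord
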