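import Mathlib
import Cfsg.Agent.Lib.PermGroup.PrimeDegreeThree

/-! Subgroups of index `p` in groups of degree `p`. -/

set_option linter.unusedSectionVars false
set_option linter.style.haveILetI false

namespace Cfsg.Agent.PrimeDegreeThree

open MulAction Pointwise

variable {α : Type*} [Fintype α] [DecidableEq α] {p : ℕ} [hp : Fact p.Prime]
  (G : Subgroup (Equiv.Perm α)) [IsPretransitive G α]

theorem exists_normal_prime (hα : Fintype.card α = p) (hG : Group.IsSolvable G) :
    ∃ N : Subgroup G, N.Normal ∧ Nat.card N = p ∧ Group.IsSolvable N := by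
  classical
  haveI := hG
  obtain ⟨a₀⟩ : Nonempty α := Fintype.card_pos_iff.1 (by rw [hα]; exact hp.out.pos)
  have hGne : Nontrivial G := by
    rw [← Finite.one_lt_card_iff_nontrivial, dvd_card G hα a₀]
    exact lt_of_lt_of_le hp.out.one_lt (Nat.le_mul_of_pos_right _ Nat.card_pos)
  obtain ⟨n, hn⟩ := Group.IsSolvable.solvable (G := G)
  obtain ⟨k, hk, hkn⟩ : ∃ k, derivedSeries G k ≠ ⊥ ∧ derivedSeries G (k + 1) = ⊥ := by
    induction n with
    | zero => simp [derivedSeries_zero] at hn
    | succ n ih =>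
      by_cases h : derivedSeries G n = ⊥
      · exact ih h
      · exact ⟨n, h, hn⟩
  set A := derivedSeries G k
  have hcomm : ∀ x ∈ A, ∀ y ∈ A, x * y = y * x := by
    rw [derivedSeries_succ, Subgroup.commutator_eq_bot_iff_le_centralizer] at hkn
    intro x hx y hy
    exact (Subgroup.mem_centralizer_iff.1 (hkn hx) y hy).symm
  haveI : IsPreprimitive G α :=
    IsPreprimitive.of_prime_card (by rw [Nat.card_eq_fintype_card, hα]; exact hp.out)
  have hfix : fixedPoints A α ≠ .univ := by
    intro e
    refine hk ((Subgroup.eq_bot_iff_forall _).2 fun g hg => FaithfulSMul.eq_of_smul_eq_smul (α := α) fun x => ?_)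
    rw [one_smul]
    exact Set.eq_univ_iff_forall.1 e x ⟨g, hg⟩
  haveI htr : IsPretransitive A α := IsQuasiPreprimitive.isPretransitive_of_normal hfix
  refine ⟨A, inferInstance, ?_, Group.isSolvable_of_comm fun x y => Subtype.ext (hcomm x x.2 y y.2)⟩
  rw [← hα, ← Nat.card_eq_fintype_card]
  refine Nat.card_eq_of_bijective (fun x : A => x • a₀) ⟨fun x y h => ?_, fun z => exists_smul_eq A a₀ z⟩
  apply Subtype.ext
  apply FaithfulSMul.eq_of_smul_eq_smul (α := α)
  intro z
  obtain ⟨w, rfl⟩ := exists_smul_eq A a₀ z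
  show (x : G) • (w : G) • a₀ = (y : G) • (w : G) • a₀
  rw [← mul_smul, ← mul_smul, hcomm x x.2 w w.2, hcomm y y.2 w w.2, mul_smul, mul_smul,
    show (x : G) • a₀ = (y : G) • a₀ from h]

theorem eq_stabilizer_of_solvable (hα : Fintype.card α = p) (hG : Group.IsSolvable G) (H : Subgroup G)
    (hH : H.index = p) : ∃ a : α, H = stabilizer G a := by
  obtain ⟨a₀⟩ : Nonempty α := Fintype.card_pos_iff.1 (by rw [hα]; exact hp.out.pos)
  obtain ⟨N, hNn, hNc, hNs⟩ := exists_normal_prime G hα hG
  haveI := hNn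
  have hidx : N.index = Nat.card (stabilizer G a₀) := by
    have h := Subgroup.index_mul_card N
    rw [hNc, dvd_card G hα a₀, mul_comm] at h
    exact Nat.eq_of_mul_eq_mul_left hp.out.pos h
  have hcop : (Nat.card N).Coprime N.index := by
    rw [hNc, hp.out.coprime_iff_not_dvd, hidx]
    intro h
    apply not_sq_dvd G hα
    rw [dvd_card G hα a₀, sq]
    exact mul_dvd_mul_left p h
  have hHc : Nat.card H = N.index := by
    have h := Subgroup.index_mul_card H
    rw [hH, dvd_card G hα a₀, ← hidx] at h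
    exact Nat.eq_of_mul_eq_mul_left hp.out.pos h
  obtain ⟨n, -, hn⟩ := Cfsg.Lib.Solv.sz_conj N hcop (stabilizer G a₀) H (Or.inl hNs) hidx.symm hHc
  refine ⟨n • a₀, ?_⟩
  rw [← hn, MulAction.stabilizer_smul_eq_stabilizer_map_conj]
  rfl

set_option maxHeartbeats 800000 in
/-- No proper symmetric design has a triply transitive automorphism group. -/
theorem no_design {Q : Type*} [Fintype Q] [MulAction G Q] (hQ : Fintype.card Q = Fintype.card α)
    (h3 : IsMultiplyPretransitive G α 3) (B : Q → Finset α)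
    (hB : ∀ (g : G) q x, g • x ∈ B (g • q) ↔ x ∈ B q) {k : ℕ} (hk : ∀ q, (B q).card = k)
    (hk2 : 2 ≤ k) (hkn : k + 1 < Fintype.card α) : False := by
  classical
  haveI := h3
  have h2 : IsMultiplyPretransitive G α 2 := isMultiplyPretransitive_of_le (n := 3) (by omega)
    (by rw [Nat.card_eq_fintype_card]; omega)
  rw [is_two_pretransitive_iff] at h2
  obtain ⟨a⟩ : Nonempty α := Fintype.card_pos_iff.1 (by omega)
  let N : Finset α → ℕ := fun s => (Finset.univ.filter fun q => s ⊆ B q).card
  have hN : ∀ (g : G) (s : Finset α), N (s.image (g • ·)) = N s := by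
    intro g s
    refine (Finset.card_bij (fun q _ => g • q) ?_ (fun q _ q' _ h => MulAction.injective g h) ?_).symm
    · intro q hq
      simp only [Finset.mem_filter, Finset.mem_univ, true_and] at hq ⊢
      intro x hx
      obtain ⟨y, hy, rfl⟩ := Finset.mem_image.1 hx
      exact (hB g q y).2 (hq hy)
    · intro q hq
      refine ⟨g⁻¹ • q, ?_, smul_inv_smul g q⟩
      simp only [Finset.mem_filter, Finset.mem_univ, true_and] at hq ⊢
      intro x hx
      have := hq (Finset.mem_image_of_mem (g • ·) hx)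
      rw [← smul_inv_smul g q, hB] at this
      exact this
  -- the blocks through `a`
  set Ba := Finset.univ.filter fun q => a ∈ B q with hBa
  have hBac : Ba.card = k := by
    have hone : ∀ x : α, (Finset.univ.filter fun q => x ∈ B q).card = Ba.card := by
      intro x
      obtain ⟨g, rfl⟩ := exists_smul_eq G a x
      have := hN g {a}
      simpa [N, hBa] using this
    have h1 : ∑ x : α, (Finset.univ.filter fun q => x ∈ B q).card = ∑ q : Q, (B q).card := by
      simp only [Finset.card_filter]
      rw [Finset.sum_comm]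
      exact Finset.sum_congr rfl fun q _ => by simp
    rw [Finset.sum_congr rfl (fun x _ => hone x), Finset.sum_congr rfl (fun q _ => hk q),
      Finset.sum_const, Finset.sum_const, Finset.card_univ, Finset.card_univ, smul_eq_mul, smul_eq_mul,
      hQ] at h1
    exact Nat.eq_of_mul_eq_mul_left (by omega) h1
  -- a vector orthogonal to all of them
  let Y := {x : α // x ≠ a}
  let L : (Y → ℚ) →ₗ[ℚ] ((↥Ba) → ℚ) :=
    { toFun := fun v q => ∑ x : Y, if (x : α) ∈ B q then v x else 0
      map_add' := fun v w => by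
        funext q
        simp only [Pi.add_apply, ← Finset.sum_add_distrib]
        exact Finset.sum_congr rfl fun x _ => by split_ifs <;> simp
      map_smul' := fun r v => by
        funext q
        simp only [Pi.smul_apply, smul_eq_mul, Finset.mul_sum, RingHom.id_apply]
        exact Finset.sum_congr rfl fun x _ => by split_ifs <;> simp }
  have hYc : Fintype.card Y = Fintype.card α - 1 := by simp [Y, Fintype.card_subtype_compl]
  obtain ⟨v, hv, hv0⟩ : ∃ v, v ∈ LinearMap.ker L ∧ v ≠ 0 := by
    apply Submodule.exists_mem_ne_zero_of_ne_bot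
    intro h
    have := LinearMap.finrank_le_finrank_of_injective (LinearMap.ker_eq_bot.1 h)
    rw [Module.finrank_fintype_fun_eq_card, Module.finrank_fintype_fun_eq_card, Fintype.card_coe,
      hBac, hYc] at this
    omega
  -- constants
  obtain ⟨q0⟩ : Nonempty Q := Fintype.card_pos_iff.1 (by omega)
  obtain ⟨u, hu, w, hw, huw⟩ := Finset.one_lt_card.1 (show 1 < (B q0).card by rw [hk]; omega)
  obtain ⟨z, hz⟩ : ∃ z, z ∉ B q0 := by
    by_contra hall
    push Not at hall
    have := hk q0
    rw [Finset.eq_univ_of_forall hall, Finset.card_univ] at this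
    omega
  rw [MulAction.isMultiplyPretransitive_iff] at h3
  have htrip : ∀ x y : α, x ≠ a → y ≠ a → x ≠ y → ∃ g : G, g • u = a ∧ g • w = x ∧ g • z = y := by
    intro x y hxa hya hxy
    have huz : u ≠ z := fun e => hz (e ▸ hu)
    have hwz : w ≠ z := fun e => hz (e ▸ hw)
    obtain ⟨g, hg⟩ := h3 ⟨![u, w, z], by
        intro i j h
        fin_cases i <;> fin_cases j <;> simp_all [eq_comm]⟩
      ⟨![a, x, y], by
        intro i j h
        fin_cases i <;> fin_cases j <;> simp_all [eq_comm]⟩
    exact ⟨g, DFunLike.congr_fun hg 0, DFunLike.congr_fun hg 1, DFunLike.congr_fun hg 2⟩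
  have hd : ∀ x : Y, N {a, (x : α)} = N {u, w} := fun x => by
    obtain ⟨g, h1, h2'⟩ := h2 huw x.2.symm
    rw [← hN g {u, w}]
    simp [h1, h2']
  have ho : ∀ x y : Y, x ≠ y → N {a, (x : α), (y : α)} = N {u, w, z} := fun x y hxy => by
    obtain ⟨g, h1, h2', h3'⟩ := htrip x y x.2 y.2 (fun e => hxy (Subtype.ext e))
    rw [← hN g {u, w, z}]
    simp [h1, h2', h3']
  have hgap : N {u, w, z} < N {u, w} := by
    refine Finset.card_lt_card (Finset.ssubset_iff_of_subset ?_ |>.2 ⟨q0, ?_, ?_⟩)
    · intro q hq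
      simp only [Finset.mem_filter, Finset.mem_univ, true_and] at hq ⊢
      exact subset_trans (by intro t ht; simp at ht ⊢; tauto) hq
    · simp [Finset.insert_subset_iff, hu, hw]
    · simp [Finset.insert_subset_iff, hz]
  -- the quadratic form
  have hzero : (0 : ℚ) = ∑ x : Y, ∑ y : Y, v x * v y * (N ({a, (x : α), (y : α)}) : ℚ) := by
    have h0 : ∀ q : ↥Ba, L v q = 0 := fun q => congrFun (LinearMap.mem_ker.1 hv) q
    calc (0 : ℚ) = ∑ q : ↥Ba, (L v q) * (L v q) := by simp [h0]
      _ = ∑ q ∈ Ba, (∑ x : Y, if (x : α) ∈ B q then v x else 0) *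
            (∑ y : Y, if (y : α) ∈ B q then v y else 0) :=
          Finset.sum_coe_sort Ba (fun q => (∑ x : Y, if (x : α) ∈ B q then v x else 0) *
            (∑ y : Y, if (y : α) ∈ B q then v y else 0))
      _ = _ := by
          simp only [Finset.sum_mul_sum]
          rw [Finset.sum_comm]
          refine Finset.sum_congr rfl fun x _ => ?_
          rw [Finset.sum_comm]
          refine Finset.sum_congr rfl fun y _ => ?_
          simp only [N, Finset.card_filter, Nat.cast_sum, Finset.mul_sum, hBa, Finset.sum_filter]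
          refine Finset.sum_congr rfl fun q _ => ?_
          by_cases h1 : a ∈ B q <;> by_cases h2 : (x : α) ∈ B q <;> by_cases h3 : (y : α) ∈ B q <;>
            simp [h1, h2, h3, Finset.insert_subset_iff]
  have hsplit : ∀ x y : Y, v x * v y * (N ({a, (x : α), (y : α)}) : ℚ) =
      (if x = y then ((N {u, w} : ℚ) - N {u, w, z}) * (v x * v x) else 0) +
        (N {u, w, z} : ℚ) * (v x * v y) := by
    intro x y
    by_cases hxy : x = y
    · subst hxy
      rw [if_pos rfl, show ({a, (x : α), (x : α)} : Finset α) = {a, (x : α)} by simp, hd x]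
      ring
    · rw [if_neg hxy, ho x y hxy]
      ring
  have hdiag : ∀ x : Y, (∑ y : Y, if x = y then ((N {u, w} : ℚ) - N {u, w, z}) * (v x * v x) else 0) =
      ((N {u, w} : ℚ) - N {u, w, z}) * (v x * v x) := fun x => by
    rw [Finset.sum_eq_single x (fun y _ hy => if_neg hy.symm) (fun h => absurd (Finset.mem_univ x) h),
      if_pos rfl]
  simp only [hsplit, Finset.sum_add_distrib, hdiag, ← Finset.mul_sum] at hzero
  rw [← Finset.sum_mul] at hzero
  have hpos : 0 < ∑ x : Y, v x * v x := by
    obtain ⟨x, hx⟩ : ∃ x, v x ≠ 0 := by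
      by_contra hall
      push Not at hall
      exact hv0 (funext hall)
    exact Finset.sum_pos' (fun i _ => mul_self_nonneg _) ⟨x, Finset.mem_univ _, mul_self_pos.2 hx⟩
  have hg' : (N {u, w, z} : ℚ) < N {u, w} := by exact_mod_cast hgap
  nlinarith [mul_pos (sub_pos.2 hg') hpos, mul_nonneg (Nat.cast_nonneg (α := ℚ) (N {u, w, z}))
    (mul_self_nonneg (∑ x : Y, v x))]

theorem eq_stabilizer (hα : Fintype.card α = p) (P : Sylow p G)
    (heven : Even (Nat.card (Subgroup.normalizer ((P : Subgroup G) : Set G)))) (H : Subgroup G)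
    (hH : H.index = p) : ∃ a : α, H = stabilizer G a := by
  classical
  by_cases hG : Group.IsSolvable G
  · exact eq_stabilizer_of_solvable G hα hG H hH
  obtain ⟨a₀⟩ : Nonempty α := Fintype.card_pos_iff.1 (by rw [hα]; exact hp.out.pos)
  have hHc : Nat.card H = Nat.card (stabilizer G a₀) := by
    have h := Subgroup.index_mul_card H
    rw [hH, dvd_card G hα a₀] at h
    exact Nat.eq_of_mul_eq_mul_left hp.out.pos h
  have hfix : ∀ b : α, (∀ h ∈ H, h • b = b) → H = stabilizer G b := by
    intro b hb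
    refine Subgroup.eq_of_le_of_card_ge (fun h hh => hb h hh) (le_of_eq ?_)
    rw [hHc]
    obtain ⟨g, rfl⟩ := exists_smul_eq G a₀ b
    rw [MulAction.stabilizer_smul_eq_stabilizer_map_conj,
      Subgroup.card_map_of_injective (MulAut.conj g).injective]
  set Δ := (orbit H a₀).toFinset with hΔ
  have hΔmem : ∀ x, x ∈ Δ ↔ x ∈ orbit H a₀ := fun x => Set.mem_toFinset
  have hkdvd : Δ.card ∣ Nat.card H := by
    rw [hΔ, Set.toFinset_card, ← Nat.card_eq_fintype_card (α := orbit H a₀),
      ← Nat.card_congr (MulAction.orbitProdStabilizerEquivGroup H a₀), Nat.card_prod]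
    exact dvd_mul_right _ _
  have hklt : Δ.card < p := by
    have hle : Δ.card ≤ p := hα ▸ Finset.card_le_univ Δ
    refine lt_of_le_of_ne hle fun e => not_sq_dvd G hα ?_
    rw [dvd_card G hα a₀, sq]
    exact mul_dvd_mul_left p (hHc ▸ (e ▸ hkdvd))
  let HΔ : Subgroup G :=
    { carrier := {g | ∀ x, g • x ∈ Δ ↔ x ∈ Δ}
      one_mem' := fun x => by rw [one_smul]
      mul_mem' := fun {g h} hg hh x => by rw [mul_smul, hg, hh]
      inv_mem' := fun {g} hg x => by rw [← hg, smul_inv_smul] }
  have hle : H ≤ HΔ := by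
    intro h hh x
    simp only [hΔmem]
    constructor
    · intro hx
      have := MulAction.mem_orbit_of_mem_orbit (⟨h, hh⟩ : H)⁻¹ hx
      simpa [Subgroup.smul_def] using this
    · exact fun hx => MulAction.mem_orbit_of_mem_orbit (⟨h, hh⟩ : H) hx
  have hHΔ : HΔ = H := by
    have hd := Subgroup.index_dvd_of_le hle
    rw [hH, Nat.dvd_prime hp.out] at hd
    rcases hd with hd | hd
    · exfalso
      rw [Subgroup.index_eq_one] at hd
      obtain ⟨z, hz⟩ : ∃ z, z ∉ Δ := by
        by_contra hall
        push Not at hall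
        rw [Finset.eq_univ_of_forall hall, Finset.card_univ, hα] at hklt
        exact lt_irrefl _ hklt
      obtain ⟨g, hg⟩ := exists_smul_eq G a₀ z
      have hgm : g ∈ HΔ := hd ▸ Subgroup.mem_top g
      exact hz (hg ▸ (hgm a₀).2 ((hΔmem _).2 (mem_orbit_self _)))
    · refine (Subgroup.eq_of_le_of_card_ge hle (le_of_eq ?_)).symm
      have h1 := Subgroup.index_mul_card HΔ
      have h2 := Subgroup.index_mul_card H
      rw [hd] at h1
      rw [hH] at h2
      exact Nat.eq_of_mul_eq_mul_left hp.out.pos (h1.trans h2.symm)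
  rcases Nat.lt_or_ge Δ.card 2 with hk1 | hk2
  · refine ⟨a₀, hfix a₀ fun h hh => ?_⟩
    exact Finset.card_le_one.1 (by omega) _ ((hle hh a₀).2 ((hΔmem _).2 (mem_orbit_self _))) _
      ((hΔmem _).2 (mem_orbit_self _))
  rcases Nat.lt_or_ge (Δ.card + 1) p with hk3 | hk3
  · exfalso
    haveI : Fintype (G ⧸ H) := Fintype.ofFinite _
    let B : G ⧸ H → Finset α := fun q => Finset.univ.filter fun x => q.out⁻¹ • x ∈ Δ
    have hwd : ∀ (g : G) (x : α), (((g : G ⧸ H).out)⁻¹ • x ∈ Δ ↔ g⁻¹ • x ∈ Δ) := by
      intro g x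
      have h1 : ((g : G ⧸ H).out)⁻¹ * g ∈ HΔ := by
        rw [hHΔ]
        exact QuotientGroup.eq.1 (QuotientGroup.out_eq' (g : G ⧸ H))
      have := h1 (g⁻¹ • x)
      rwa [mul_smul, smul_inv_smul] at this
    refine no_design G (Q := G ⧸ H) ?_ (three_transitive G hα hG P heven) B ?_ (k := Δ.card) ?_ hk2
      (by rw [hα]; exact hk3)
    · rw [← Nat.card_eq_fintype_card, ← Subgroup.index, hH, hα]
    · intro g q x
      simp only [B, Finset.mem_filter, Finset.mem_univ, true_and]
      conv_lhs => rw [← QuotientGroup.out_eq' q, MulAction.Quotient.smul_coe, hwd, smul_eq_mul,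
        mul_inv_rev, mul_smul, inv_smul_smul]
    · intro q
      refine Finset.card_bij (fun x _ => q.out⁻¹ • x) (fun x hx => (Finset.mem_filter.1 hx).2)
        (fun x _ y _ h => MulAction.injective q.out⁻¹ h) (fun y hy => ⟨q.out • y, ?_, inv_smul_smul _ _⟩)
      exact Finset.mem_filter.2 ⟨Finset.mem_univ _, by rwa [inv_smul_smul]⟩
  · have hcompl : Δᶜ.card = 1 := by rw [Finset.card_compl, hα]; omega
    obtain ⟨b, hb⟩ := Finset.card_eq_one.1 hcompl
    have hbm : ∀ x, x ∉ Δ ↔ x = b := fun x => by
      rw [← Finset.mem_compl, hb, Finset.mem_singleton]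
    exact ⟨b, hfix b fun h hh => (hbm _).1 fun hx => (hbm b).2 rfl ((hle hh b).1 hx)⟩

end Cfsg.Agent.PrimeDegreeThree
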