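import Mathlib
import Cfsg.Agent.Lib.PermGroup.PermCharacter
import Cfsg.Agent.Lib.Characters.Integrality
import Cfsg.Agent.Lib.PermGroup.MultFree

/-! Self-paired suborbits and real multiplicity-free permutation characters. -/

set_option linter.unusedSectionVars false
set_option linter.style.haveILetI false

namespace Cfsg.Agent.Spherical

open MulAction Finset Cfsg Cfsg.Agent.PermCharacter
open scoped ComplexConjugate Classical

attribute [local instance 10] Classical.propDecidable

variable {G : Type*} [Group G] [Fintype G]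

/-- Sum of a function over a coset of `H`. -/
noncomputable def phi (H : Subgroup G) (χ : G → ℂ) (g : G) : ℂ := ∑ h : H, χ ((h : G) * g)

theorem phi_mul_left (H : Subgroup G) (χ : G → ℂ) {k : G} (hk : k ∈ H) (g : G) :
    phi H χ (k * g) = phi H χ g := by
  unfold phi
  conv_rhs => rw [← Equiv.sum_comp (Equiv.mulRight (⟨k, hk⟩ : H))]
  exact Finset.sum_congr rfl fun h _ => by simp [mul_assoc]

theorem phi_mul_right (H : Subgroup G) {χ : G → ℂ} (hχ : IsClassFunction G χ) {k : G} (hk : k ∈ H)
    (g : G) : phi H χ (g * k) = phi H χ g := by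
  unfold phi
  conv_rhs => rw [← Equiv.sum_comp (Equiv.mulLeft (⟨k, hk⟩ : H))]
  refine Finset.sum_congr rfl fun h _ => ?_
  simp only [Equiv.coe_mulLeft, Subgroup.coe_mul]
  rw [← hχ ((h : G) * (g * k)) k]
  congr 1
  group

theorem phi_inv (H : Subgroup G) {χ : G → ℂ} (hχ : IsCharacter G χ) (g : G) :
    phi H χ g⁻¹ = conj (phi H χ g) := by
  unfold phi
  rw [map_sum]
  conv_rhs => rw [← Equiv.sum_comp (Equiv.inv H)]
  refine Finset.sum_congr rfl fun h _ => ?_
  simp only [Equiv.inv_apply, Subgroup.coe_inv]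
  rw [← Cfsg.Lib.Characters.char_inv_eq_conj hχ,
    ← Cfsg.Lib.Characters.isClassFunction_of_isCharacter hχ ((h : G) * g⁻¹) (g⁻¹)]
  congr 1
  group

section Rank

variable {n : ℕ} (ρ : Representation ℂ G (Fin n → ℂ)) (H : Subgroup G)

/-- The averaging projection. -/
noncomputable def avg : Module.End ℂ (Fin n → ℂ) := (Nat.card H : ℂ)⁻¹ • ∑ h : H, ρ (h : G)

theorem avg_idem : IsIdempotentElem (avg ρ H) := by
  have hHne : (Nat.card H : ℂ) ≠ 0 := Nat.cast_ne_zero.mpr Nat.card_pos.ne'
  have habs : ∀ k : H, ρ (k : G) * avg ρ H = avg ρ H := by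
    intro k
    rw [avg, mul_smul_comm, Finset.mul_sum]
    congr 1
    rw [← Equiv.sum_comp (Equiv.mulLeft k) (fun h : H => ρ (h : G))]
    exact Finset.sum_congr rfl fun h _ => by simp [map_mul]
  show avg ρ H * avg ρ H = avg ρ H
  conv_lhs => arg 1; rw [avg]
  rw [smul_mul_assoc, Finset.sum_mul, Finset.sum_congr rfl (fun k _ => habs k), Finset.sum_const,
    Finset.card_univ, ← Nat.cast_smul_eq_nsmul ℂ, smul_smul, ← Nat.card_eq_fintype_card,
    inv_mul_cancel₀ hHne, one_smul]

theorem trace_avg : LinearMap.trace ℂ (Fin n → ℂ) (avg ρ H) =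
    (Nat.card H : ℂ)⁻¹ * phi H ρ.character 1 := by
  rw [avg, map_smul, map_sum, smul_eq_mul, phi]
  simp [Representation.character]

theorem trace_sandwich (g : G) : LinearMap.trace ℂ (Fin n → ℂ) (avg ρ H * ρ g) =
    (Nat.card H : ℂ)⁻¹ * phi H ρ.character g := by
  rw [avg, smul_mul_assoc, map_smul, Finset.sum_mul, map_sum, smul_eq_mul, phi]
  simp [Representation.character, map_mul]

theorem sandwich (hsmall : LinearMap.trace ℂ (Fin n → ℂ) (avg ρ H) = 0 ∨
    LinearMap.trace ℂ (Fin n → ℂ) (avg ρ H) = 1) (g y : G) :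
    ∑ h : H, ∑ h' : H, ρ.character ((h : G) * g * (h' : G) * y) =
      phi H ρ.character g * phi H ρ.character y := by
  set e := avg ρ H with he
  have hidem := avg_idem ρ H
  obtain ⟨p, hp⟩ := (LinearMap.isProj_iff_isIdempotentElem e).mpr hidem
  have htr := hp.trace
  have key : ∀ X : Module.End ℂ (Fin n → ℂ),
      e * X * e = LinearMap.trace ℂ (Fin n → ℂ) (e * X) • e := by
    intro X
    rcases hsmall with h0 | h1
    · rw [htr, Nat.cast_eq_zero, Submodule.finrank_eq_zero] at h0
      have he0 : e = 0 := LinearMap.ext fun v => by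
        have := hp.map_mem v
        rw [h0, Submodule.mem_bot] at this
        simpa using this
      simp [he0]
    · rw [htr, Nat.cast_eq_one] at h1
      obtain ⟨v, hv0, hv⟩ := finrank_eq_one_iff'.mp h1
      have hev : e (v : Fin n → ℂ) = v := hp.map_id _ v.2
      obtain ⟨μ, hμ⟩ := hv ⟨e (X (v : Fin n → ℂ)), hp.map_mem _⟩
      have hμ' : e (X (v : Fin n → ℂ)) = μ • (v : Fin n → ℂ) := (congrArg Subtype.val hμ).symm
      have h3 : e * X * e = μ • e := LinearMap.ext fun w => by
        obtain ⟨c, hc⟩ := hv ⟨e w, hp.map_mem w⟩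
        have hc' : e w = c • (v : Fin n → ℂ) := (congrArg Subtype.val hc).symm
        simp only [Module.End.mul_apply, LinearMap.smul_apply, hc', map_smul, hμ', smul_smul, mul_comm]
      have h4 : LinearMap.trace ℂ (Fin n → ℂ) (e * X) = μ := by
        have h5 := congrArg (LinearMap.trace ℂ (Fin n → ℂ)) h3
        rw [LinearMap.trace_mul_comm, ← mul_assoc, hidem.eq, map_smul, htr, h1, Nat.cast_one,
          smul_eq_mul, mul_one] at h5
        exact h5
      rw [h3, h4]
  have h6 : LinearMap.trace ℂ (Fin n → ℂ) (e * ρ g * e * ρ y) =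
      LinearMap.trace ℂ (Fin n → ℂ) (e * ρ g) * LinearMap.trace ℂ (Fin n → ℂ) (e * ρ y) := by
    rw [key, smul_mul_assoc, map_smul, smul_eq_mul]
  rw [he, trace_sandwich, trace_sandwich] at h6
  have hHne : (Nat.card H : ℂ) ≠ 0 := Nat.cast_ne_zero.mpr Nat.card_pos.ne'
  have h7 : LinearMap.trace ℂ (Fin n → ℂ) (avg ρ H * ρ g * avg ρ H * ρ y) =
      (Nat.card H : ℂ)⁻¹ * ((Nat.card H : ℂ)⁻¹ *
        ∑ h : H, ∑ h' : H, ρ.character ((h : G) * g * (h' : G) * y)) := by
    simp only [avg, smul_mul_assoc, mul_smul_comm, Finset.sum_mul, Finset.mul_sum, map_smul, map_sum,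
      smul_eq_mul, Representation.character, map_mul]
    rw [Finset.sum_comm]
  rw [h7] at h6
  field_simp at h6
  linear_combination h6

theorem convolution [ρ.IsIrreducible] {c : G → ℂ} (hc : IsClassFunction G c) (h : G) :
    ρ.character 1 * ∑ g : G, c g * ρ.character (h * g) =
      ρ.character h * ∑ g : G, c g * ρ.character g := by
  obtain ⟨z, hz⟩ := Cfsg.Lib.Characters.schur_scalar ρ (∑ g, c g • ρ g)
    (Cfsg.Lib.Characters.sum_smul_comm ρ hc)
  have h1 : ∑ g : G, c g * ρ.character g = z * ρ.character 1 := by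
    rw [← Cfsg.Lib.Characters.trace_sum_smul, hz, map_smul, smul_eq_mul, Representation.character,
      map_one]
    rfl
  have h2 : ∑ g : G, c g * ρ.character (h * g) = z * ρ.character h := by
    have : LinearMap.trace ℂ (Fin n → ℂ) (ρ h * ∑ g, c g • ρ g) =
        ∑ g : G, c g * ρ.character (h * g) := by
      simp [Finset.mul_sum, Representation.character, map_mul]
    rw [← this, hz, mul_smul_comm, map_smul, smul_eq_mul, Representation.character]
    rfl
  rw [h1, h2]
  ring

end Rank

variable {Ω : Type*} [Fintype Ω] [MulAction G Ω] [IsPretransitive G Ω]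

theorem phi_one (a : Ω) {χ : G → ℂ} (hχ : IsClassFunction G χ) :
    (Nat.card (stabilizer G a) : ℂ)⁻¹ * phi (stabilizer G a) χ 1 =
      conj (classInner (permChar G Ω) χ) := by
  rw [classInner_permChar a hχ, map_mul, map_inv₀, map_natCast, map_sum, phi]
  congr 1
  refine Finset.sum_congr (by ext; simp) fun x _ => ?_
  simp

theorem self_paired_of_real
    (h : ∀ χ : G → ℂ, Cfsg.IsIrrCharacter G χ → classInner (permChar G Ω) χ ≠ 0 →
      classInner (permChar G Ω) χ = 1 ∧ ∀ g : G, conj (χ g) = χ g) (a b : Ω) :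
    ∃ g : G, g • a = b ∧ g • b = a := by
  set H := stabilizer G a with hH
  obtain ⟨y, rfl⟩ := exists_smul_eq G a b
  let S : G → ℂ := fun g => ∑ χ : IrrCharacter G, (χ : G → ℂ) 1 *
    ∑ h : H, ∑ h' : H, (χ : G → ℂ) ((h : G) * g * (h' : G) * y⁻¹)
  have hcount : ∀ g, S g = (Nat.card G : ℂ) *
      (((univ : Finset (H × H)).filter fun p => (p.1 : G) * g * (p.2 : G) = y).card : ℂ) := by
    intro g
    simp only [S, Finset.mul_sum]
    rw [Finset.sum_comm]
    simp only [Finset.sum_comm (s := (univ : Finset (IrrCharacter G)))]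
    rw [← Finset.sum_product', ← Finset.univ_product_univ, Finset.card_filter, Nat.cast_sum,
      Finset.mul_sum]
    refine Finset.sum_congr rfl fun p _ => ?_
    rw [Cfsg.Lib.Characters.sum_degree_mul_irr]
    simp only [mul_inv_eq_one]
    split_ifs <;> simp
  have hsym : S y⁻¹ = S y := by
    refine Finset.sum_congr rfl ?_
    rintro ⟨_, n, ρ, hρ, rfl⟩ -
    congr 1
    have hcl := Cfsg.Lib.Characters.isClassFunction_of_isCharacter
      (Cfsg.Lib.Characters.isCharacter_character ρ)
    have htr := (trace_avg ρ H).trans (phi_one a hcl)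
    by_cases h0 : classInner (permChar G Ω) ρ.character = 0
    · rw [h0, map_zero] at htr
      show (∑ h : H, ∑ h' : H, ρ.character _) = ∑ h : H, ∑ h' : H, ρ.character _
      have s1 := sandwich ρ H (Or.inl htr) y⁻¹ y⁻¹
      have s2 := sandwich ρ H (Or.inl htr) y y⁻¹
      have hp : ∀ g, phi H ρ.character g = 0 := by
        intro g
        obtain ⟨p, hp⟩ := (LinearMap.isProj_iff_isIdempotentElem (avg ρ H)).mpr (avg_idem ρ H)
        rw [hp.trace, Nat.cast_eq_zero, Submodule.finrank_eq_zero] at htr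
        have he0 : avg ρ H = 0 := LinearMap.ext fun v => by
          have := hp.map_mem v
          rw [htr, Submodule.mem_bot] at this
          simpa using this
        have h2 := trace_sandwich ρ H g
        rw [he0, zero_mul, map_zero] at h2
        exact (mul_eq_zero.mp h2.symm).resolve_left
          (inv_ne_zero (Nat.cast_ne_zero.mpr Nat.card_pos.ne'))
      rw [hp, zero_mul] at s1 s2
      convert s1.trans s2.symm
    · obtain ⟨h1, hreal⟩ := h ρ.character ⟨n, ρ, hρ, rfl⟩ h0
      rw [h1, map_one] at htr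
      show (∑ h : H, ∑ h' : H, ρ.character _) = ∑ h : H, ∑ h' : H, ρ.character _
      have s1 := sandwich ρ H (Or.inr htr) y⁻¹ y⁻¹
      have s2 := sandwich ρ H (Or.inr htr) y y⁻¹
      have hr : phi H ρ.character y⁻¹ = phi H ρ.character y := by
        rw [phi_inv H (Cfsg.Lib.Characters.isCharacter_character ρ), phi, map_sum]
        exact Finset.sum_congr rfl fun x _ => hreal _
      rw [hr] at s1
      rw [hr] at s2
      convert s1.trans s2.symm
  have hpos : S y ≠ 0 := by
    rw [hcount]
    refine mul_ne_zero (Nat.cast_ne_zero.mpr Nat.card_pos.ne') (Nat.cast_ne_zero.mpr ?_)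
    exact (Finset.card_pos.mpr ⟨(1, 1), by simp⟩).ne'
  rw [← hsym, hcount, mul_ne_zero_iff, Nat.cast_ne_zero, Nat.cast_ne_zero] at hpos
  obtain ⟨⟨h₁, h₂⟩, hp⟩ := Finset.card_pos.mp (Nat.pos_of_ne_zero hpos.2)
  rw [Finset.mem_filter] at hp
  refine ⟨y * (h₁ : G)⁻¹, ?_, ?_⟩
  · rw [mul_smul, inv_smul_eq_iff.mpr (mem_stabilizer_iff.mp h₁.2).symm]
  · have h3 : y • a = (h₁ : G) • y⁻¹ • a := by
      conv_lhs => rw [← hp.2, mul_smul, mul_smul, mem_stabilizer_iff.mp h₂.2]
    conv_lhs => arg 2; rw [h3]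
    rw [mul_smul, inv_smul_smul, smul_inv_smul]

theorem real_of_self_paired (hsp : ∀ a b : Ω, ∃ g : G, g • a = b ∧ g • b = a)
    (χ : G → ℂ) (hχ : IsIrrCharacter G χ) (h0 : classInner (permChar G Ω) χ ≠ 0) :
    classInner (permChar G Ω) χ = 1 ∧ ∀ g : G, conj (χ g) = χ g := by
  refine ⟨?_, ?_⟩
  · have hcomm : ∀ S T : (Ω → ℂ) →ₗ[ℂ] (Ω → ℂ),
        (∀ g v, S (Cfsg.permRep ℂ G Ω g v) = Cfsg.permRep ℂ G Ω g (S v)) →
        (∀ g v, T (Cfsg.permRep ℂ G Ω g v) = Cfsg.permRep ℂ G Ω g (T v)) → S ∘ₗ T = T ∘ₗ S := by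
      intro S T hS hT
      have hsymm : ∀ U : (Ω → ℂ) →ₗ[ℂ] (Ω → ℂ),
          (∀ g v, U (Cfsg.permRep ℂ G Ω g v) = Cfsg.permRep ℂ G Ω g (U v)) →
          (LinearMap.toMatrix' U).transpose = LinearMap.toMatrix' U := by
        intro U hU
        ext x y
        obtain ⟨g, hgx, hgy⟩ := hsp x y
        simp only [Matrix.transpose_apply, LinearMap.toMatrix'_apply]
        have hb : ∀ z : Ω, Cfsg.permRep ℂ G Ω g (Pi.single z 1) = Pi.single (g • z) 1 := by
          intro z
          funext w
          show (Pi.single z (1 : ℂ) : Ω → ℂ) (g⁻¹ • w) = _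
          simp only [Pi.single_apply, inv_smul_eq_iff]
        have h1 := congrFun (hU g (Pi.single x 1)) x
        rw [hb, hgx] at h1
        have h2 : Cfsg.permRep ℂ G Ω g (U (Pi.single x 1)) x = U (Pi.single x 1) y := by
          show U (Pi.single x 1) (g⁻¹ • x) = _
          rw [show g⁻¹ • x = y from inv_smul_eq_iff.mpr hgy.symm]
        rw [h2] at h1
        simpa using h1.symm
      apply LinearMap.toMatrix'.injective
      rw [LinearMap.toMatrix'_comp, LinearMap.toMatrix'_comp]
      conv_rhs => rw [← hsymm T hT, ← hsymm S hS, ← Matrix.transpose_mul]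
      have := hsymm (S ∘ₗ T) (fun g v => by simp [hS, hT])
      rw [LinearMap.toMatrix'_comp] at this
      exact this.symm
    rcases Cfsg.Agent.MultFree.multFree_of_commute (Cfsg.permRep ℂ G Ω) hcomm χ hχ with h | h
    · rw [permRep_character] at h; exact absurd h h0
    · rw [permRep_character] at h; exact h
  · rcases isEmpty_or_nonempty Ω with hemp | ⟨⟨a⟩⟩
    · exfalso
      apply h0
      have : permChar G Ω = 0 := funext fun g => by simp [permChar]
      rw [this, Cfsg.Lib.Characters.classInner_zero_left]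
    obtain ⟨n, ρ, hρ, rfl⟩ := hχ
    set χ := ρ.character with hχdef
    have hchar := Cfsg.Lib.Characters.isCharacter_character ρ
    have hcl := Cfsg.Lib.Characters.isClassFunction_of_isCharacter hchar
    set H := stabilizer G a with hH
    have hreal : ∀ g, conj (phi H χ g) = phi H χ g := by
      intro g
      rw [← phi_inv H hchar]
      obtain ⟨s, hs1, hs2⟩ := hsp a (g • a)
      -- `g⁻¹` lies in the double coset of `g`
      have hk : g⁻¹ * s ∈ H := by
        rw [hH, mem_stabilizer_iff, mul_smul, hs1, inv_smul_smul]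
      have hl : s * g ∈ H := by
        rw [hH, mem_stabilizer_iff, mul_smul, hs2]
      have e : g⁻¹ = (g⁻¹ * s) * g * (s * g)⁻¹ * 1 := by group
      rw [e, mul_one, phi_mul_right H hcl (H.inv_mem hl), phi_mul_left H χ hk]
    by_contra hne
    push Not at hne
    obtain ⟨g0, hg0⟩ := hne
    have hirr : IsIrrCharacter G χ := ⟨n, ρ, hρ, rfl⟩
    let ψ : G → ℂ := fun g => conj (χ g)
    have hψcl : IsClassFunction G ψ := fun g h => congrArg conj (hcl g h)
    have horth : ∑ g : G, ψ g * ψ g = 0 := by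
      have hψirr : IsIrrCharacter G ψ := by
        rw [Cfsg.Lib.Characters.isIrrCharacter_iff]
        refine ⟨Cfsg.Lib.Characters.isCharacter_conj hchar, ?_⟩
        have h1 := Cfsg.Lib.Characters.classInner_irr_self hirr
        have : classInner ψ ψ = conj (classInner χ χ) := by
          simp [classInner, ψ, map_sum]
        rw [this, h1, map_one]
      have hne' : ψ ≠ χ := fun e => hg0 (congrFun e g0)
      have h2 := Cfsg.Lib.Characters.classInner_irr_ne hψirr hirr hne'
      rw [classInner, mul_eq_zero, or_iff_right (inv_ne_zero (Nat.cast_ne_zero.mpr Nat.card_pos.ne'))] at h2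
      exact h2
    -- evaluate `∑ g, conj χ g * phi g` in two ways
    have hd : χ 1 ≠ 0 := hirr.one_ne_zero
    have h3 : χ 1 * ∑ g : G, ψ g * phi H χ g = (∑ h : H, χ (h : G)) * ∑ g : G, ψ g * χ g := by
      simp only [phi]
      rw [Finset.sum_congr rfl (fun g _ => Finset.mul_sum _ _ (ψ g)), Finset.sum_comm, Finset.mul_sum,
        Finset.sum_mul]
      refine Finset.sum_congr rfl fun h _ => ?_
      haveI := hρ
      exact convolution ρ hψcl (h : G)
    have h4 : ∑ g : G, ψ g * phi H χ g = 0 := by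
      conv_lhs => arg 2; intro g; rw [← hreal g, phi, map_sum]
      simp only [Finset.mul_sum]
      rw [Finset.sum_comm]
      refine Finset.sum_eq_zero fun h _ => ?_
      have hd' : χ 1 ≠ 0 := hd
      haveI := hρ
      have h5 := convolution ρ hcl (h : G)
      have h6 : ∑ g : G, χ g * χ g = 0 := by
        have := congrArg conj horth
        simpa [ψ, map_sum] using this
      rw [h6, mul_zero, mul_eq_zero, or_iff_right hd'] at h5
      have h7 := congrArg conj h5
      simpa [ψ, map_sum] using h7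
    rw [h4, mul_zero, eq_comm, mul_eq_zero] at h3
    have h8 : ∑ h : H, χ (h : G) ≠ 0 := by
      intro e
      apply h0
      rw [classInner_permChar a hcl, ← map_sum, e, map_zero, mul_zero]
    have h9 : ∑ g : G, ψ g * χ g ≠ 0 := by
      intro e
      have h1 := Cfsg.Lib.Characters.classInner_irr_self hirr
      rw [classInner, Finset.sum_congr rfl (fun g _ => mul_comm (χ g) (conj (χ g))), e, mul_zero] at h1
      exact zero_ne_one h1
    exact h3.elim h8 h9

end Cfsg.Agent.Spherical
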