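import Mathlib
import Cfsg.Agent.Lib.PermGroup.Spherical
import Cfsg.Agent.Lib.PermGroup.EqualDegrees

/-! Rank three groups of degree `2m` with constituents of degrees `m - 1` and `m`. -/

set_option linter.unusedSectionVars false
set_option linter.style.haveILetI false

namespace Cfsg.Agent.RankThree

open MulAction Finset Cfsg Cfsg.Agent.PermCharacter Cfsg.Agent.Spherical
open scoped ComplexConjugate Classical

attribute [local instance 10] Classical.propDecidable

variable {G : Type*} [Group G] [Fintype G]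

/-- A sum over a bi-invariant set squares correctly on a character of multiplicity at most one. -/
theorem sq_sum {n : ℕ} (ρ : Representation ℂ G (Fin n → ℂ)) (H : Subgroup G)
    (hsmall : LinearMap.trace ℂ (Fin n → ℂ) (avg ρ H) = 0 ∨
      LinearMap.trace ℂ (Fin n → ℂ) (avg ρ H) = 1)
    (D : Finset G) (hD : ∀ h ∈ H, ∀ g, (h * g ∈ D ↔ g ∈ D) ∧ (g * h ∈ D ↔ g ∈ D)) :
    (∑ g ∈ D, ρ.character g) * (∑ g ∈ D, ρ.character g) =
      ∑ g ∈ D, ∑ y ∈ D, ρ.character (g * y) := by
  have hphi : ∑ g ∈ D, phi H ρ.character g = (Nat.card H : ℂ) * ∑ g ∈ D, ρ.character g := by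
    unfold phi
    rw [Finset.sum_comm, Nat.card_eq_fintype_card, ← nsmul_eq_mul, ← Finset.card_univ,
      ← Finset.sum_const]
    refine Finset.sum_congr rfl fun h _ => ?_
    exact Finset.sum_nbij' (fun g => (h : G) * g) (fun g => (h : G)⁻¹ * g)
      (fun g hg => (hD h h.2 g).1.mpr hg) (fun g hg => (hD _ (H.inv_mem h.2) g).1.mpr hg)
      (fun g _ => inv_mul_cancel_left _ _) (fun g _ => mul_inv_cancel_left _ _) (fun g _ => rfl)
  have hkey : ∀ h h' : H, ∑ g ∈ D, ∑ y ∈ D, ρ.character ((h : G) * g * (h' : G) * y) =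
      ∑ g ∈ D, ∑ y ∈ D, ρ.character (g * y) := by
    intro h h'
    exact Finset.sum_nbij' (fun g => (h : G) * g * (h' : G))
      (fun g => (h : G)⁻¹ * g * (h' : G)⁻¹)
      (fun g hg => (hD h' h'.2 _).2.mpr ((hD h h.2 g).1.mpr hg))
      (fun g hg => (hD _ (H.inv_mem h'.2) _).2.mpr ((hD _ (H.inv_mem h.2) g).1.mpr hg))
      (fun g _ => by group) (fun g _ => by group) (fun g _ => rfl)
  have h1 : (∑ g ∈ D, phi H ρ.character g) * (∑ y ∈ D, phi H ρ.character y) =
      (Nat.card H : ℂ) * ((Nat.card H : ℂ) * ∑ g ∈ D, ∑ y ∈ D, ρ.character (g * y)) := by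
    rw [Finset.sum_mul_sum]
    simp only [← sandwich ρ H hsmall]
    calc ∑ g ∈ D, ∑ y ∈ D, ∑ h : H, ∑ h' : H, ρ.character ((h : G) * g * (h' : G) * y)
        = ∑ h : H, ∑ h' : H, ∑ g ∈ D, ∑ y ∈ D, ρ.character ((h : G) * g * (h' : G) * y) := by
          rw [Finset.sum_congr rfl (fun g _ => Finset.sum_comm), Finset.sum_comm]
          refine Finset.sum_congr rfl fun h _ => ?_
          rw [Finset.sum_congr rfl (fun g _ => Finset.sum_comm), Finset.sum_comm]
      _ = _ := by
          simp only [hkey, Finset.sum_const, Finset.card_univ, nsmul_eq_mul, Nat.card_eq_fintype_card]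
  rw [hphi] at h1
  have hHne : (Nat.card H : ℂ) ≠ 0 := Nat.cast_ne_zero.mpr Nat.card_pos.ne'
  apply mul_left_cancel₀ hHne
  apply mul_left_cancel₀ hHne
  rw [← h1]
  ring

variable {Ω : Type*} [Fintype Ω] [MulAction G Ω] [IsPretransitive G Ω]

theorem card_carry (a b : Ω) :
    ((univ : Finset G).filter fun g => g • a ∈ orbit (stabilizer G a) b).card =
      Nat.card (orbit (stabilizer G a) b) * Nat.card (stabilizer G a) := by
  have h := classInner_orbFun_one (G := G) a b
  rw [classInner_orbFun a b (fun _ _ => rfl)] at h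
  simp only [map_one, Finset.sum_boole] at h
  rw [inv_mul_eq_iff_eq_mul₀ (Nat.cast_ne_zero.mpr Nat.card_pos.ne'), ← Nat.cast_mul, Nat.cast_inj] at h
  rw [h, mul_comm]

theorem arith {m k : ℕ} (hm : 2 ≤ m) (hk0 : 0 < k) (hk1 : k ≠ 1) (hk2 : k + 2 < 2 * m) (s t : ℤ)
    (z : ℤ) (hz : (k : ℤ) + s + t = z + k)
    (h1 : (k : ℤ) + (m - 1) * s + m * t = 0)
    (h2 : (k : ℤ) ^ 2 + (m - 1) * s ^ 2 + m * t ^ 2 = 2 * m * k) :
    ∃ a : ℕ, 0 < a ∧ m = 2 * a ^ 2 + 2 * a + 1 ∧
      (k = a * (2 * a + 1) ∨ k = (a + 1) * (2 * a + 1)) := by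
  have hs : s = k + m * z := by
    have : t = z - s := by linarith
    subst this
    linarith
  have ht : t = -k - ((m : ℤ) - 1) * z := by linarith
  subst hs ht
  have hm0 : (m : ℤ) ≠ 0 := by omega
  have h3 : 2 * (k : ℤ) ^ 2 + k * (4 * ((m : ℤ) - 1) * z - 2) +
      z ^ 2 * ((m : ℤ) - 1) * (2 * m - 1) = 0 := by
    apply mul_left_cancel₀ hm0
    linear_combination h2
  set e : ℤ := 2 * k + 2 * ((m : ℤ) - 1) * z - 1 with he
  have h4 : e ^ 2 = 1 - 2 * ((m : ℤ) - 1) * (z * (z + 2)) := by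
    rw [he]; linear_combination 2 * h3
  have hzc : z = 0 ∨ z = -1 ∨ z = -2 := by
    by_contra hc
    push Not at hc
    have h5 : 1 ≤ z * (z + 2) := by
      rcases lt_or_ge z 0 with hneg | hpos
      · nlinarith [show z ≤ -3 by omega]
      · nlinarith [show 1 ≤ z by omega]
    have h6 : 2 * ((m : ℤ) - 1) ≥ 2 := by omega
    nlinarith [sq_nonneg e]
  rcases hzc with rfl | rfl | rfl
  · exfalso
    have h5 : (k : ℤ) * (k - 1) = 0 := by nlinarith
    rcases mul_eq_zero.mp h5 with h | h <;> omega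
  · have h5 : e ^ 2 = 2 * (m : ℤ) - 1 := by rw [h4]; ring
    obtain ⟨e', he'⟩ : ∃ e' : ℕ, (e.natAbs) = e' := ⟨_, rfl⟩
    have hsq : (e' : ℤ) ^ 2 = 2 * (m : ℤ) - 1 := by rw [← he', Int.natAbs_sq, h5]
    have hodd : Odd e' := by
      rcases Nat.even_or_odd e' with ⟨c, hc⟩ | ho
      · exfalso
        subst hc
        push_cast at hsq
        have : (m : ℤ) * 2 = 2 * (2 * (c : ℤ) ^ 2) + 1 := by linarith
        omega
      · exact ho
    obtain ⟨a, rfl⟩ := hodd
    push_cast at hsq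
    have hma : (m : ℤ) = 2 * (a : ℤ) ^ 2 + 2 * a + 1 := by linarith
    refine ⟨a, ?_, by exact_mod_cast hma, ?_⟩
    · rcases Nat.eq_zero_or_pos a with rfl | h
      · simp at hma; omega
      · exact h
    · rcases Int.natAbs_eq e with h | h <;> rw [he'] at h <;> rw [he, hma] at h <;> push_cast at h
      · right
        have : (k : ℤ) = (((a + 1) * (2 * a + 1) : ℕ) : ℤ) := by push_cast; linarith
        exact_mod_cast this
      · left
        have : (k : ℤ) = ((a * (2 * a + 1) : ℕ) : ℤ) := by push_cast; linarith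
        exact_mod_cast this
  · exfalso
    have h5 : ((k : ℤ) - 2 * ((m : ℤ) - 1)) * ((k : ℤ) - (2 * m - 1)) = 0 := by nlinarith
    rcases mul_eq_zero.mp h5 with h | h <;> omega

theorem main (hprim : IsPreprimitive G Ω) {m : ℕ} (hm : Fintype.card Ω = 2 * m) (a₀ : Ω)
    (hrank : Nat.card (orbitRel.Quotient (stabilizer G a₀) Ω) = 3) (χ₁ χ₂ : G → ℂ)
    (h₁ : IsIrrCharacter G χ₁) (h₂ : IsIrrCharacter G χ₂)
    (hπ : permChar G Ω = fun g => 1 + χ₁ g + χ₂ g) (hd₁ : χ₁ 1 = (m : ℂ) - 1) (hd₂ : χ₂ 1 = m) :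
    ∃ a : ℕ, 0 < a ∧ m = 2 * a ^ 2 + 2 * a + 1 ∧ ∀ b : Ω, b ≠ a₀ →
      Nat.card (orbit (stabilizer G a₀) b) = a * (2 * a + 1) ∨
      Nat.card (orbit (stabilizer G a₀) b) = (a + 1) * (2 * a + 1) := by
  set H := stabilizer G a₀ with hH
  -- orbit sizes
  let Q := orbitRel.Quotient H Ω
  let q0 : Q := Quotient.mk'' a₀
  have hn3 : 3 ≤ Fintype.card Ω := by
    rw [← hrank, ← Nat.card_eq_fintype_card (α := Ω)]
    exact Nat.card_le_card_of_surjective Quotient.mk'' Quotient.mk''_surjective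
  have hm2 : 2 ≤ m := by omega
  have hsize : Fintype.card Ω =
      1 + ∑ q ∈ (univ : Finset Q).erase q0, Nat.card (orbitRel.Quotient.orbit q) := by
    rw [← Nat.card_eq_fintype_card, Nat.card_congr (MulAction.selfEquivSigmaOrbits' H Ω),
      Nat.card_sigma, ← Finset.add_sum_erase _ _ (Finset.mem_univ q0)]
    congr 1
    rw [orbitRel.Quotient.orbit_mk, Nat.card_eq_one_iff_unique]
    refine ⟨⟨?_⟩, ⟨⟨a₀, mem_orbit_self a₀⟩⟩⟩
    rintro ⟨_, h, rfl⟩ ⟨_, h', rfl⟩
    exact Subtype.ext (h.2.trans h'.2.symm)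
  have hcard2 : ((univ : Finset Q).erase q0).card = 2 := by
    rw [Finset.card_erase_of_mem (Finset.mem_univ _), Finset.card_univ, ← Nat.card_eq_fintype_card]
    show Nat.card (orbitRel.Quotient H Ω) - 1 = 2
    rw [hrank]
  have hmk : ∀ b : Ω, b ≠ a₀ → (Quotient.mk'' b : Q) ∈ (univ : Finset Q).erase q0 := by
    intro b hb
    refine Finset.mem_erase.mpr ⟨fun e => hb ?_, Finset.mem_univ _⟩
    obtain ⟨h, hh⟩ : b ∈ orbit H a₀ := orbitRel_apply.mp (Quotient.eq''.mp e)
    exact hh.symm.trans h.2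
  -- no suborbit of size one
  have hne1 : ∀ b : Ω, b ≠ a₀ → Nat.card (orbit H b) ≠ 1 := by
    intro b hb h1
    haveI : Nontrivial Ω := ⟨⟨b, a₀, hb⟩⟩
    obtain ⟨hss, -⟩ := Nat.card_eq_one_iff_unique.mp h1
    have hHb : H ≤ stabilizer G b := fun h hh =>
      congrArg Subtype.val (hss.elim ⟨h • b, ⟨⟨h, hh⟩, rfl⟩⟩ ⟨b, mem_orbit_self b⟩)
    obtain ⟨g, hg⟩ := exists_smul_eq G a₀ b
    have heq : stabilizer G b = H := by
      have hco := MulAction.IsPreprimitive.isCoatom_stabilizer_of_isPreprimitive (G := G) a₀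
      rcases eq_or_lt_of_le hHb with h | h
      · exact h.symm
      · exfalso
        have := hco.2 _ h
        obtain ⟨k, hk⟩ := exists_smul_eq G b a₀
        have hk' : k ∈ stabilizer G b := this ▸ Subgroup.mem_top k
        exact hb ((mem_stabilizer_iff.mp hk').symm.trans hk)
    have hgn : g ∈ Subgroup.normalizer (H : Set G) := by
      rw [Subgroup.mem_normalizer_iff]
      intro x
      constructor
      · intro hx
        rw [← heq, mem_stabilizer_iff, ← hg, mul_smul, mul_smul, inv_smul_smul,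
          mem_stabilizer_iff.mp hx]
      · intro hx
        rw [← heq, mem_stabilizer_iff, ← hg, mul_smul, mul_smul, inv_smul_smul, smul_left_cancel_iff] at hx
        exact hx
    have hgH : g ∉ H := fun hh => hb (hg.symm.trans hh)
    have hnorm : Subgroup.normalizer (H : Set G) = ⊤ :=
      (MulAction.IsPreprimitive.isCoatom_stabilizer_of_isPreprimitive (G := G) a₀).2 _
        (lt_of_le_of_ne Subgroup.le_normalizer fun e =>
          hgH (Eq.mp (congrArg (fun S : Subgroup G => g ∈ S) e.symm) hgn))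
    have hall : ∀ x : Ω, ∀ h ∈ H, h • x = x := by
      intro x h hh
      obtain ⟨k, rfl⟩ := exists_smul_eq G a₀ x
      have hk : k ∈ Subgroup.normalizer (H : Set G) := hnorm ▸ Subgroup.mem_top k
      have : k⁻¹ * h * k ∈ H := (Subgroup.mem_normalizer_iff''.mp hk h).mp hh
      rw [mem_stabilizer_iff, mul_smul, mul_smul, inv_smul_eq_iff] at this
      exact this
    have hone : ∀ q ∈ (univ : Finset Q).erase q0, Nat.card (orbitRel.Quotient.orbit q) = 1 := by
      intro q _
      obtain ⟨x, rfl⟩ := Quotient.mk''_surjective q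
      rw [orbitRel.Quotient.orbit_mk, Nat.card_eq_one_iff_unique]
      refine ⟨⟨?_⟩, ⟨⟨x, mem_orbit_self x⟩⟩⟩
      rintro ⟨_, h, rfl⟩ ⟨_, h', rfl⟩
      exact Subtype.ext ((hall x h h.2).trans (hall x h' h'.2).symm)
    rw [Finset.sum_congr rfl hone, Finset.sum_const, hcard2] at hsize
    simp at hsize
    omega
  -- characters
  set one : IrrCharacter G := ⟨fun _ => 1, Cfsg.Lib.Characters.isIrrCharacter_one⟩ with hone
  set c1 : IrrCharacter G := ⟨χ₁, h₁⟩ with hc1
  set c2 : IrrCharacter G := ⟨χ₂, h₂⟩ with hc2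
  have h12 : c1 ≠ c2 := fun e => by
    have := congrFun (congrArg Subtype.val e) 1
    change χ₁ 1 = χ₂ 1 at this
    rw [hd₁, hd₂] at this
    simp at this
  have hpi : permChar G Ω = (one : G → ℂ) + (c1 : G → ℂ) + (c2 : G → ℂ) := hπ
  have h21 : c2 ≠ one := fun e => by
    have := congrFun (congrArg Subtype.val e) 1
    change χ₂ 1 = 1 at this
    rw [hd₂, Nat.cast_eq_one] at this
    omega
  have h11 : c1 ≠ one := fun e => by
    have hs := classInner_permChar_one (G := G) a₀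
    rw [show (fun _ : G => (1 : ℂ)) = (one : G → ℂ) from rfl, hpi,
      Cfsg.Lib.Characters.classInner_add_left, Cfsg.Lib.Characters.classInner_add_left, e,
      Cfsg.Lib.Characters.classInner_irr_self one.2,
      Cfsg.Lib.Characters.classInner_irr_ne c2.2 one.2 (fun e' => h21 (Subtype.ext e'))] at hs
    norm_num at hs
  have hmult : ∀ χ : IrrCharacter G, classInner (permChar G Ω) (χ : G → ℂ) =
      if χ = one ∨ χ = c1 ∨ χ = c2 then 1 else 0 := by
    intro χ
    rw [hpi, Cfsg.Lib.Characters.classInner_add_left, Cfsg.Lib.Characters.classInner_add_left,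
      Cfsg.Lib.Characters.classInner_irr one.2 χ.2, Cfsg.Lib.Characters.classInner_irr c1.2 χ.2,
      Cfsg.Lib.Characters.classInner_irr c2.2 χ.2]
    simp only [Subtype.coe_inj]
    by_cases e0 : χ = one
    · subst e0; simp [h11, h21]
    by_cases e1 : χ = c1
    · subst e1; simp [h11.symm, h12.symm]
    by_cases e2 : χ = c2
    · subst e2; simp [h21.symm, h12]
    simp [e0, e1, e2, Ne.symm e0, Ne.symm e1, Ne.symm e2]
  -- a suborbit
  suffices key : ∀ b : Ω, b ≠ a₀ → ∃ a : ℕ, 0 < a ∧ m = 2 * a ^ 2 + 2 * a + 1 ∧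
      (Nat.card (orbit H b) = a * (2 * a + 1) ∨ Nat.card (orbit H b) = (a + 1) * (2 * a + 1)) by
    obtain ⟨b0, hb0⟩ := Fintype.exists_ne_of_one_lt_card (by omega) a₀
    obtain ⟨a, ha, hma, -⟩ := key b0 hb0
    refine ⟨a, ha, hma, fun b hb => ?_⟩
    obtain ⟨a', -, hma', h⟩ := key b hb
    have : a' = a := by nlinarith
    subst this
    exact h
  intro b hb
  set k := Nat.card (orbit H b) with hk
  haveI : Nonempty (orbit H b) := ⟨⟨b, mem_orbit_self b⟩⟩
  have hk0 : 0 < k := Nat.card_pos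
  -- the other suborbit
  obtain ⟨q1, q2, hq12, hqs⟩ := Finset.card_eq_two.mp hcard2
  rw [hqs, Finset.sum_pair hq12] at hsize
  obtain ⟨q', hq', hq'ne, hsize'⟩ : ∃ q' : Q, q' ∈ (univ : Finset Q).erase q0 ∧
      q' ≠ Quotient.mk'' b ∧ Fintype.card Ω = 1 + k + Nat.card (orbitRel.Quotient.orbit q') := by
    have hbq := hmk b hb
    rw [hqs, Finset.mem_insert, Finset.mem_singleton] at hbq
    rcases hbq with e | e
    · refine ⟨q2, by rw [hqs]; simp, e ▸ hq12.symm, ?_⟩
      rw [hsize, ← e, orbitRel.Quotient.orbit_mk, ← hk, add_assoc]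
    · refine ⟨q1, by rw [hqs]; simp, e ▸ hq12, ?_⟩
      rw [hsize, ← e, orbitRel.Quotient.orbit_mk, ← hk, add_assoc, add_comm k]
  obtain ⟨b', rfl⟩ := Quotient.mk''_surjective q'
  rw [orbitRel.Quotient.orbit_mk] at hsize'
  have hb' : b' ≠ a₀ := fun e => Finset.ne_of_mem_erase hq' (by rw [e])
  have hk2 : k + 2 < 2 * m := by
    have h := hne1 b' hb'
    haveI : Nonempty (orbit H b') := ⟨⟨b', mem_orbit_self b'⟩⟩
    have : 0 < Nat.card (orbit H b') := Nat.card_pos
    omega
  -- the double coset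
  set D := (univ : Finset G).filter fun g => g • a₀ ∈ orbit H b with hD
  have hDb : ∀ h ∈ H, ∀ g, (h * g ∈ D ↔ g ∈ D) ∧ (g * h ∈ D ↔ g ∈ D) := by
    intro h hh g
    simp only [hD, Finset.mem_filter, Finset.mem_univ, true_and, mul_smul, mem_stabilizer_iff.mp hh,
      and_true]
    constructor
    · intro hm
      have := MulAction.mem_orbit_of_mem_orbit (⟨h, hh⟩ : H)⁻¹ hm
      simpa [Subgroup.smul_def] using this
    · intro hm
      exact MulAction.mem_orbit_of_mem_orbit (⟨h, hh⟩ : H) hm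
  have hinv : ∀ g, g ∈ D → g⁻¹ ∈ D := by
    intro g hg
    set c := g⁻¹ • a₀ with hc
    have hca : c ≠ a₀ := by
      intro e
      rw [hc, inv_smul_eq_iff] at e
      rw [hD, Finset.mem_filter, ← e] at hg
      obtain ⟨h, hh⟩ := hg.2
      exact hb (MulAction.injective (h : G) ((show (h : G) • b = a₀ from hh).trans h.2.symm))
    by_contra hgn
    -- then the inverse set lies in the other suborbit
    have hcb : orbit H c = orbit H b' := by
      have hc' := hmk c hca
      rw [hqs, Finset.mem_insert, Finset.mem_singleton] at hc'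
      have hb2 := hmk b hb
      rw [hqs, Finset.mem_insert, Finset.mem_singleton] at hb2
      have hb3 := hq'
      rw [hqs, Finset.mem_insert, Finset.mem_singleton] at hb3
      have hcne : (Quotient.mk'' c : Q) ≠ Quotient.mk'' b := fun e => hgn (by
        rw [hD, Finset.mem_filter]
        exact ⟨Finset.mem_univ _, orbitRel_apply.mp (Quotient.eq''.mp e)⟩)
      have : (Quotient.mk'' c : Q) = Quotient.mk'' b' := by
        rcases hc' with e | e <;> rcases hb2 with e' | e' <;> rcases hb3 with e'' | e'' <;>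
          simp_all
      rw [← orbitRel.Quotient.orbit_mk (G := H) c, this, orbitRel.Quotient.orbit_mk]
    have hgD : g • a₀ ∈ orbit H b := (Finset.mem_filter.mp hg).2
    have hsub : D.image (fun x => x⁻¹) ⊆ univ.filter fun x => x • a₀ ∈ orbit H b' := by
      intro x hx
      obtain ⟨y, hy, rfl⟩ := Finset.mem_image.mp hx
      have hy' : y • a₀ ∈ orbit H b := (Finset.mem_filter.mp hy).2
      rw [← MulAction.orbit_eq_iff.mpr hgD] at hy'
      obtain ⟨h, hh⟩ := hy'
      refine Finset.mem_filter.mpr ⟨Finset.mem_univ _, ?_⟩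
      rw [← hcb]
      have hmem : g⁻¹ * (h : G)⁻¹ * y ∈ H := by
        show (g⁻¹ * (h : G)⁻¹ * y) • a₀ = a₀
        rw [mul_smul, mul_smul, ← show (h : G) • g • a₀ = y • a₀ from hh,
          inv_smul_smul, inv_smul_smul]
      refine ⟨⟨(g⁻¹ * (h : G)⁻¹ * y)⁻¹, H.inv_mem hmem⟩, ?_⟩
      show (g⁻¹ * (h : G)⁻¹ * y)⁻¹ • c = y⁻¹ • a₀
      simp only [hc, mul_inv_rev, inv_inv, mul_smul, smul_inv_smul, mem_stabilizer_iff.mp h.2]
    have h5 := Finset.card_le_card hsub
    rw [Finset.card_image_of_injective _ inv_injective, card_carry, card_carry] at h5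
    have h7 : k ≤ Nat.card (orbit H b') := Nat.le_of_mul_le_mul_right h5 Nat.card_pos
    -- and conversely
    have hsub' : (univ.filter fun x : G => x • a₀ ∈ orbit H b') ⊆ D.image (fun x => x⁻¹) := by
      intro x hx
      refine Finset.mem_image.mpr ⟨x⁻¹, ?_, inv_inv x⟩
      have hx' : x • a₀ ∈ orbit H c := hcb ▸ (Finset.mem_filter.mp hx).2
      obtain ⟨h, hh⟩ := hx'
      refine Finset.mem_filter.mpr ⟨Finset.mem_univ _, ?_⟩
      rw [← MulAction.orbit_eq_iff.mpr hgD]
      have hmem : g * (h : G)⁻¹ * x ∈ H := by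
        show (g * (h : G)⁻¹ * x) • a₀ = a₀
        rw [mul_smul, mul_smul, ← show (h : G) • c = x • a₀ from hh,
          inv_smul_smul, hc, smul_inv_smul]
      refine ⟨⟨(g * (h : G)⁻¹ * x)⁻¹, H.inv_mem hmem⟩, ?_⟩
      show (g * (h : G)⁻¹ * x)⁻¹ • g • a₀ = x⁻¹ • a₀
      simp only [mul_inv_rev, inv_inv, mul_smul, inv_smul_smul, mem_stabilizer_iff.mp h.2]
    have h8 := Finset.card_le_card hsub'
    rw [Finset.card_image_of_injective _ inv_injective, card_carry, card_carry] at h8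
    have h9 : Nat.card (orbit H b') ≤ k := Nat.le_of_mul_le_mul_right h8 Nat.card_pos
    omega
  -- coefficients
  have hHne : (Nat.card H : ℂ) ≠ 0 := Nat.cast_ne_zero.mpr Nat.card_pos.ne'
  let sc : IrrCharacter G → ℂ := fun χ => (Nat.card H : ℂ)⁻¹ * ∑ g ∈ D, (χ : G → ℂ) g
  have hsc : ∀ χ : IrrCharacter G, sc χ = classInner (orbFun G a₀ b) (χ : G → ℂ) := by
    intro χ
    rw [classInner_orbFun a₀ b χ.2.isClassFunction, ← Finset.sum_filter]
    show (Nat.card H : ℂ)⁻¹ * ∑ g ∈ D, (χ : G → ℂ) g = _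
    congr 1
    refine Finset.sum_nbij' (fun g => g⁻¹) (fun g => g⁻¹) (fun g hg => hinv g hg)
      (fun g hg => hinv g hg) (fun g _ => inv_inv g) (fun g _ => inv_inv g) fun g _ => ?_
    rw [Cfsg.Lib.Characters.char_inv_eq_conj χ.2.isCharacter, Complex.conj_conj]
  have hint : ∀ χ : IrrCharacter G, IsIntegral ℤ (sc χ) ∧
      (classInner (permChar G Ω) (χ : G → ℂ) = 0 → sc χ = 0) := by
    intro χ
    rw [hsc]
    obtain ⟨_, n, ρ, hρ, rfl⟩ := χ
    exact coeff_orbFun ρ a₀ b
  have h3sum : ∀ F : IrrCharacter G → ℂ, (∀ χ, χ ≠ one → χ ≠ c1 → χ ≠ c2 → F χ = 0) →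
      ∑ χ, F χ = F one + F c1 + F c2 := by
    intro F hF
    rw [← Finset.sum_subset (Finset.subset_univ ({one, c1, c2} : Finset (IrrCharacter G)))
      (fun χ _ hχ => by
        simp only [Finset.mem_insert, Finset.mem_singleton, not_or] at hχ
        exact hF χ hχ.1 hχ.2.1 hχ.2.2),
      Finset.sum_insert (by simp [h11.symm, h21.symm]), Finset.sum_insert (by simp [h12]),
      Finset.sum_singleton, add_assoc]
  have hzero : ∀ χ, χ ≠ one → χ ≠ c1 → χ ≠ c2 → sc χ = 0 := fun χ e0 e1 e2 =>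
    (hint χ).2 (by rw [hmult]; simp [e0, e1, e2])
  have hs0 : sc one = k := by
    rw [hsc]; exact classInner_orbFun_one a₀ b
  -- first relation
  have r1 : (k : ℂ) + ((m : ℂ) - 1) * sc c1 + (m : ℂ) * sc c2 = 0 := by
    have h := congrFun (Cfsg.Lib.Characters.classFunction_expansion
      (isClassFunction_orbFun (G := G) a₀ b)) 1
    simp only [Finset.sum_apply, Pi.smul_apply, smul_eq_mul, ← hsc] at h
    have hc1' : orbFun G a₀ b 1 = 0 := by
      rw [orbFun, Nat.cast_eq_zero, Nat.card_eq_zero]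
      left
      refine ⟨fun ⟨x, g, h1, h2⟩ => hb ?_⟩
      rw [one_smul, ← h1] at h2
      exact MulAction.injective g h2
    rw [hc1', h3sum _ (fun χ e0 e1 e2 => by rw [hzero χ e0 e1 e2, zero_mul]), hs0,
      show (one : G → ℂ) 1 = 1 from rfl, show (c1 : G → ℂ) 1 = (m : ℂ) - 1 from hd₁,
      show (c2 : G → ℂ) 1 = (m : ℂ) from hd₂] at h
    rw [h]; ring
  -- second relation
  have r2 : (k : ℂ) ^ 2 + ((m : ℂ) - 1) * sc c1 ^ 2 + (m : ℂ) * sc c2 ^ 2 = 2 * m * k := by
    have hsq : ∀ χ : IrrCharacter G, (∑ g ∈ D, (χ : G → ℂ) g) * (∑ g ∈ D, (χ : G → ℂ) g) =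
        ∑ g ∈ D, ∑ y ∈ D, (χ : G → ℂ) (g * y) := by
      rintro ⟨_, n, ρ, hρ, rfl⟩
      have hcl := Cfsg.Lib.Characters.isClassFunction_of_isCharacter
        (Cfsg.Lib.Characters.isCharacter_character ρ)
      have htr := (trace_avg ρ H).trans (phi_one a₀ hcl)
      have hm' := hmult ⟨ρ.character, n, ρ, hρ, rfl⟩
      change classInner (permChar G Ω) ρ.character = _ at hm'
      refine sq_sum ρ H ?_ D hDb
      rw [htr, hm']
      split_ifs
      · exact Or.inr (map_one _)
      · exact Or.inl (map_zero _)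
    have hDcard : (D.card : ℂ) = (k : ℂ) * (Nat.card H : ℂ) := by
      rw [hD, card_carry, Nat.cast_mul]
    have hsumsq : ∑ χ : IrrCharacter G, (χ : G → ℂ) 1 * (sc χ) ^ 2 = (2 * m : ℂ) * k := by
      have e : ∀ χ : IrrCharacter G, (χ : G → ℂ) 1 * (sc χ) ^ 2 = (Nat.card H : ℂ)⁻¹ ^ 2 *
          ∑ g ∈ D, ∑ y ∈ D, (χ : G → ℂ) 1 * (χ : G → ℂ) (g * y) := fun χ => by
        simp only [sc, ← Finset.mul_sum, ← hsq χ]
        ring
      rw [Finset.sum_congr rfl (fun χ _ => e χ), ← Finset.mul_sum, Finset.sum_comm]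
      rw [Finset.sum_congr rfl (fun g _ => Finset.sum_comm)]
      simp only [Cfsg.Lib.Characters.sum_degree_mul_irr]
      have hinner : ∀ g ∈ D, ∑ y ∈ D, (if g * y = 1 then (Nat.card G : ℂ) else 0) = Nat.card G := by
        intro g hg
        rw [Finset.sum_eq_single g⁻¹]
        · simp
        · intro y _ hy
          rw [if_neg (fun e => hy (eq_inv_of_mul_eq_one_right e))]
        · intro h; exact absurd (hinv g hg) h
      rw [Finset.sum_congr rfl hinner, Finset.sum_const, nsmul_eq_mul, hDcard,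
        card_G (G := G) (Ω := Ω) a₀, Nat.cast_mul, hm]
      push_cast
      rw [← hH]
      field_simp
    rw [h3sum _ (fun χ e0 e1 e2 => by rw [hzero χ e0 e1 e2]; ring), hs0,
      show (one : G → ℂ) 1 = 1 from rfl, show (c1 : G → ℂ) 1 = (m : ℂ) - 1 from hd₁,
      show (c2 : G → ℂ) 1 = (m : ℂ) from hd₂] at hsumsq
    linear_combination hsumsq
  -- the sum of the two coefficients is a rational integer
  have hsum : ∃ z : ℤ, sc c1 + sc c2 = z := by
    have h := classInner_orbFun a₀ b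
      (Cfsg.Lib.Characters.isClassFunction_of_isCharacter (isCharacter_permChar (G := G) (Ω := Ω)))
    have h' : classInner (orbFun G a₀ b) (permChar G Ω) = (k : ℂ) + sc c1 + sc c2 := by
      rw [hpi, Cfsg.Lib.Characters.classInner_add_right, Cfsg.Lib.Characters.classInner_add_right,
        ← hsc, ← hsc, ← hsc, hs0]
    rw [h'] at h
    let N : ℕ := ∑ g ∈ D, Nat.card (fixedBy Ω g)
    have hN : sc c1 + sc c2 = (((N : ℚ) / (Nat.card H : ℚ) - (k : ℚ) : ℚ) : ℂ) := by
      push_cast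
      have : (k : ℂ) + sc c1 + sc c2 = (N : ℂ) / (Nat.card H : ℂ) := by
        rw [h, ← Finset.sum_filter, div_eq_inv_mul]
        congr 1
        simp only [N, Nat.cast_sum, permChar, map_natCast]
        rfl
      linear_combination this
    have hi : IsIntegral ℤ (sc c1 + sc c2) := (hint c1).1.add (hint c2).1
    rw [hN] at hi ⊢
    exact Cfsg.Lib.Characters.exists_int_of_isIntegral hi
  obtain ⟨z, hz⟩ := hsum
  have hs1 : sc c1 = (((k : ℤ) + m * z : ℤ) : ℂ) := by
    push_cast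
    linear_combination -r1 + (m : ℂ) * hz
  have hs2 : sc c2 = ((z - ((k : ℤ) + m * z) : ℤ) : ℂ) := by
    push_cast
    linear_combination hz - hs1.trans (by push_cast; ring : (((k : ℤ) + m * z : ℤ) : ℂ) = (k : ℂ) + m * z)
  rw [hs1, hs2] at r1 r2
  refine arith hm2 hk0 (hne1 b hb) hk2 ((k : ℤ) + m * z) (z - ((k : ℤ) + m * z)) z (by ring) ?_ ?_
  · exact_mod_cast r1
  · exact_mod_cast r2

end Cfsg.Agent.RankThree
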