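import Mathlib

/-! Abelian normal subgroups of linear groups that are regular on the nonzero vectors. -/

set_option autoImplicit false

namespace Cfsg.Lib.SharpLinear

variable {p : ℕ} [Fact p.Prime] {V : Type*} [AddCommGroup V] [Module (ZMod p) V] [Finite V]
  (H : Subgroup (V ≃ₗ[ZMod p] V))

/-- An element of `H` as an endomorphism. -/
def toEnd : H →* Module.End (ZMod p) V where
  toFun h := (h : V ≃ₗ[ZMod p] V).toLinearMap
  map_one' := rfl
  map_mul' _ _ := rfl

/-- The algebra generated by `A`. -/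
def alg (A : Subgroup H) : Subalgebra (ZMod p) (Module.End (ZMod p) V) :=
  Algebra.adjoin (ZMod p) ((toEnd H) '' (A : Set H))

theorem mem_alg {A : Subgroup H} {a : H} (ha : a ∈ A) : toEnd H a ∈ alg H A :=
  Algebra.subset_adjoin ⟨a, ha, rfl⟩

theorem alg_comm {A : Subgroup H} (hAc : IsMulCommutative A) {x y : Module.End (ZMod p) V}
    (hx : x ∈ alg H A) (hy : y ∈ alg H A) : x * y = y * x := by
  have base : ∀ a ∈ A, ∀ b ∈ A, toEnd H a * toEnd H b = toEnd H b * toEnd H a := fun a ha b hb => by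
    rw [← map_mul, ← map_mul]
    exact congrArg _ (congrArg Subtype.val (hAc.is_comm.comm (⟨a, ha⟩ : A) ⟨b, hb⟩))
  have h1 : ∀ a ∈ A, Commute (toEnd H a) y := by
    intro a ha
    refine Algebra.adjoin_induction ?_ ?_ ?_ ?_ hy
    · rintro _ ⟨b, hb, rfl⟩; exact base a ha b hb
    · exact fun r => (Algebra.commutes r _).symm
    · exact fun u v _ _ hu hv => hu.add_right hv
    · exact fun u v _ _ hu hv => hu.mul_right hv
  refine Algebra.adjoin_induction ?_ ?_ ?_ ?_ hx
  · rintro _ ⟨a, ha, rfl⟩; exact (h1 a ha).eq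
  · exact fun r => Algebra.commutes r y
  · exact fun u v _ _ hu hv => ((show Commute u y from hu).add_left hv).eq
  · exact fun u v _ _ hu hv => ((show Commute u y from hu).mul_left hv).eq

theorem alg_mapsTo {A : Subgroup H} (W : Submodule (ZMod p) V)
    (hW : ∀ a ∈ A, ∀ v ∈ W, ((a : H) : V ≃ₗ[ZMod p] V) v ∈ W) {x : Module.End (ZMod p) V} (hx : x ∈ alg H A) :
    ∀ v ∈ W, x v ∈ W := by
  refine Algebra.adjoin_induction (p := fun x _ => ∀ v ∈ W, x v ∈ W) ?_ ?_ ?_ ?_ hx
  · rintro _ ⟨a, ha, rfl⟩ v hv; exact hW a ha v hv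
  · intro r v hv; rw [Module.algebraMap_end_apply]; exact W.smul_mem r hv
  · intro u v _ _ hu hv w hw; exact W.add_mem (hu w hw) (hv w hw)
  · intro u v _ _ hu hv w hw; exact hu _ (hv w hw)

variable (hreg : ∀ v w : V, v ≠ 0 → w ≠ 0 → ∃! h : H, (h : V ≃ₗ[ZMod p] V) v = w) [Nontrivial V]
include hreg

theorem card_H : Nat.card H = Nat.card V - 1 := by
  classical
  haveI := Fintype.ofFinite V
  obtain ⟨v₀, hv₀⟩ := exists_ne (0 : V)
  let f : H → {w : V // w ≠ 0} := fun h => ⟨(h : V ≃ₗ[ZMod p] V) v₀, fun e => hv₀ ((LinearEquiv.map_eq_zero_iff _).1 e)⟩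
  have hf : Function.Bijective f := by
    refine ⟨fun a b e => (hreg v₀ (f a).1 hv₀ (f a).2).unique rfl (congrArg Subtype.val e).symm, fun w => ?_⟩
    obtain ⟨h, hh, -⟩ := hreg v₀ w.1 hv₀ w.2
    exact ⟨h, Subtype.ext hh⟩
  rw [Nat.card_eq_of_bijective f hf, Nat.card_eq_fintype_card, Nat.card_eq_fintype_card,
    Fintype.card_subtype_compl, Fintype.card_subtype_eq]

theorem pow_card {A : Subgroup H} (hAc : IsMulCommutative A) {x : Module.End (ZMod p) V} (hx : x ∈ alg H A) :
    x ^ Nat.card V = x := by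
  obtain ⟨n, hn⟩ : ∃ n, Nat.card V = p ^ n := ⟨_, by
    rw [Module.natCard_eq_pow_finrank (K := ZMod p), Nat.card_zmod]⟩
  haveI : CharP (Module.End (ZMod p) V) p :=
    charP_of_injective_algebraMap' (ZMod p) p
  rw [hn]
  refine Algebra.adjoin_induction (p := fun x _ => x ^ p ^ n = x) ?_ ?_ ?_ ?_ hx
  · rintro _ ⟨a, -, rfl⟩
    have h1 : a ^ Nat.card H = 1 := pow_card_eq_one'
    rw [← map_pow]
    congr 1
    have : p ^ n = Nat.card H + 1 := by
      have := card_H H hreg
      have hp : 0 < p ^ n := pow_pos (Fact.out : p.Prime).pos n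
      omega
    rw [this, pow_succ, h1, one_mul]
  · intro r; rw [← map_pow, ZMod.pow_card_pow]
  · intro u v hu hv e1 e2
    rw [add_pow_char_pow_of_commute p n (show Commute u v from alg_comm H hAc hu hv), e1, e2]
  · intro u v hu hv e1 e2
    rw [(show Commute u v from alg_comm H hAc hu hv).mul_pow, e1, e2]

/-- The algebra generated by `A` has no zero divisors. -/
theorem ker_eq_zero {A : Subgroup H} (hAn : A.Normal) (hAc : IsMulCommutative A)
    {x : Module.End (ZMod p) V} (hx : x ∈ alg H A) (hx0 : x ≠ 0) :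
    x ^ (Nat.card V - 1) = 1 := by
  classical
  have hq : 2 ≤ Nat.card V := Finite.one_lt_card
  haveI : Finite (Module.End (ZMod p) V) := Finite.of_injective _ DFunLike.coe_injective
  let S : Set (Module.End (ZMod p) V) := {e | e ∈ alg H A ∧ e * e = e ∧ e ≠ 0}
  have hSfin : S.Finite := Set.toFinite _
  have hone : (1 : Module.End (ZMod p) V) ∈ S := ⟨one_mem _, one_mul 1, one_ne_zero⟩
  obtain ⟨e₀, ⟨he₀, hee, hne⟩, hmin⟩ := S.exists_min_image (fun e => Nat.card (LinearMap.range e)) hSfin ⟨1, hone⟩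
  have atom : ∀ f ∈ S, e₀ * f = f → f = e₀ := by
    rintro f ⟨hf, hff, hf0⟩ hef
    have hle : LinearMap.range f ≤ LinearMap.range e₀ := by
      rintro _ ⟨w, rfl⟩
      exact ⟨f w, LinearMap.congr_fun hef w⟩
    have heq : LinearMap.range f = LinearMap.range e₀ := by
      refine SetLike.coe_injective (Set.eq_of_subset_of_ncard_le hle ?_ (Set.toFinite _))
      exact hmin f ⟨hf, hff, hf0⟩
    refine LinearMap.ext fun w => ?_
    obtain ⟨u, hu⟩ := heq.ge ⟨w, rfl⟩
    have h1 : f (e₀ w) = e₀ w := by rw [← hu]; exact LinearMap.congr_fun hff u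
    rw [alg_comm H hAc he₀ hf] at hef
    exact (LinearMap.congr_fun hef w).symm.trans h1
  -- conjugates
  let ψ : H → Module.End (ZMod p) V → Module.End (ZMod p) V := fun h y => toEnd H h * y * toEnd H h⁻¹
  have hinv : ∀ h : H, toEnd H h⁻¹ * toEnd H h = 1 := fun h => by rw [← map_mul, inv_mul_cancel, map_one]
  have hψmul : ∀ h y y', ψ h (y * y') = ψ h y * ψ h y' := fun h y y' => by
    simp only [ψ]
    calc toEnd H h * (y * y') * toEnd H h⁻¹ = toEnd H h * y * (toEnd H h⁻¹ * toEnd H h) * y' * toEnd H h⁻¹ := by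
          rw [hinv, mul_one]; simp only [mul_assoc]
      _ = _ := by simp only [mul_assoc]
  have hψψ : ∀ h y, ψ h⁻¹ (ψ h y) = y := fun h y => by
    simp only [ψ, inv_inv]
    calc toEnd H h⁻¹ * (toEnd H h * y * toEnd H h⁻¹) * toEnd H h
        = (toEnd H h⁻¹ * toEnd H h) * y * (toEnd H h⁻¹ * toEnd H h) := by simp only [mul_assoc]
      _ = y := by rw [hinv, one_mul, mul_one]
  have hψalg : ∀ h, ∀ y ∈ alg H A, ψ h y ∈ alg H A := by
    intro h y hy
    refine Algebra.adjoin_induction (p := fun y _ => ψ h y ∈ alg H A) ?_ ?_ ?_ ?_ hy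
    · rintro _ ⟨a, ha, rfl⟩
      simp only [ψ, ← map_mul]
      exact mem_alg H (hAn.conj_mem a ha h)
    · intro r
      have : ψ h (algebraMap (ZMod p) _ r) = algebraMap (ZMod p) _ r := by
        simp only [ψ]
        rw [← Algebra.commutes r (toEnd H h), mul_assoc, ← map_mul, mul_inv_cancel, map_one, mul_one]
      rw [this]; exact Subalgebra.algebraMap_mem _ r
    · intro u v _ _ h1 h2
      simpa [ψ, mul_add, add_mul] using add_mem h1 h2
    · intro u v _ _ h1 h2
      rw [hψmul]; exact mul_mem h1 h2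
  have dichot : ∀ h : H, e₀ * ψ h e₀ = 0 ∨ ψ h e₀ = e₀ := by
    intro h
    by_cases h0 : e₀ * ψ h e₀ = 0
    · exact Or.inl h0
    right
    have hf : ψ h e₀ ∈ alg H A := hψalg h _ he₀
    have hff : ψ h e₀ * ψ h e₀ = ψ h e₀ := by rw [← hψmul, hee]
    set f := ψ h e₀
    have hg : e₀ * f ∈ S := ⟨mul_mem he₀ hf, by
      rw [mul_assoc, ← mul_assoc f e₀ f, ← alg_comm H hAc he₀ hf, mul_assoc e₀ f f, hff, ← mul_assoc, hee], h0⟩
    have h1 : e₀ * f = e₀ := atom _ hg (by rw [← mul_assoc, hee])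
    have hg' : ψ h⁻¹ (e₀ * f) ∈ S := by
      refine ⟨hψalg _ _ hg.1, by rw [← hψmul, hg.2.1], fun e => h0 ?_⟩
      have := congrArg (ψ h) e
      have h2 := hψψ h⁻¹ (e₀ * f)
      rw [inv_inv] at h2
      rw [h2] at this
      simpa [ψ] using this
    have h2 := atom _ hg' (by
      rw [show e₀ * ψ h⁻¹ (e₀ * f) = ψ h⁻¹ f * ψ h⁻¹ (e₀ * f) by rw [hψψ], ← hψmul]
      congr 1
      rw [← mul_assoc, ← alg_comm H hAc he₀ hf, mul_assoc, hff])
    have h3 := congrArg (ψ h) h2
    have h4 := hψψ h⁻¹ (e₀ * f)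
    rw [inv_inv] at h4
    rw [h4, h1] at h3
    exact h3.symm
  obtain ⟨v, hv0, hv⟩ : ∃ v, v ≠ 0 ∧ e₀ v = v := by
    obtain ⟨w, hw⟩ : ∃ w, e₀ w ≠ 0 := by
      by_contra hc
      push Not at hc
      exact hne (LinearMap.ext hc)
    exact ⟨e₀ w, hw, LinearMap.congr_fun hee w⟩
  have fixer : ∀ u : V, u ≠ 0 → ∃ h : H, ψ h e₀ u = u := by
    intro u hu
    obtain ⟨h, hh, -⟩ := hreg v u hv0 hu
    refine ⟨h, ?_⟩
    show toEnd H h (e₀ (toEnd H h⁻¹ u)) = u
    have : toEnd H h⁻¹ u = v := by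
      rw [← hh]
      exact LinearMap.congr_fun (hinv h) v
    rw [this, hv]; exact hh
  have he1 : e₀ = 1 := by
    refine LinearMap.ext fun u => ?_
    by_contra hu
    set w := u - e₀ u with hwdef
    have hw0 : w ≠ 0 := fun e => hu (sub_eq_zero.1 e).symm
    have hew : e₀ w = 0 := by
      rw [hwdef, map_sub, show e₀ (e₀ u) = e₀ u from LinearMap.congr_fun hee u, sub_self]
    have hvw : v + w ≠ 0 := fun e => hv0 (by
      have := congrArg e₀ e
      rwa [map_add, hv, hew, add_zero, map_zero] at this)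
    obtain ⟨g, hg⟩ := fixer (v + w) hvw
    rcases dichot g with h0 | h0
    · have := congrArg e₀ hg
      rw [show e₀ (ψ g e₀ (v + w)) = (e₀ * ψ g e₀) (v + w) from rfl, h0, LinearMap.zero_apply, map_add, hv, hew,
        add_zero] at this
      exact hv0 this.symm
    · rw [h0, map_add, hv, hew, add_zero] at hg
      exact hw0 (left_eq_add.1 hg)
  have hpow : ∀ k, x ^ k ∈ alg H A := fun k => pow_mem hx k
  have hxq := pow_card H hreg hAc hx
  have hE : x ^ (Nat.card V - 1) ∈ S := by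
    refine ⟨hpow _, ?_, fun e => hx0 ?_⟩
    · rw [← pow_add, show Nat.card V - 1 + (Nat.card V - 1) = Nat.card V + (Nat.card V - 2) by omega, pow_add, hxq,
        ← pow_succ', show Nat.card V - 2 + 1 = Nat.card V - 1 by omega]
    · rw [← hxq, show Nat.card V = Nat.card V - 1 + 1 by omega, pow_succ, e, zero_mul]
  rw [atom _ hE (by rw [he1, one_mul]), he1]

/-- The algebra generated by `A` is a finite field. -/
theorem facts {A : Subgroup H} (hAn : A.Normal) (hAc : IsMulCommutative A) :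
    IsCyclic A ∧ Nat.card A ∣ Nat.card (alg H A) - 1 ∧
      ∀ x ∈ alg H A, x ≠ 0 → ∃ y ∈ alg H A, y * x = 1 := by
  classical
  have hq : 2 ≤ Nat.card V := Finite.one_lt_card
  have hinv : ∀ x ∈ alg H A, x ≠ 0 → ∃ y ∈ alg H A, y * x = 1 := fun x hx hx0 =>
    ⟨x ^ (Nat.card V - 2), pow_mem hx _, by
      rw [← pow_succ, show Nat.card V - 2 + 1 = Nat.card V - 1 by omega, ker_eq_zero H hreg hAn hAc hx hx0]⟩
  letI : CommRing (alg H A) := { (inferInstance : Ring (alg H A)) with
    mul_comm := fun a b => Subtype.ext (alg_comm H hAc a.2 b.2) }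
  haveI : NoZeroDivisors (alg H A) := ⟨fun {a b} e => by
    by_contra hc
    push Not at hc
    obtain ⟨y, -, hy⟩ := hinv a.1 a.2 (fun e' => hc.1 (Subtype.ext e'))
    have h1 := congrArg (fun t => y * t) (congrArg Subtype.val e)
    simp only [MulMemClass.coe_mul, ZeroMemClass.coe_zero, mul_zero, ← mul_assoc, hy, one_mul] at h1
    exact hc.2 (Subtype.ext h1)⟩
  haveI : IsDomain (alg H A) := NoZeroDivisors.to_isDomain _
  let f : A →* alg H A :=
    { toFun := fun a => ⟨toEnd H a.1, mem_alg H a.2⟩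
      map_one' := Subtype.ext (map_one (toEnd H))
      map_mul' := fun a b => Subtype.ext (map_mul (toEnd H) a.1 b.1) }
  have hf : Function.Injective f := fun a b e => Subtype.ext (Subtype.ext (LinearEquiv.ext fun v =>
    LinearMap.congr_fun (congrArg Subtype.val e) v))
  haveI : Finite (Module.End (ZMod p) V) := Finite.of_injective _ DFunLike.coe_injective
  haveI : Finite (V ≃ₗ[ZMod p] V) := Finite.of_injective _ DFunLike.coe_injective
  haveI : Fintype (alg H A) := Fintype.ofFinite _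
  letI : Field (alg H A) := Fintype.fieldOfDomain _
  refine ⟨isCyclic_of_subgroup_isDomain f hf, ?_, hinv⟩
  have h := Subgroup.card_dvd_of_injective f.toHomUnits (fun a b e => hf (congrArg Units.val e))
  rwa [Nat.card_units] at h

end Cfsg.Lib.SharpLinear
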