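import Mathlib
import Cfsg.Agent.S0266

/-! Sharply 3-transitive groups of odd degree are `PGL(2, 2^f)`. -/

set_option autoImplicit false

namespace Cfsg.Lib.SharpThreeOdd

open MulAction

set_option maxHeartbeats 1600000 in
/-- A sharply 3-transitive group of odd degree is `PGL(2, 2^f)` on the projective line. -/
theorem exists_iso {G Ω : Type*} [Group G] [MulAction G Ω] [Fintype Ω] [FaithfulSMul G Ω]
    (h3 : IsMultiplyPretransitive G Ω 3)
    (hsharp : ∀ g : G, ∀ x y z : Ω, x ≠ y → x ≠ z → y ≠ z → g • x = x → g • y = y → g • z = z → g = 1)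
    (hodd : Odd (Fintype.card Ω)) (hcard : 3 ≤ Fintype.card Ω) :
    ∃ f : ℕ, 1 ≤ f ∧ Fintype.card Ω = 2 ^ f + 1 ∧ ∃ (F : Type) (_ : Field F) (_ : Fintype F),
      Fintype.card F = 2 ^ f ∧ Nonempty (G ≃* Matrix.ProjGenLinGroup (Fin 2) F) := by
  classical
  haveI : Finite G := Finite.of_injective (fun g : G => MulAction.toPerm (α := G) (β := Ω) g) MulAction.toPerm_injective
  haveI := Fintype.ofFinite G
  have h3' : ∀ x y z x' y' z' : Ω, x ≠ y → x ≠ z → y ≠ z → x' ≠ y' → x' ≠ z' → y' ≠ z' →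
      ∃ g : G, g • x = x' ∧ g • y = y' ∧ g • z = z' := by
    intro x y z x' y' z' a b c a' b' c'
    haveI := h3
    let u : Fin 3 ↪ Ω := ⟨![x, y, z], by
      intro i j h; fin_cases i <;> fin_cases j <;> simp_all [eq_comm]⟩
    let v : Fin 3 ↪ Ω := ⟨![x', y', z'], by
      intro i j h; fin_cases i <;> fin_cases j <;> simp_all [eq_comm]⟩
    obtain ⟨g, hg⟩ := MulAction.exists_smul_eq G u v
    exact ⟨g, DFunLike.congr_fun hg 0, DFunLike.congr_fun hg 1, DFunLike.congr_fun hg 2⟩
  obtain ⟨a, b, c, hab, hac, hbc⟩ := (Fintype.two_lt_card_iff).1 (show 2 < Fintype.card Ω by omega)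
  -- agreement on three points
  have heq : ∀ g h : G, ∀ x y z : Ω, x ≠ y → x ≠ z → y ≠ z → g • x = h • x → g • y = h • y → g • z = h • z → g = h := by
    intro g h x y z hxy hxz hyz ex ey ez
    have := hsharp (h⁻¹ * g) x y z hxy hxz hyz (by rw [mul_smul, ex, inv_smul_smul])
      (by rw [mul_smul, ey, inv_smul_smul]) (by rw [mul_smul, ez, inv_smul_smul])
    exact (inv_mul_eq_one.1 this).symm
  -- an involution fixes exactly one point
  have hinv : ∀ t : G, t * t = 1 → t ≠ 1 → ∀ x y : Ω, t • x = x → t • y = y → x = y := by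
    intro t ht ht1 x y hx hy
    by_contra hxy
    have htt : ∀ w : Ω, t • t • w = w := fun w => by rw [← mul_smul, ht, one_smul]
    have he : Even ((Finset.univ : Finset Ω).filter fun w => t • w ≠ w).card := by
      have hσ : Function.Involutive fun w : Ω => t • w := htt
      have := Equiv.Perm.sum_cycleType (σ := (MulAction.toPerm t : Equiv.Perm Ω))
      have h2 : ∀ n ∈ (MulAction.toPerm t : Equiv.Perm Ω).cycleType, n = 2 := fun n hn => by
        have := Equiv.Perm.dvd_of_mem_cycleType hn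
        have h2' := Equiv.Perm.two_le_of_mem_cycleType hn
        have : n ∣ 2 := this.trans (orderOf_dvd_of_pow_eq_one (by rw [pow_two]; ext w; exact htt w))
        have := Nat.le_of_dvd (by norm_num) this
        omega
      have e : (MulAction.toPerm t : Equiv.Perm Ω).support = (Finset.univ : Finset Ω).filter fun w => t • w ≠ w := by
        ext w; simp [Equiv.Perm.mem_support]
      rw [← e, ← this]
      refine even_iff_two_dvd.2 (Multiset.dvd_sum fun n hn => by rw [h2 n hn])
    have hsplit := Finset.card_filter_add_card_filter_not (s := (Finset.univ : Finset Ω)) (fun w => t • w ≠ w)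
    simp only [not_not, Finset.card_univ] at hsplit
    have hle : ((Finset.univ : Finset Ω).filter fun w => t • w = w).card = 2 := by
      refine le_antisymm ?_ ?_
      · by_contra hgt
        obtain ⟨u, hu, hu1, hu2⟩ : ∃ u, t • u = u ∧ u ≠ x ∧ u ≠ y := by
          by_contra hno
          push Not at hno
          refine hgt ((Finset.card_le_card (t := {x, y}) fun u hu => ?_).trans Finset.card_le_two)
          simp only [Finset.mem_filter, Finset.mem_univ, true_and] at hu
          by_cases h : u = x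
          · simp [h]
          · simp [hno u hu h]
        exact ht1 (hsharp t x y u hxy hu1.symm hu2.symm hx hy hu)
      · rw [← Finset.card_pair hxy]
        exact Finset.card_le_card fun u hu => by
          simp only [Finset.mem_insert, Finset.mem_singleton] at hu
          rcases hu with rfl | rfl <;> simp [hx, hy]
    rw [hle] at hsplit
    obtain ⟨k, hk⟩ := he
    obtain ⟨l, hl⟩ := hodd
    omega
  -- the stabilizer of `a`
  set A := stabilizer G a with hA
  let X := {x : Ω // x ≠ a}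
  have hq : Fintype.card X = Fintype.card Ω - 1 := by
    rw [Fintype.card_subtype_compl, Fintype.card_subtype_eq]
  let D : Finset G := Finset.univ.filter fun g => g ∈ A ∧ ∀ x : X, g • (x : Ω) ≠ (x : Ω)
  have hswap : ∀ x y : X, x ≠ y → ∃ t : G, t ∈ D ∧ t * t = 1 ∧ t • (x : Ω) = y := by
    intro x y hxy
    have hne : (x : Ω) ≠ y := fun h => hxy (Subtype.ext h)
    obtain ⟨t, t1, t2, t3⟩ := h3' a x y a y x x.2.symm y.2.symm hne y.2.symm x.2.symm hne.symm
    have ht : t * t = 1 := hsharp _ a x y x.2.symm y.2.symm hne (by rw [mul_smul, t1, t1])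
      (by rw [mul_smul, t2, t3]) (by rw [mul_smul, t3, t2])
    have ht1 : t ≠ 1 := fun h => hne (by rw [← t2, h, one_smul])
    refine ⟨t, ?_, ht, t2⟩
    simp only [D, Finset.mem_filter, Finset.mem_univ, true_and]
    exact ⟨t1, fun w hw => w.2 (hinv t ht ht1 w a hw t1)⟩
  have hDcard : D.card = Fintype.card X - 1 := by
    have hbij : ∀ x : X, (Finset.univ.filter fun g : G => g ∈ A ∧ g • (x : Ω) = x).card = Fintype.card X - 1 := by
      intro x
      obtain ⟨z, hz⟩ : ∃ z : X, z ≠ x := Fintype.exists_ne_of_one_lt_card (by omega) x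
      have hzx : (z : Ω) ≠ x := fun h => hz (Subtype.ext h)
      rw [show Fintype.card X - 1 = (Finset.univ.erase x).card by rw [Finset.card_erase_of_mem (Finset.mem_univ _), Finset.card_univ]]
      refine Finset.card_bij (fun g hg => ⟨g • (z : Ω), fun h => z.2 (smul_left_cancel g (h.trans (Finset.mem_filter.1 hg).2.1.symm))⟩) ?_ ?_ ?_
      · intro g hg
        refine Finset.mem_erase.2 ⟨fun h => hzx ?_, Finset.mem_univ _⟩
        exact smul_left_cancel g ((congrArg Subtype.val h).trans (Finset.mem_filter.1 hg).2.2.symm)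
      · intro g hg g' hg' e
        exact heq g g' a x z x.2.symm z.2.symm hzx.symm ((Finset.mem_filter.1 hg).2.1.trans (Finset.mem_filter.1 hg').2.1.symm)
          ((Finset.mem_filter.1 hg).2.2.trans (Finset.mem_filter.1 hg').2.2.symm) (congrArg Subtype.val e)
      · intro w hw
        have hwx : (w : Ω) ≠ x := fun h => (Finset.mem_erase.1 hw).1 (Subtype.ext h)
        obtain ⟨g, g1, g2, g3⟩ := h3' a x z a x w x.2.symm z.2.symm hzx.symm x.2.symm w.2.symm hwx.symm
        exact ⟨g, Finset.mem_filter.2 ⟨Finset.mem_univ _, g1, g2⟩, Subtype.ext g3⟩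
    -- double count fixed points in `A`
    let T : Finset G := Finset.univ.filter fun g => g ∈ A
    have hT : T.card = Fintype.card X * (Fintype.card X - 1) := by
      obtain ⟨x₀, x₁, hx01⟩ := Fintype.exists_pair_of_one_lt_card (show 1 < Fintype.card X by omega)
      have h01 : (x₀ : Ω) ≠ x₁ := fun h => hx01 (Subtype.ext h)
      rw [Finset.card_eq_sum_card_fiberwise (f := fun g => g • (x₀ : Ω)) (t := Finset.univ.filter fun w => w ≠ a)
        (fun g hg => Finset.mem_filter.2 ⟨Finset.mem_univ _, fun h => x₀.2 (smul_left_cancel g (h.trans (Finset.mem_filter.1 hg).2.symm))⟩)]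
      rw [Finset.sum_congr rfl (g := fun _ => Fintype.card X - 1), Finset.sum_const, smul_eq_mul,
        ← Fintype.card_subtype]
      intro w hw
      have hwa : w ≠ a := (Finset.mem_filter.1 hw).2
      obtain ⟨z, hz⟩ : ∃ z : X, z ≠ ⟨w, hwa⟩ := Fintype.exists_ne_of_one_lt_card (by omega) _
      obtain ⟨k, k1, k2, -⟩ := h3' a x₀ x₁ a w z x₀.2.symm x₁.2.symm h01 hwa.symm z.2.symm (fun h => hz (Subtype.ext h.symm))
      rw [← hbij x₀]
      refine Finset.card_bij (fun g _ => k⁻¹ * g) ?_ ?_ ?_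
      · intro g hg
        simp only [T, Finset.mem_filter, Finset.mem_univ, true_and] at hg ⊢
        refine ⟨A.mul_mem (A.inv_mem k1) hg.1, ?_⟩
        rw [mul_smul, hg.2, ← k2, inv_smul_smul]
      · intro g _ g' _ e; exact mul_left_cancel e
      · intro g hg
        simp only [T, Finset.mem_filter, Finset.mem_univ, true_and] at hg ⊢
        exact ⟨k * g, ⟨A.mul_mem k1 hg.1, by rw [mul_smul, hg.2, k2]⟩, by simp⟩
    let fx : G → ℕ := fun g => (Finset.univ.filter fun x : X => g • (x : Ω) = x).card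
    have hsum : ∑ g ∈ T, fx g = T.card := by
      simp only [fx, Finset.card_filter]
      rw [Finset.sum_comm, Finset.sum_congr rfl (g := fun _ => Fintype.card X - 1), Finset.sum_const, Finset.card_univ,
        smul_eq_mul, hT]
      intro x _
      rw [← hbij x, ← Finset.card_filter, Finset.filter_filter]
    have h1T : (1 : G) ∈ T := Finset.mem_filter.2 ⟨Finset.mem_univ _, A.one_mem⟩
    rw [← Finset.add_sum_erase T fx h1T, show fx 1 = Fintype.card X by simp [fx]] at hsum
    have hsub : ∀ g ∈ T.erase 1, fx g = if g ∈ D then 0 else 1 := by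
      intro g hg
      obtain ⟨hg1, hgT⟩ := Finset.mem_erase.1 hg
      have hga : g • a = a := (Finset.mem_filter.1 hgT).2
      split_ifs with hD
      · exact Finset.card_eq_zero.2 (Finset.filter_eq_empty_iff.2 fun x _ => (Finset.mem_filter.1 hD).2.2 x)
      · refine le_antisymm (Finset.card_le_one.2 fun x hx y hy => ?_) ?_
        · by_contra hxy
          exact hg1 (hsharp g a x y x.2.symm y.2.symm (fun h => hxy (Subtype.ext h)) hga
            (Finset.mem_filter.1 hx).2 (Finset.mem_filter.1 hy).2)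
        · refine Finset.card_pos.2 ?_
          by_contra he
          rw [Finset.not_nonempty_iff_eq_empty, Finset.filter_eq_empty_iff] at he
          exact hD (Finset.mem_filter.2 ⟨Finset.mem_univ _, hga, fun x => he (Finset.mem_univ x)⟩)
    rw [Finset.sum_congr rfl hsub, Finset.sum_ite, Finset.sum_const_zero, zero_add, Finset.sum_const, smul_eq_mul, mul_one] at hsum
    have hDsub : (T.erase 1).filter (fun g => g ∈ D) = D := by
      ext g
      simp only [Finset.mem_filter, Finset.mem_erase, and_iff_right_iff_imp]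
      intro hg
      refine ⟨fun h => ?_, Finset.mem_filter.2 ⟨Finset.mem_univ _, (Finset.mem_filter.1 hg).2.1⟩⟩
      exact (Finset.mem_filter.1 hg).2.2 ⟨b, hab.symm⟩ (by rw [h, one_smul])
    have := Finset.card_filter_add_card_filter_not (s := T.erase 1) (fun g => g ∈ D)
    rw [hDsub, Finset.card_erase_of_mem h1T] at this
    have hpos : 0 < T.card := Finset.card_pos.2 ⟨1, h1T⟩
    omega
  -- the elements of `D` are the involutions of `A`
  have hDinv : ∀ g ∈ D, g * g = 1 := by
    let B : X := ⟨b, hab.symm⟩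
    have hch : ∀ y : X, ∃ t : G, y ≠ B → t ∈ D ∧ t * t = 1 ∧ t • b = y := by
      intro y
      by_cases hy : y = B
      · exact ⟨1, fun h => absurd hy h⟩
      · obtain ⟨t, ht⟩ := hswap B y (Ne.symm hy); exact ⟨t, fun _ => ht⟩
    choose τ₀ hτ₀ using hch
    intro g hg
    have hsub : (Finset.univ.erase B).image τ₀ ⊆ D := fun t ht => by
      obtain ⟨y, hy, rfl⟩ := Finset.mem_image.1 ht
      exact (hτ₀ y (Finset.mem_erase.1 hy).1).1
    have hinj : Set.InjOn τ₀ ↑(Finset.univ.erase B) := fun y hy z hz e => Subtype.ext (by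
      rw [← (hτ₀ y (Finset.mem_erase.1 hy).1).2.2, e, (hτ₀ z (Finset.mem_erase.1 hz).1).2.2])
    have := Finset.eq_of_subset_of_card_le hsub (by
      rw [Finset.card_image_of_injOn hinj, Finset.card_erase_of_mem (Finset.mem_univ _), hDcard, Finset.card_univ])
    rw [← this, Finset.mem_image] at hg
    obtain ⟨y, hy, rfl⟩ := hg
    exact (hτ₀ y (Finset.mem_erase.1 hy).1).2.1
  let inV : G → Prop := fun g => g = 1 ∨ g ∈ D
  have hVA : ∀ g, inV g → g • a = a := by
    rintro g (rfl | hg)
    · exact one_smul G a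
    · exact (Finset.mem_filter.1 hg).2.1
  have hVsq : ∀ g, inV g → g * g = 1 := by
    rintro g (rfl | hg)
    · exact one_mul 1
    · exact hDinv g hg
  have hVuniq : ∀ g h, inV g → inV h → ∀ x : X, g • (x : Ω) = h • (x : Ω) → g = h := by
    intro g h hg hh x e
    by_contra hne
    have hfixg : ∀ k, inV k → k • (x : Ω) = x → k = 1 := by
      rintro k (rfl | hk) hkx
      · rfl
      · exact absurd hkx ((Finset.mem_filter.1 hk).2.2 x)
    by_cases hgx : g • (x : Ω) = x
    · exact hne ((hfixg g hg hgx).trans (hfixg h hh (e ▸ hgx)).symm)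
    have eg : g • g • (x : Ω) = x := by rw [← mul_smul, hVsq g hg, one_smul]
    have eh : h • h • (x : Ω) = x := by rw [← mul_smul, hVsq h hh, one_smul]
    exact hne (heq g h a x (g • (x : Ω)) x.2.symm
      (fun h' => x.2 (smul_left_cancel g ((hVA g hg).trans h').symm)) (Ne.symm hgx)
      ((hVA g hg).trans (hVA h hh).symm) e (by rw [eg, e, eh]))
  have hVmul : ∀ g h, inV g → inV h → inV (g * h) := by
    intro g h hg hh
    by_cases he : g = h
    · exact Or.inl (by rw [he, hVsq h hh])
    refine Or.inr (Finset.mem_filter.2 ⟨Finset.mem_univ _, ?_, fun x hx => he (hVuniq g h hg hh x ?_)⟩)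
    · show (g * h) • a = a; rw [mul_smul, hVA h hh, hVA g hg]
    · conv_lhs => rw [← hx]
      rw [← mul_smul, ← mul_assoc, hVsq g hg, one_mul]
  have hτ : ∀ x : X, ∃ t, inV t ∧ t • b = (x : Ω) := by
    intro x
    by_cases hx : x = ⟨b, hab.symm⟩
    · exact ⟨1, Or.inl rfl, by rw [one_smul, hx]⟩
    · obtain ⟨t, ht, -, htb⟩ := hswap ⟨b, hab.symm⟩ x (Ne.symm hx)
      exact ⟨t, Or.inr ht, htb⟩
  choose τ hτV hτb using hτ
  have hτu : ∀ t (x : X), inV t → t • b = (x : Ω) → t = τ x := fun t x ht e =>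
    hVuniq t (τ x) ht (hτV x) ⟨b, hab.symm⟩ (e.trans (hτb x).symm)
  -- the two-point stabilizer
  let H : Subgroup G := stabilizer G a ⊓ stabilizer G b
  obtain ⟨s, sa, sb, sc⟩ := h3' a b c b a c hab hac hbc hab.symm hbc hac
  have hss : s * s = 1 := hsharp _ a b c hab hac hbc (by rw [mul_smul, sa, sb]) (by rw [mul_smul, sb, sa]) (by rw [mul_smul, sc, sc])
  have hs1 : s ≠ 1 := fun h => hab (by rw [← sa, h, one_smul])
  have hsi : s⁻¹ = s := inv_eq_of_mul_eq_one_left hss
  have hsH : ∀ h ∈ H, s * h * s ∈ H := fun h hh => ⟨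
    show (s * h * s) • a = a by rw [mul_smul, mul_smul, sa, show h • b = b from hh.2, sb],
    show (s * h * s) • b = b by rw [mul_smul, mul_smul, sb, show h • a = a from hh.1, sa]⟩
  let φ : H →* H :=
    { toFun := fun h => ⟨s * h * s, hsH h h.2⟩
      map_one' := Subtype.ext (by simp [hss])
      map_mul' := fun g h => Subtype.ext (by
        show s * ((g : G) * h) * s = s * g * s * (s * h * s)
        rw [show s * (g : G) * s * (s * h * s) = s * g * (s * s) * h * s by group, hss]; group) }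
  have hφ : MonoidHom.FixedPointFree φ := by
    intro h e
    have e' : s * (h : G) * s = h := congrArg Subtype.val e
    have e2 : s * (h : G) = (h : G) * s := by
      calc s * (h : G) = s * h * (s * s) := by rw [hss, mul_one]
        _ = _ := by rw [← mul_assoc, e']
    have hc : s • ((h : G) • c) = (h : G) • c := by rw [← mul_smul, e2, mul_smul, sc]
    exact Subtype.ext (hsharp h a b c hab hac hbc h.2.1 h.2.2 (hinv s hss hs1 _ c hc sc))
  have hφ2 : Function.Involutive φ := fun h => Subtype.ext (by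
    show s * (s * (h : G) * s) * s = h
    rw [show s * (s * (h : G) * s) * s = (s * s) * h * (s * s) by group, hss, one_mul, mul_one])
  have hHc : ∀ g h : H, g * h = h * g := fun g h => (hφ.commute_all_of_involutive hφ2 g h).eq
  have hμ : ∀ x : X, (x : Ω) ≠ b → ∃ h : H, (h : G) • c = x := by
    intro x hx
    obtain ⟨g, g1, g2, g3⟩ := h3' a b c a b x hab hac hbc hab x.2.symm hx.symm
    exact ⟨⟨g, g1, g2⟩, g3⟩
  have hμ' : ∀ x : X, ∃ h : H, (x : Ω) ≠ b → (h : G) • c = x := fun x => by
    by_cases hx : (x : Ω) = b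
    · exact ⟨1, fun h => absurd hx h⟩
    · obtain ⟨h, hh⟩ := hμ x hx; exact ⟨h, fun _ => hh⟩
  choose μ hμc using hμ'
  have hμu : ∀ (h : H) (x : X), (h : G) • c = x → h = μ x := by
    intro h x e
    have hxb : (x : Ω) ≠ b := fun hx => hbc (smul_left_cancel (h : G) ((e.trans hx).trans h.2.2.symm)).symm
    exact Subtype.ext (heq _ _ a b c hab hac hbc (h.2.1.trans (μ x).2.1.symm) (h.2.2.trans (μ x).2.2.symm) (e.trans (hμc x hxb).symm))
  -- the field
  have hAX : ∀ g : G, g • a = a → ∀ x : X, g • (x : Ω) ≠ a := fun g hg x h => x.2 (smul_left_cancel g (h.trans hg.symm))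
  let Z : X := ⟨b, hab.symm⟩
  let O : X := ⟨c, hac.symm⟩
  letI : Add X := ⟨fun x y => ⟨τ x • (y : Ω), hAX _ (hVA _ (hτV x)) y⟩⟩
  letI : Mul X := ⟨fun x y => if (x : Ω) = b then Z else ⟨(μ x : G) • (y : Ω), hAX _ (μ x).2.1 y⟩⟩
  letI : Zero X := ⟨Z⟩
  letI : One X := ⟨O⟩
  letI : Neg X := ⟨fun x => x⟩
  letI : Inv X := ⟨fun x => if hx : (x : Ω) = b then Z else ⟨s • (x : Ω), fun h => hx (smul_left_cancel s (h.trans sb.symm))⟩⟩
  have add_val : ∀ x y : X, ((x + y : X) : Ω) = τ x • (y : Ω) := fun x y => rfl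
  have mul_val : ∀ x y : X, (x : Ω) ≠ b → ((x * y : X) : Ω) = (μ x : G) • (y : Ω) := fun x y hx => by
    show (((if (x : Ω) = b then Z else _) : X) : Ω) = _
    rw [if_neg hx]
  have zero_mul' : ∀ x y : X, (x : Ω) = b → x * y = Z := fun x y hx => if_pos hx
  have mul_ne : ∀ x y : X, (x : Ω) ≠ b → (y : Ω) ≠ b → ((x * y : X) : Ω) ≠ b := fun x y hx hy h => hy (by
    rw [mul_val x y hx] at h
    exact smul_left_cancel _ (h.trans (μ x).2.2.symm))
  have τ_add : ∀ x y : X, τ (x + y) = τ x * τ y := fun x y => (hτu _ _ (hVmul _ _ (hτV x) (hτV y)) (by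
    rw [mul_smul, hτb, add_val])).symm
  have τ_zero : τ Z = 1 := (hτu 1 Z (Or.inl rfl) (one_smul G b)).symm
  have μ_mul : ∀ x y : X, (x : Ω) ≠ b → (y : Ω) ≠ b → μ (x * y) = μ x * μ y := fun x y hx hy => (hμu _ _ (by
    rw [mul_val x y hx, Subgroup.coe_mul, mul_smul, hμc y hy])).symm
  have μ_one : μ O = 1 := (hμu 1 O (one_smul G c)).symm
  have mul_comm' : ∀ x y : X, x * y = y * x := by
    have hz : ∀ x y : X, (y : Ω) = b → x * y = Z := fun x y hy => by
      by_cases hx : (x : Ω) = b
      · exact zero_mul' x y hx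
      · exact Subtype.ext (by rw [mul_val x y hx, hy]; exact (μ x).2.2)
    intro x y
    by_cases hx : (x : Ω) = b
    · rw [zero_mul' x y hx, hz y x hx]
    by_cases hy : (y : Ω) = b
    · rw [zero_mul' y x hy, hz x y hy]
    refine Subtype.ext ?_
    rw [mul_val x y hx, mul_val y x hy, ← hμc y hy, ← hμc x hx, ← mul_smul, ← mul_smul,
      ← Subgroup.coe_mul, ← Subgroup.coe_mul, hHc]
  have mul_assoc' : ∀ x y z : X, x * y * z = x * (y * z) := by
    intro x y z
    by_cases hx : (x : Ω) = b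
    · rw [zero_mul' x y hx, zero_mul' Z z rfl, zero_mul' x _ hx]
    by_cases hy : (y : Ω) = b
    · have e : x * y = Z := by rw [mul_comm', zero_mul' y x hy]
      rw [e, zero_mul' Z z rfl, zero_mul' y z hy, mul_comm', zero_mul' Z x rfl]
    refine Subtype.ext ?_
    rw [mul_val _ z (mul_ne x y hx hy), μ_mul x y hx hy, mul_val x _ hx, mul_val y z hy, Subgroup.coe_mul, mul_smul]
  have add_assoc' : ∀ x y z : X, x + y + z = x + (y + z) := fun x y z => Subtype.ext (by
    rw [add_val, τ_add, add_val, add_val, mul_smul])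
  have hconjV : ∀ h ∈ H, ∀ v, inV v → inV (h * v * h⁻¹) := by
    rintro h hh v (rfl | hv)
    · exact Or.inl (by group)
    · obtain ⟨-, hva, hvf⟩ := Finset.mem_filter.1 hv
      refine Or.inr (Finset.mem_filter.2 ⟨Finset.mem_univ _, A.mul_mem (A.mul_mem hh.1 hva) (A.inv_mem hh.1), fun x hx => ?_⟩)
      have hha : h⁻¹ • a = a := inv_smul_eq_iff.2 (show h • a = a from hh.1).symm
      refine hvf ⟨h⁻¹ • (x : Ω), hAX _ hha x⟩ ?_
      rw [mul_smul, mul_smul] at hx
      exact eq_inv_smul_iff.2 hx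
  have distrib' : ∀ x y z : X, x * (y + z) = x * y + x * z := by
    intro x y z
    by_cases hx : (x : Ω) = b
    · rw [zero_mul' x _ hx, zero_mul' x _ hx, zero_mul' x _ hx]
      exact Subtype.ext (by rw [add_val, τ_zero, one_smul])
    refine Subtype.ext ?_
    have e : (μ x : G) * τ y * (μ x : G)⁻¹ = τ (x * y) := hτu _ _ (hconjV _ (μ x).2 _ (hτV y)) (by
      rw [mul_smul, mul_smul, inv_smul_eq_iff.2 (show ((μ x : G)) • b = b from (μ x).2.2).symm, hτb, mul_val x y hx])
    rw [mul_val x _ hx, add_val, add_val, mul_val x z hx, ← e, mul_smul, mul_smul, inv_smul_smul]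
  letI fld : Field X := Field.ofMinimalAxioms X add_assoc'
    (fun x => Subtype.ext (by show τ Z • (x : Ω) = x; rw [τ_zero, one_smul]))
    (fun x => Subtype.ext (by
      show τ x • (x : Ω) = b
      rw [← hτb x, ← mul_smul, hVsq _ (hτV x), one_smul]))
    mul_assoc' mul_comm'
    (fun x => Subtype.ext (by show ((O * x : X) : Ω) = x; rw [mul_val O x (Ne.symm hbc), μ_one, Subgroup.coe_one, one_smul]))
    (fun x hx => by
      have hxb : (x : Ω) ≠ b := fun h => hx (Subtype.ext h)
      refine Subtype.ext ?_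
      rw [mul_val x _ hxb]
      show (μ x : G) • ((if hx : (x : Ω) = b then Z else _ : X) : Ω) = c
      rw [dif_neg hxb]
      show (μ x : G) • s • (x : Ω) = c
      have e := congrArg Subtype.val (congrFun (hφ.coe_eq_inv_of_involutive hφ2) (μ x))
      have e' : s * (μ x : G) * s = (μ x : G)⁻¹ := e
      rw [← hμc x hxb, ← mul_smul, ← mul_smul]
      have : (μ x : G) * (s * (μ x : G)) = s := by
        have h2 : s * (μ x : G) = (μ x : G)⁻¹ * s := by
          calc s * (μ x : G) = s * μ x * (s * s) := by rw [hss, mul_one]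
            _ = _ := by rw [← mul_assoc, e']
        rw [h2, mul_inv_cancel_left]
      rw [mul_assoc, this, sc])
    (dif_pos rfl) distrib' ⟨Z, O, fun h => hbc (congrArg Subtype.val h)⟩
  have h2X : (1 : X) + 1 = 0 := Subtype.ext (by
    show τ O • (O : Ω) = b
    rw [← hτb O, ← mul_smul, hVsq _ (hτV O), one_smul])
  haveI : CharP X 2 := by
    have : ringChar X ∣ 2 := ringChar.dvd (by rw [Nat.cast_two, ← one_add_one_eq_two]; exact h2X)
    rcases (Nat.dvd_prime Nat.prime_two).1 this with h | h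
    · exact absurd h (CharP.ringChar_ne_one)
    · exact ringChar.eq_iff.1 h
  obtain ⟨f, -, hf⟩ := FiniteField.card X 2
  let F := GaloisField 2 (f : ℕ)
  haveI : Fintype F := Fintype.ofFinite F
  have hF : Fintype.card F = 2 ^ (f : ℕ) := by
    rw [← Nat.card_eq_fintype_card]; exact GaloisField.card 2 _ f.pos.ne'
  let e : X ≃+* F := FiniteField.ringEquivOfCardEq (hf.trans hF.symm)
  have hX1 : Nat.card X = 2 ^ (f : ℕ) := Nat.card_eq_fintype_card.trans hf
  have hX2 : Nat.card X = Fintype.card Ω - 1 := Nat.card_eq_fintype_card.trans hq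
  have hΩ : Fintype.card Ω = 2 ^ (f : ℕ) + 1 := by omega
  refine ⟨f, f.pos, hΩ, F, inferInstance, inferInstance, hF, ?_⟩
  let P := Projectivization F (Fin 2 → F)
  let ψ : Ω → P := fun w => if h : w = a then Projectivization.mk F ![1, 0] (by simp)
    else Projectivization.mk F ![e ⟨w, h⟩, 1] (by simp)
  have ψa : ψ a = Projectivization.mk F ![1, 0] (by simp) := dif_pos rfl
  have ψx : ∀ x : X, ψ (x : Ω) = Projectivization.mk F ![e x, 1] (by simp) := fun x => dif_neg x.2
  have ψinj : Function.Injective ψ := by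
    intro v w hvw
    by_cases hv : v = a <;> by_cases hw : w = a
    · rw [hv, hw]
    · rw [hv, ψa, ψx ⟨w, hw⟩, Projectivization.mk_eq_mk_iff'] at hvw
      obtain ⟨k, hk⟩ := hvw
      have h0 := congrFun hk 1
      have h1 := congrFun hk 0
      simp at h0 h1
      simp [h0] at h1
    · rw [hw, ψa, ψx ⟨v, hv⟩, Projectivization.mk_eq_mk_iff'] at hvw
      obtain ⟨k, hk⟩ := hvw
      have h0 := congrFun hk 1
      simp at h0
    · rw [ψx ⟨v, hv⟩, ψx ⟨w, hw⟩, Projectivization.mk_eq_mk_iff'] at hvw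
      obtain ⟨k, hk⟩ := hvw
      have h0 := congrFun hk 1
      have h1 := congrFun hk 0
      simp at h0 h1
      rw [h0, one_mul] at h1
      exact (congrArg Subtype.val (e.injective h1)).symm
  have hψ : Function.Bijective ψ := ψinj.bijective_of_nat_card_le (by
    rw [Projectivization.card_of_finrank_two F _ (Module.finrank_fin_fun F), Nat.card_eq_fintype_card, Nat.card_eq_fintype_card, hF, hΩ])
  have ψb : ψ b = Projectivization.mk F ![0, 1] (by simp) := (ψx Z).trans
    ((Projectivization.mk_eq_mk_iff' F _ _ _ _).2 ⟨1, by rw [one_smul, show e Z = 0 from map_zero e]⟩)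
  let Ψ : Ω ≃ P := Equiv.ofBijective ψ hψ
  let Φ : G →* Equiv.Perm P := (Ψ.permCongrHom : Equiv.Perm Ω ≃* Equiv.Perm P).toMonoidHom.comp (MulAction.toPermHom G Ω)
  have Φap : ∀ (g : G) (w : Ω), Φ g (ψ w) = ψ (g • w) := fun g w => by
    show Ψ (g • Ψ.symm (Ψ w)) = ψ (g • w)
    rw [Equiv.symm_apply_apply]; rfl
  let K := Matrix.ProjGenLinGroup (Fin 2) F
  let R : K →* Equiv.Perm P := MulAction.toPermHom K P
  have gen : ∀ (g : G) (M : GL (Fin 2) F), (∀ w : Ω, (Matrix.ProjGenLinGroup.mk M : K) • ψ w = ψ (g • w)) → Φ g ∈ R.range :=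
    fun g M hM => ⟨Matrix.ProjGenLinGroup.mk M, Equiv.ext fun p => by
      obtain ⟨w, rfl⟩ := hψ.2 p
      exact (hM w).trans (Φap g w).symm⟩
  have htrans : ∀ v : G, inV v → Φ v ∈ R.range := by
    intro v hv
    set x : X := ⟨v • b, hAX v (hVA v hv) Z⟩
    have hvx : v = τ x := hτu v x hv rfl
    refine gen v (Matrix.GeneralLinearGroup.mkOfDetNeZero !![1, e x; 0, 1] (by simp [Matrix.det_fin_two])) fun w => ?_
    by_cases hw : w = a
    · rw [hw, hVA v hv, ψa, Projectivization.PGL.mk_smul_mk, Projectivization.mk_eq_mk_iff']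
      exact ⟨1, funext fun i => by fin_cases i <;> simp [Matrix.GeneralLinearGroup.mkOfDetNeZero, Units.smul_def]⟩
    · rw [ψx ⟨w, hw⟩, show ψ (v • w) = ψ ((x + ⟨w, hw⟩ : X) : Ω) by rw [add_val, ← hvx], ψx, Projectivization.PGL.mk_smul_mk,
        Projectivization.mk_eq_mk_iff', map_add]
      exact ⟨1, funext fun i => by fin_cases i <;> simp [Matrix.GeneralLinearGroup.mkOfDetNeZero, Units.smul_def, add_comm]⟩
  have hdiag : ∀ h ∈ H, Φ h ∈ R.range := by
    intro h hh
    set x : X := ⟨h • c, hAX h hh.1 O⟩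
    have hhx : (⟨h, hh⟩ : H) = μ x := hμu _ _ rfl
    have hxb : (x : Ω) ≠ b := fun e' => hbc (smul_left_cancel h (e'.trans (show h • b = b from hh.2).symm)).symm
    have hx0 : e x ≠ 0 := fun e' => hxb (congrArg Subtype.val ((map_eq_zero_iff e e.injective).1 e'))
    refine gen h (Matrix.GeneralLinearGroup.mkOfDetNeZero !![e x, 0; 0, 1] (by simp [Matrix.det_fin_two, hx0])) fun w => ?_
    by_cases hw : w = a
    · rw [hw, show h • a = a from hh.1, ψa, Projectivization.PGL.mk_smul_mk, Projectivization.mk_eq_mk_iff']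
      exact ⟨(e x), funext fun i => by fin_cases i <;> simp [Matrix.GeneralLinearGroup.mkOfDetNeZero, Units.smul_def]⟩
    · rw [ψx ⟨w, hw⟩, show ψ (h • w) = ψ ((x * ⟨w, hw⟩ : X) : Ω) by rw [mul_val _ _ hxb, ← hhx], ψx, Projectivization.PGL.mk_smul_mk,
        Projectivization.mk_eq_mk_iff', map_mul]
      exact ⟨1, funext fun i => by fin_cases i <;> simp [Matrix.GeneralLinearGroup.mkOfDetNeZero, Units.smul_def]⟩
  have hswap' : Φ s ∈ R.range := by
    refine gen s (Matrix.GeneralLinearGroup.mkOfDetNeZero !![0, 1; 1, 0] (by simp [Matrix.det_fin_two])) fun w => ?_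
    by_cases hw : w = a
    · rw [hw, sa, ψa, ψb, Projectivization.PGL.mk_smul_mk, Projectivization.mk_eq_mk_iff']
      exact ⟨1, funext fun i => by fin_cases i <;> simp [Matrix.GeneralLinearGroup.mkOfDetNeZero, Units.smul_def]⟩
    by_cases hwb : w = b
    · rw [hwb, sb, ψa, ψb, Projectivization.PGL.mk_smul_mk, Projectivization.mk_eq_mk_iff']
      exact ⟨1, funext fun i => by fin_cases i <;> simp [Matrix.GeneralLinearGroup.mkOfDetNeZero, Units.smul_def]⟩
    · have e1 : s • w = (((⟨w, hw⟩ : X)⁻¹ : X) : Ω) := (congrArg Subtype.val (dif_neg hwb : (⟨w, hw⟩ : X)⁻¹ = _)).symm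
      have hx0 : e ⟨w, hw⟩ ≠ 0 := fun e' => hwb (congrArg Subtype.val ((map_eq_zero_iff e e.injective).1 e'))
      rw [ψx ⟨w, hw⟩, e1, ψx, Projectivization.PGL.mk_smul_mk, Projectivization.mk_eq_mk_iff', map_inv₀]
      exact ⟨e ⟨w, hw⟩, funext fun i => by fin_cases i <;> simp [Matrix.GeneralLinearGroup.mkOfDetNeZero, Units.smul_def, hx0]⟩
  have hstab : ∀ g : G, g • a = a → Φ g ∈ R.range := by
    intro g hg
    set x : X := ⟨g • b, hAX g hg Z⟩
    have hh : τ x * g ∈ H := ⟨by show (τ x * g) • a = a; rw [mul_smul, hg, hVA _ (hτV x)],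
      by show (τ x * g) • b = b; rw [mul_smul, show g • b = (x : Ω) from rfl, ← hτb x, ← mul_smul, hVsq _ (hτV x), one_smul]⟩
    have : g = τ x * (τ x * g) := by rw [← mul_assoc, hVsq _ (hτV x), one_mul]
    rw [this, map_mul]
    exact R.range.mul_mem (htrans _ (hτV x)) (hdiag _ hh)
  have hrange : Φ.range ≤ R.range := by
    rintro _ ⟨g, rfl⟩
    by_cases hg : g • a = a
    · exact hstab g hg
    · obtain ⟨y, hy⟩ : ∃ y : X, (y : Ω) = g • a := ⟨⟨g • a, hg⟩, rfl⟩
      have hv := hτV y
      have h1 : (s * (τ y * g)) • a = a := by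
        rw [mul_smul, mul_smul, ← hy, ← hτb y, ← mul_smul (τ y), hVsq _ hv, one_smul, sb]
      have : g = τ y * (s * (s * (τ y * g))) := by
        rw [← mul_assoc s, hss, one_mul, ← mul_assoc, hVsq _ hv, one_mul]
      rw [this, map_mul, map_mul]
      exact R.range.mul_mem (htrans _ hv) (R.range.mul_mem hswap' (hstab _ h1))
  have hne : ∀ x y : Ω, x ≠ y → ψ x ≠ ψ y := fun x y h e' => h (ψinj e')
  have hKsharp := (Cfsg.Agent.S0266.result (F := F)).2
  have hR : Function.Injective R := by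
    refine (injective_iff_map_eq_one R).2 fun k hk => ?_
    exact hKsharp k (ψ a) (ψ b) (ψ c) (hne _ _ hab) (hne _ _ hac) (hne _ _ hbc)
      (Equiv.congr_fun hk _) (Equiv.congr_fun hk _) (Equiv.congr_fun hk _)
  have hΦ : Function.Injective Φ := by
    refine (injective_iff_map_eq_one Φ).2 fun g hg => FaithfulSMul.eq_of_smul_eq_smul (α := Ω) fun w => ?_
    have := Φap g w
    rw [hg] at this
    exact (ψinj this).symm.trans (one_smul G w).symm
  have hle : R.range ≤ Φ.range := by
    rintro _ ⟨k, rfl⟩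
    obtain ⟨xa, ha'⟩ := hψ.2 (k • ψ a)
    obtain ⟨xb, hb'⟩ := hψ.2 (k • ψ b)
    obtain ⟨xc, hc'⟩ := hψ.2 (k • ψ c)
    have d : ∀ u v xu xv : Ω, u ≠ v → ψ xu = k • ψ u → ψ xv = k • ψ v → xu ≠ xv := fun u v xu xv huv eu ev h =>
      hne u v huv (smul_left_cancel k (eu.symm.trans ((congrArg ψ h).trans ev)))
    obtain ⟨g, g1, g2, g3⟩ := h3' a b c xa xb xc hab hac hbc (d a b _ _ hab ha' hb') (d a c _ _ hac ha' hc') (d b c _ _ hbc hb' hc')
    obtain ⟨k', hk'⟩ := hrange ⟨g, rfl⟩
    refine ⟨g, ?_⟩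
    rw [← hk']
    have e3 : ∀ u xu : Ω, g • u = xu → ψ xu = k • ψ u → (k⁻¹ * k') • ψ u = ψ u := fun u xu eg eu => by
      rw [mul_smul, show k' • ψ u = Φ g (ψ u) from Equiv.congr_fun hk' (ψ u), Φap, eg, eu, inv_smul_smul]
    have := hKsharp (k⁻¹ * k') (ψ a) (ψ b) (ψ c) (hne _ _ hab) (hne _ _ hac) (hne _ _ hbc)
      (e3 a xa g1 ha') (e3 b xb g2 hb') (e3 c xc g3 hc')
    rw [inv_mul_eq_one.1 this]
  exact ⟨(MonoidHom.ofInjective hΦ).trans ((MulEquiv.subgroupCongr (le_antisymm hrange hle)).trans (MonoidHom.ofInjective hR).symm)⟩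

end Cfsg.Lib.SharpThreeOdd
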