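import Mathlib

/-! Transitive normal subgroups and their centralisers. -/

namespace Cfsg.Lib.PermGroup.TransitiveNormal

variable {α : Type*} {G : Subgroup (Equiv.Perm α)}

/-- An element centralising a transitive group and fixing a point is the identity. -/
theorem eq_one_of_fix {K : Subgroup G} (hK : MulAction.IsPretransitive K α) {c : Equiv.Perm α}
    (hc : c ∈ Subgroup.centralizer ((K.map G.subtype : Subgroup (Equiv.Perm α)) : Set (Equiv.Perm α)))
    {a : α} (ha : c a = a) : c = 1 := by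
  ext x
  obtain ⟨k, rfl⟩ := hK.exists_smul_eq a x
  have := Subgroup.mem_centralizer_iff.1 hc _ (Subgroup.mem_map_of_mem G.subtype k.2)
  have h' := congrArg (fun f : Equiv.Perm α => f a) this
  simp only [Equiv.Perm.mul_apply, ha] at h'
  exact h'.symm

/-- If a transitive `N` centralises the transitive `K`, it is the whole centraliser and is regular. -/
theorem centralizer_eq {K N : Subgroup G} (hK : MulAction.IsPretransitive K α)
    (hN : MulAction.IsPretransitive N α) [Nonempty α] (hcomm : ∀ k ∈ K, ∀ n ∈ N, Commute k n) :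
    Subgroup.centralizer ((K.map G.subtype : Subgroup (Equiv.Perm α)) : Set (Equiv.Perm α)) =
      N.map G.subtype ∧ ∀ a : α, MulAction.stabilizer N a = ⊥ := by
  have hle : N.map G.subtype ≤
      Subgroup.centralizer ((K.map G.subtype : Subgroup (Equiv.Perm α)) : Set (Equiv.Perm α)) := by
    rintro _ ⟨n, hn, rfl⟩
    rw [Subgroup.mem_centralizer_iff]
    rintro _ ⟨k, hk, rfl⟩
    exact congrArg Subtype.val (hcomm k hk n hn).eq
  refine ⟨le_antisymm (fun c hc => ?_) hle, fun a => ?_⟩
  · obtain ⟨a⟩ := ‹Nonempty α›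
    obtain ⟨n, hn⟩ := hN.exists_smul_eq a (c a)
    have hmem : ((n : G) : Equiv.Perm α)⁻¹ * c = 1 := eq_one_of_fix hK
      (mul_mem (inv_mem (hle (Subgroup.mem_map_of_mem G.subtype n.2))) hc)
      (show ((n : G) : Equiv.Perm α)⁻¹ (c a) = a by rw [← hn]; exact Equiv.symm_apply_apply _ _)
    rw [← inv_mul_eq_one.1 hmem]
    exact Subgroup.mem_map_of_mem G.subtype n.2
  · rw [eq_bot_iff]
    intro n hn
    rw [Subgroup.mem_bot]
    exact Subtype.ext (Subtype.ext (eq_one_of_fix hK (hle (Subgroup.mem_map_of_mem G.subtype n.2)) hn))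

theorem inf_eq_bot {H : Type*} [Group H] {M L : Subgroup H} [M.Normal] [L.Normal]
    (hL : ∀ L' : Subgroup H, L'.Normal → L' ≤ L → L' = ⊥ ∨ L' = L)
    (hM : ∀ L' : Subgroup H, L'.Normal → L' ≤ M → L' = ⊥ ∨ L' = M) (hne : L ≠ M) : L ⊓ M = ⊥ := by
  rcases hL (L ⊓ M) inferInstance inf_le_left with h | h
  · exact h
  rcases hM (L ⊓ M) inferInstance inf_le_right with h' | h'
  · exact h'
  exact absurd (h.symm.trans h') hne

theorem commute_of_minimal {H : Type*} [Group H] {M L : Subgroup H} [hM' : M.Normal] [hL' : L.Normal]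
    (hL : ∀ L' : Subgroup H, L'.Normal → L' ≤ L → L' = ⊥ ∨ L' = L)
    (hM : ∀ L' : Subgroup H, L'.Normal → L' ≤ M → L' = ⊥ ∨ L' = M) (hne : L ≠ M) :
    ∀ m ∈ M, ∀ l ∈ L, Commute m l := fun m hm l hl =>
  Subgroup.commute_of_normal_of_disjoint M L hM' hL'
    (disjoint_iff.2 (by rw [inf_comm]; exact inf_eq_bot hL hM hne)) m l hm hl

theorem le_of_commute {K N L : Subgroup G} (hK : MulAction.IsPretransitive K α)
    (hN : MulAction.IsPretransitive N α) [Nonempty α] (hcomm : ∀ k ∈ K, ∀ n ∈ N, Commute k n)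
    (hL : ∀ k ∈ K, ∀ l ∈ L, Commute k l) : L ≤ N := by
  intro l hl
  have : (l : Equiv.Perm α) ∈
      Subgroup.centralizer ((K.map G.subtype : Subgroup (Equiv.Perm α)) : Set (Equiv.Perm α)) := by
    rw [Subgroup.mem_centralizer_iff]
    rintro _ ⟨k, hk, rfl⟩
    exact congrArg Subtype.val (hL k hk l hl).eq
  rw [(centralizer_eq hK hN hcomm).1] at this
  obtain ⟨n, hn, he⟩ := this
  rwa [← Subtype.ext (show (n : Equiv.Perm α) = l from he)]

theorem nonempty_of_ne_bot {M : Subgroup G} (hM : M ≠ ⊥) : Nonempty α := by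
  by_contra h
  haveI := not_nonempty_iff.1 h
  exact hM (Subsingleton.elim _ _)

end Cfsg.Lib.PermGroup.TransitiveNormal
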